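import Cfsg.Agent.Blocks.BlockSystem

/-!
# Pairs under an abelian maximal pair
-/

namespace Cfsg.Agent.Blocks

universe u

variable {p : ℕ} {M : Ideal Cfsg.AlgInt} {G : Type u} [Group G] [Fintype G]
  {B : Set (Cfsg.IrrCharacter G)} {P : Subgroup G}
  {e : Set (Cfsg.IrrCharacter (Subgroup.centralizer (P : Set G)))}

theorem pe_cp (x : G) {Q : Subgroup G} (f : Set (Cfsg.IrrCharacter (Subgroup.centralizer (Q : Set G)))) :
    pe (cp x (⟨Q, f⟩ : Cfsg.BrauerPairIdx G)).1 (cp x (⟨Q, f⟩ : Cfsg.BrauerPairIdx G)).2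
      = cja x (pe Q f) := by
  simp only [cp]
  rw [pe_imgSet]

theorem cp_fix_iff {x : G} {Q : Subgroup G}
    {f : Set (Cfsg.IrrCharacter (Subgroup.centralizer (Q : Set G)))}
    (hx : x ∈ Subgroup.normalizer (Q : Set G)) :
    cp x (⟨Q, f⟩ : Cfsg.BrauerPairIdx G) = ⟨Q, f⟩ ↔ cja x (pe Q f) = pe Q f := by
  refine ⟨fun h => ?_, fun h => idx_eq (cj_eq_self_of_mem_normalizer hx) ((pe_cp x f).trans h)⟩
  have h3 := congrArg (fun a : Cfsg.BrauerPairIdx G => pe a.1 a.2) h
  rwa [pe_cp] at h3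

theorem mem_normalizer_of_cj_eq {x : G} {Q : Subgroup G} (h : cj x Q = Q) :
    x ∈ Subgroup.normalizer (Q : Set G) := by
  refine Subgroup.mem_normalizer_iff.2 fun q => ⟨fun hq => ?_, fun hq => ?_⟩
  · exact h ▸ mem_cj.2 (by simpa [mul_assoc] using hq)
  · have : x * q * x⁻¹ ∈ cj x Q := h.symm ▸ hq
    simpa [mul_assoc] using mem_cj.1 this

theorem stab_inter_le (hM : Cfsg.IsPModular p M) (he : Cfsg.IsBrauerPair p M P e) {Q : Subgroup G}
    {f : Set (Cfsg.IrrCharacter (Subgroup.centralizer (Q : Set G)))}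
    (hle : Cfsg.SubpairLE p M Q f P e) {y : G} (hy : y ∈ stab P e)
    (hyN : y ∈ Subgroup.normalizer (Q : Set G)) : y ∈ stab Q f := by
  refine ⟨hyN, (cp_fix_iff hyN).1 ?_⟩
  have h1 := below_cp hM y (a := (⟨Q, f⟩ : Cfsg.BrauerPairIdx G)) hle
  rw [(cp_fix_iff hy.1).2 hy.2] at h1
  exact below_unique hM he h1 hle (cj_eq_self_of_mem_normalizer hyN)

theorem abelian_factor (hM : Cfsg.IsPModular p M) (hmax : Cfsg.IsMaximalBrauerPair p M B P e)
    (hab : ∀ x ∈ P, ∀ y ∈ P, x * y = y * x) {Q : Subgroup G}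
    {f : Set (Cfsg.IrrCharacter (Subgroup.centralizer (Q : Set G)))}
    (hle : Cfsg.SubpairLE p M Q f P e) {x : G} (hx : x ∈ stab Q f) :
    ∃ y ∈ stab P e, ∃ c ∈ Subgroup.centralizer (Q : Set G), x = y * c := by
  classical
  haveI := Fintype.ofFinite (Subgroup.centralizer (Q : Set G))
  have hQP : Q ≤ P := le_of_chain hM hle
  have hQf := isBrauerPair_of_le hM hmax.1.1 hle
  have hPC : P ≤ Subgroup.centralizer (Q : Set G) := fun a ha =>
    Subgroup.mem_centralizer_iff.2 fun q hq => hab q (hQP hq) a ha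
  have hCN : Subgroup.centralizer (Q : Set G) ≤ Subgroup.normalizer (Q : Set G) :=
    Subgroup.centralizer_le_normalizer _
  have hD : Cfsg.IsDefectGroup p M f ((P ⊓ Subgroup.centralizer (Q : Set G)).subgroupOf
      (Subgroup.centralizer (Q : Set G))) :=
    (isDefectGroup_iff_max hM le_rfl hCN
      (fun c hc => cja_of_pInvariant (pe_pInvariant_centralizer Q f) hc) hQf.2 rfl hmax hle).2
      fun z _ => by
        rw [inf_eq_left.2 hPC, ← card_cj z⁻¹ P]
        exact Subgroup.card_le_of_le inf_le_left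
  rw [inf_eq_left.2 hPC] at hD
  have key : ∀ R : Subgroup G, R = P → ∀ g,
      Cfsg.IsNormalSubpair p M Q f R g → Cfsg.SubpairLE p M R g P e →
      Cfsg.IsNormalSubpair p M Q f P e := by
    rintro R rfl g h1 h2
    rwa [eq_of_le_of_le hM hmax.1.1 h2 Relation.ReflTransGen.refl] at h1
  obtain ⟨g, hg1, hg2⟩ := exists_above hM hmax.1.1 hle
  have hgD := key _ (inf_eq_left.2 (hPC.trans hCN)) g hg1 hg2
  have hstep := normalSubpairRel_cp hM x (a := ⟨Q, f⟩) (b := ⟨P, e⟩) hgD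
  rw [(cp_fix_iff hx.1).2 hx.2] at hstep
  have hNH : cj x P ≤ Subgroup.centralizer (Q : Set G) := by
    rintro u ⟨a, ha, rfl⟩
    exact centralizer_conj_of_le_normalizer le_rfl x hx.1 a (hPC ha)
  obtain ⟨h, hh, hhle⟩ := exists_conj_in_local hM le_rfl hQf.2 rfl hPC hD hgD (N := cj x P) hNH hstep
  have hbel : Below p M ⟨P, e⟩ (cp (h * x) (⟨P, e⟩ : Cfsg.BrauerPairIdx G)) := by
    rw [← cp_cp]; exact hhle
  have hfst : cj (h * x) P = P :=
    eq_of_le_of_card_le' (le_of_chain hM hbel) (card_cj (h * x) P).ge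
  have hN := mem_normalizer_of_cj_eq hfst
  refine ⟨h * x, ⟨hN, (cp_fix_iff hN).1 ?_⟩, x⁻¹ * h⁻¹ * x, ?_, by group⟩
  · exact below_unique hM hmax.1.1 hbel Relation.ReflTransGen.refl hfst
  · have := centralizer_conj_of_le_normalizer le_rfl x⁻¹
      ((Subgroup.normalizer (Q : Set G)).inv_mem hx.1) h⁻¹
      ((Subgroup.centralizer (Q : Set G)).inv_mem hh)
    simpa using this

theorem abelian_nilpotent_iff (hM : Cfsg.IsPModular p M) (hmax : Cfsg.IsMaximalBrauerPair p M B P e)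
    (hab : ∀ x ∈ P, ∀ y ∈ P, x * y = y * x) :
    Cfsg.IsNilpotentBlock p M B ↔
      ∀ x ∈ stab P e, x ∈ Subgroup.centralizer (P : Set G) := by
  classical
  haveI : Fact p.Prime := ⟨hM.1⟩
  have hPe := hmax.1.1
  constructor
  · intro hnil x hx
    obtain ⟨hCT, hQT, hTN, hTf, -⟩ := stabilizer_local hM hPe.2 (mem_stab hM hPe.2)
    haveI := Fintype.ofFinite (stab P e)
    obtain ⟨F, hF, hFe⟩ := exists_local_block hM hPe hCT hQT hTN hTf
    have hle : Cfsg.SubpairLE p M P e P e := Relation.ReflTransGen.refl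
    have hD := (isDefectGroup_iff_max hM hCT hTN hTf hF hFe hmax hle).2 fun z _ => by
      rw [inf_eq_left.2 hQT, ← card_cj z⁻¹ P]
      exact Subgroup.card_le_of_le inf_le_left
    have hidx := not_dvd_index_local hM hPe hCT hQT hTN hTf hF hFe hD
    have hPC : P ≤ Subgroup.centralizer (P : Set G) := fun a ha =>
      Subgroup.mem_centralizer_iff.2 fun q hq => hab q hq a ha
    have hDC : (P ⊓ stab P e).subgroupOf (stab P e) ≤
        (Subgroup.centralizer (P : Set G)).subgroupOf (stab P e) := fun u hu => hPC hu.1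
    rw [sup_eq_right.2 hDC] at hidx
    haveI hCn : ((Subgroup.centralizer (P : Set G)).subgroupOf (stab P e)).Normal :=
      ⟨fun c hc t => centralizer_conj_of_le_normalizer hTN t t.2 c hc⟩
    set k := ((Subgroup.centralizer (P : Set G)).subgroupOf (stab P e)).index with hk
    have h1 : x ^ k ∈ Subgroup.centralizer (P : Set G) :=
      Subgroup.pow_index_mem ((Subgroup.centralizer (P : Set G)).subgroupOf (stab P e)) ⟨x, hx⟩
    obtain ⟨a, m, hm, hn⟩ := Nat.exists_eq_pow_mul_and_not_dvd (orderOf_pos x).ne' p hM.1.ne_one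
    have h2 : x ^ (p ^ a) ∈ Subgroup.centralizer (P : Set G) := by
      have hmem := (stab P e).pow_mem hx (p ^ a)
      refine hnil.2 P e hmax.1 _ hmem.1 ((mem_stab hM hPe.2 _).1 hmem).2 ?_
      show ¬ p ∣ orderOf (x ^ (p ^ a))
      rw [orderOf_pow' x (pow_ne_zero _ hM.1.ne_zero), hn, Nat.gcd_mul_right_left,
        Nat.mul_div_cancel_left _ (pow_pos hM.1.pos a)]
      exact hm
    have hcop : Nat.Coprime k (p ^ a) :=
      (Nat.Coprime.pow_left a (hM.1.coprime_iff_not_dvd.2 hidx)).symm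
    have hbez := Nat.gcd_eq_gcd_ab k (p ^ a)
    rw [hcop] at hbez
    have : x = (x ^ k) ^ (k.gcdA (p ^ a)) * (x ^ (p ^ a)) ^ (k.gcdB (p ^ a)) := by
      rw [← zpow_natCast x k, ← zpow_natCast x (p ^ a), ← zpow_mul, ← zpow_mul, ← zpow_add, ← hbez]
      exact (zpow_one x).symm
    rw [this]
    exact Subgroup.mul_mem _ (Subgroup.zpow_mem _ h1 _) (Subgroup.zpow_mem _ h2 _)
  · intro hall
    refine ⟨(isBrauerPairOf_iff.1 hmax.1).2.1, fun Q f hQf y hy hst _ => ?_⟩
    have hys : y ∈ stab Q f := (mem_stab hM hQf.1.2 y).2 ⟨hy, hst⟩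
    obtain ⟨x, hx⟩ := exists_conj_le_maximal hM hmax hQf
    have hcN : x * y * x⁻¹ ∈ Subgroup.normalizer ((cj x Q : Subgroup G) : Set G) := by
      refine mem_normalizer_of_cj_eq ?_
      rw [← cj_cj, ← cj_cj, cj_inv_self, cj_eq_self_of_mem_normalizer hy]
    have hc : x * y * x⁻¹ ∈ stab (cj x Q) (imgSet (cjC x Q) f) := by
      refine ⟨hcN, ?_⟩
      show cja _ (pe (cj x Q) (imgSet (cjC x Q) f)) = pe (cj x Q) (imgSet (cjC x Q) f)
      rw [pe_imgSet, cja_cja, show x * y * x⁻¹ * x = x * y by group, ← cja_cja,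
        show cja y (pe Q f) = pe Q f from hys.2]
    obtain ⟨t, ht, c, hcc, heq⟩ := abelian_factor hM hmax hab hx hc
    have : x * y * x⁻¹ ∈ Subgroup.centralizer ((cj x Q : Subgroup G) : Set G) := by
      rw [heq]
      exact Subgroup.mul_mem _ (Subgroup.centralizer_le (le_of_chain hM hx) (hall t ht)) hcc
    have h2 := mem_centralizer_cj this
    simpa [mul_assoc] using h2

end Cfsg.Agent.Blocks
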