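import Cfsg.Agent.Blocks.PairLocal

/-!
# The defect group of a local block covers a Sylow subgroup of the induced automorphisms
-/

namespace Cfsg.Agent.Blocks

universe u

variable {p : ℕ} {M : Ideal Cfsg.AlgInt} {G : Type u} [Group G] [Fintype G]
  {Q : Subgroup G} {f : Set (Cfsg.IrrCharacter (Subgroup.centralizer (Q : Set G)))}
  {T : Subgroup G} [Fintype T] {F : Set (Cfsg.IrrCharacter T)}

theorem not_dvd_index_local (hM : Cfsg.IsPModular p M) (hQf : Cfsg.IsBrauerPair p M Q f)
    (hCT : Subgroup.centralizer (Q : Set G) ≤ T) (hQT : Q ≤ T)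
    (hTN : T ≤ Subgroup.normalizer (Q : Set G)) (hTf : T ≤ fixer (pe Q f))
    (hF : Cfsg.IsPBlock M F) (hFe : emb T (idem F) = pe Q f) {D : Subgroup T}
    (hD : Cfsg.IsDefectGroup p M F D) :
    ¬ p ∣ (D ⊔ (Subgroup.centralizer (Q : Set G)).subgroupOf T).index := by
  classical
  haveI : Fact p.Prime := ⟨hM.1⟩
  haveI := Fintype.ofFinite (Subgroup.centralizer (Q : Set G))
  haveI hC'n : ((Subgroup.centralizer (Q : Set G)).subgroupOf T).Normal :=
    ⟨fun c hc t => centralizer_conj_of_le_normalizer hTN t t.2 c hc⟩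
  obtain ⟨w, hw, hwD⟩ := isDefectGroup_iff.1 hD
  have hDle : D ≤ Subgroup.centralizer ({w} : Set T) := hwD.1
  have hwC : (w : G) ∈ Subgroup.centralizer (Q : Set G) := by
    by_contra hc
    apply hw.2.1
    rw [show Cfsg.blockCoeff F w = (idem F).coeff w from rfl, ← emb_coe T (idem F) w, hFe, pe,
      emb_of_not_mem _ _ hc]
    exact li_zero hM
  set CT := Subgroup.centralizer ({w} : Set T) with hCTdef
  obtain ⟨P, hP⟩ : ∃ P : Sylow p CT, D = (P : Subgroup CT).map CT.subtype := exists_sylow_of_maxP hwD
  set C' := (Subgroup.centralizer (Q : Set G)).subgroupOf T with hC'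
  let π : T →* T ⧸ C' := QuotientGroup.mk' C'
  have hπ : Function.Surjective π := QuotientGroup.mk'_surjective _
  have hker : π.ker = C' := QuotientGroup.ker_mk' _
  set K : Subgroup T := (CT.map π).comap π with hK
  -- step one
  have step1 : ¬ p ∣ (D ⊔ C').relIndex (CT ⊔ C') := by
    intro hdvd
    rw [← hker, ← Subgroup.relIndex_map_map π D CT] at hdvd
    let π' := π.subgroupMap CT
    have hπ' : Function.Surjective π' := π.subgroupMap_surjective CT
    have he : (D.subgroupOf CT).map π' = (D.map π).subgroupOf (CT.map π) := by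
      ext ⟨y, hy⟩
      constructor
      · rintro ⟨a, ha, hae⟩
        exact ⟨a, ha, congrArg Subtype.val hae⟩
      · rintro ⟨d, hd, hde⟩
        exact ⟨⟨d, hDle hd⟩, hd, Subtype.ext hde⟩
    have h2 : p ∣ ((D.subgroupOf CT).map π').index := by rw [he]; exact hdvd
    have h3 := h2.trans (Subgroup.index_map_dvd _ hπ')
    have h4 : D.subgroupOf CT = (P : Subgroup CT) := by
      rw [hP]
      exact Subgroup.comap_map_eq_self_of_injective (Subgroup.subtype_injective CT) (P : Subgroup CT)
    rw [h4] at h3
    exact P.not_dvd_index h3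
  have hKeq : K = CT ⊔ C' := by rw [hK, Subgroup.comap_map_eq, hker]
  -- step two
  have step2 : ¬ p ∣ K.index := by
    intro hdvd
    obtain ⟨η, hη⟩ := block_nonempty hM hQf.2
    obtain ⟨F', hF', hφ⟩ := (isModHom_trunc_emb hM hQf.1 hQT hCT η).exists_block
    have hFF : F' = F := by
      by_contra hne
      obtain ⟨ξ, hξ⟩ := block_nonempty hM hF'
      have h := hφ ξ hξ (idem F) (isCentral_idem F) (idem_block_mem hM hF)
      rw [omega_idem, if_neg (Set.disjoint_left.1 (disjoint_blocks hM hF' hF hne) hξ), sub_zero, hFe,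
        pe, trunc_emb_self, omega_idem, if_pos hη] at h
      exact not_li_one hM h
    subst hFF
    obtain ⟨ξ, hξ⟩ := block_nonempty hM hF
    set ω := omega η.1 (trunc (Subgroup.centralizer (Q : Set G))
      ((Subgroup.centralizer (Q : Set G)) : Set G) (emb T (classSum w))) with hω
    have hωn : ¬ Cfsg.MemLocalIdeal M ω := by
      intro h
      have h2 := hφ ξ hξ (classSum w) (isCentral_classSum w) (classSum_mem hM w)
      rw [omega_classSum (Char.irr_isClassFunction ξ)] at h2
      have h3 := li_sub hM h h2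
      rw [hω, sub_sub_cancel] at h3
      exact hw.2.2 ξ hξ h3
    let cw' : T → Subgroup.centralizer (Q : Set G) := fun t =>
      ⟨(t : G) * (w : G) * (t : G)⁻¹, centralizer_conj_of_le_normalizer hTN t t.2 _ hwC⟩
    let Z : T → ℂ := fun t => Cfsg.centralChar η.1 (cw' t)
    set k : ℕ := (Subgroup.centralizer ({cw' 1} : Set (Subgroup.centralizer (Q : Set G)))).index with hk
    have hkconst : ∀ t : T,
        (Subgroup.centralizer ({cw' t} : Set (Subgroup.centralizer (Q : Set G)))).index = k := by
      intro t
      have hcard : Nat.card (Subgroup.centralizer ({cw' t} : Set (Subgroup.centralizer (Q : Set G))))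
          = Nat.card (Subgroup.centralizer ({cw' 1} : Set (Subgroup.centralizer (Q : Set G)))) := by
        refine Nat.card_congr
          ⟨fun c => ⟨⟨(t : G)⁻¹ * ((c : Subgroup.centralizer (Q : Set G)) : G) * (t : G), ?_⟩, ?_⟩,
            fun c => ⟨⟨(t : G) * ((c : Subgroup.centralizer (Q : Set G)) : G) * (t : G)⁻¹, ?_⟩, ?_⟩,
            fun c => Subtype.ext (Subtype.ext (by simp [mul_assoc])),
            fun c => Subtype.ext (Subtype.ext (by simp [mul_assoc]))⟩
        · have := centralizer_conj_of_le_normalizer hTN ((t : G)⁻¹) (T.inv_mem t.2) _ c.1.2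
          simpa using this
        · refine Subgroup.mem_centralizer_singleton_iff.2 (Subtype.ext ?_)
          have h := congrArg (fun a : Subgroup.centralizer (Q : Set G) => (t : G)⁻¹ * (a : G) * (t : G))
            (Subgroup.mem_centralizer_singleton_iff.1 c.2)
          simpa [cw', mul_assoc] using h
        · exact centralizer_conj_of_le_normalizer hTN t t.2 _ c.1.2
        · refine Subgroup.mem_centralizer_singleton_iff.2 (Subtype.ext ?_)
          have h := congrArg (fun a : Subgroup.centralizer (Q : Set G) => (t : G) * (a : G) * (t : G)⁻¹)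
            (Subgroup.mem_centralizer_singleton_iff.1 c.2)
          simpa [cw', mul_assoc] using h
      have h1 := Subgroup.card_mul_index
        (Subgroup.centralizer ({cw' t} : Set (Subgroup.centralizer (Q : Set G))))
      rw [hcard, ← Subgroup.card_mul_index
        (Subgroup.centralizer ({cw' 1} : Set (Subgroup.centralizer (Q : Set G))))] at h1
      exact Nat.eq_of_mul_eq_mul_left Nat.card_pos h1
    have hZK : ∀ (t : T), ∀ s ∈ K, Z (t * s) = Z t := by
      intro t s hs
      rw [hKeq, sup_comm] at hs
      obtain ⟨c, hc, a, ha, rfl⟩ := Subgroup.mem_sup_of_normal_left.1 hs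
      have ha' : (a : G) * (w : G) = (w : G) * (a : G) :=
        congrArg Subtype.val (Subgroup.mem_centralizer_singleton_iff.1 ha)
      have hc2 : (t : G) * (c : G) * (t : G)⁻¹ ∈ Subgroup.centralizer (Q : Set G) :=
        centralizer_conj_of_le_normalizer hTN t t.2 _ hc
      have e : cw' (t * (c * a)) = ⟨_, hc2⟩ * cw' t * (⟨_, hc2⟩ : Subgroup.centralizer (Q : Set G))⁻¹ := by
        refine Subtype.ext ?_
        simp only [cw', Subgroup.coe_mul, Subgroup.coe_inv]
        calc (t : G) * ((c : G) * a) * w * ((t : G) * ((c : G) * a))⁻¹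
            = (t : G) * c * ((a : G) * w) * (a : G)⁻¹ * (c : G)⁻¹ * (t : G)⁻¹ := by group
          _ = (t : G) * c * ((w : G) * a) * (a : G)⁻¹ * (c : G)⁻¹ * (t : G)⁻¹ := by rw [ha']
          _ = _ := by group
      simp only [Z]
      rw [e, centralChar_conj]
    have hZ1 : ∀ t : T, Cfsg.MemLocalIdeal M (Z t - Z 1) := by
      intro t
      have hst : Cfsg.StabilizesBlock (Subgroup.centralizer (Q : Set G)) f (t : G) :=
        (stabilizesBlock_iff hM (hTN t.2) hQf.2).2 (hTf t.2)
      obtain ⟨χ', hχ', hc⟩ := hst.2 η hη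
      have e : Cfsg.centralChar χ'.1 (cw' t) = Z 1 := by
        simp only [Z, Cfsg.centralChar, hkconst t]
        rw [hc (cw' 1) (cw' t) (by simp [cw']), hc 1 1 (by simp)]
      have := li_omega_sub hM (sameBlock_of_mem hM hQf.2 hη hχ') (isCentral_classSum (cw' t))
        (classSum_mem hM _)
      rw [omega_classSum (Char.irr_isClassFunction η), omega_classSum (Char.irr_isClassFunction χ'),
        e] at this
      exact this
    -- the two evaluations
    have hsum1 : ∑ t : T, Z t = (k : ℂ) * (Nat.card CT : ℂ) * ω := by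
      have hfib : ∀ c : Subgroup.centralizer (Q : Set G),
          ((Finset.univ.filter fun t : T => cw' t = c).card : ℂ)
            = if IsConj w (⟨c, hCT c.2⟩ : T) then (Nat.card CT : ℂ) else 0 := by
        intro c
        split_ifs with h
        · obtain ⟨t0, ht0⟩ := isConj_iff.1 h
          have ht0' : (t0 : G) * (w : G) * (t0 : G)⁻¹ = c := congrArg Subtype.val ht0
          rw [← Fintype.card_subtype, ← Nat.card_eq_fintype_card]
          congr 1
          refine Nat.card_congr ⟨fun t => ⟨t0⁻¹ * t.1, ?_⟩, fun s => ⟨t0 * s.1, ?_⟩,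
            fun t => Subtype.ext (by simp), fun s => Subtype.ext (by simp)⟩
          · refine Subgroup.mem_centralizer_singleton_iff.2 (Subtype.ext ?_)
            have h1 : (t.1 : G) * (w : G) * (t.1 : G)⁻¹ = c := congrArg Subtype.val t.2
            rw [← ht0'] at h1
            show (t0 : G)⁻¹ * (t.1 : G) * (w : G) = (w : G) * ((t0 : G)⁻¹ * (t.1 : G))
            calc (t0 : G)⁻¹ * (t.1 : G) * (w : G)
                = (t0 : G)⁻¹ * ((t.1 : G) * w * (t.1 : G)⁻¹) * t.1 := by group
              _ = (t0 : G)⁻¹ * ((t0 : G) * w * (t0 : G)⁻¹) * t.1 := by rw [h1]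
              _ = _ := by group
          · refine Subtype.ext ?_
            have h1 : (s.1 : G) * (w : G) = (w : G) * (s.1 : G) :=
              congrArg Subtype.val (Subgroup.mem_centralizer_singleton_iff.1 s.2)
            show ((t0 : G) * (s.1 : G)) * w * ((t0 : G) * (s.1 : G))⁻¹ = c
            calc ((t0 : G) * (s.1 : G)) * w * ((t0 : G) * (s.1 : G))⁻¹
                = (t0 : G) * ((s.1 : G) * w) * (s.1 : G)⁻¹ * (t0 : G)⁻¹ := by group
              _ = (t0 : G) * ((w : G) * s.1) * (s.1 : G)⁻¹ * (t0 : G)⁻¹ := by rw [h1]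
              _ = (t0 : G) * w * (t0 : G)⁻¹ := by group
              _ = c := ht0'
        · rw [Finset.filter_false_of_mem, Finset.card_empty, Nat.cast_zero]
          intro t _ ht
          exact h (isConj_iff.2 ⟨t, Subtype.ext (congrArg Subtype.val ht :)⟩)
      have hval : ∀ t, Z t = (k : ℂ) * η.1 (cw' t) / η.1 1 := fun t => by
        simp only [Z, Cfsg.centralChar, hkconst t]
      rw [Finset.sum_congr rfl fun t _ => hval t,
        ← Finset.sum_fiberwise Finset.univ cw' fun t => (k : ℂ) * η.1 (cw' t) / η.1 1]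
      rw [hω, omega, ev, Finset.sum_div, Finset.mul_sum]
      refine Finset.sum_congr rfl fun c _ => ?_
      rw [Finset.sum_congr rfl fun t ht => by rw [(Finset.mem_filter.1 ht).2], Finset.sum_const,
        nsmul_eq_mul, hfib, trunc_coeff, if_pos (SetLike.mem_coe.2 c.2), emb_of_mem _ _ (hCT c.2),
        classSum_apply]
      split_ifs <;> ring
    have hsum2 : ∑ t : T, Z t = (Nat.card K : ℂ) * ∑ q : T ⧸ K, Z q.out := by
      rw [← Finset.sum_fiberwise Finset.univ (fun t : T => (QuotientGroup.mk t : T ⧸ K)) Z,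
        Finset.mul_sum]
      refine Finset.sum_congr rfl fun q _ => ?_
      have hc : ∀ t ∈ Finset.univ.filter (fun t : T => (QuotientGroup.mk t : T ⧸ K) = q),
          Z t = Z q.out := by
        intro t ht
        have h := (Finset.mem_filter.1 ht).2
        rw [← QuotientGroup.out_eq' q] at h
        have h2 := QuotientGroup.eq.1 h.symm
        rw [show t = q.out * ((q.out)⁻¹ * t) by group, hZK _ _ h2]
      rw [Finset.sum_congr rfl hc, Finset.sum_const, nsmul_eq_mul]
      congr 2
      rw [← Fintype.card_subtype, ← Nat.card_eq_fintype_card]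
      refine Nat.card_congr ⟨fun t => ⟨(q.out)⁻¹ * t.1, ?_⟩, fun s => ⟨q.out * s.1, ?_⟩,
        fun t => Subtype.ext (by simp), fun s => Subtype.ext (by simp)⟩
      · exact QuotientGroup.eq.1 ((QuotientGroup.out_eq' q).trans t.2.symm)
      · rw [QuotientGroup.mk_mul_of_mem _ s.2, QuotientGroup.out_eq']
    have hcardK : Nat.card K = k * Nat.card CT := by
      let π' := π.subgroupMap CT
      have h1 : Nat.card CT = Nat.card (CT.map π) * Nat.card π'.ker := by
        rw [Subgroup.card_eq_card_quotient_mul_card_subgroup π'.ker,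
          Nat.card_congr (QuotientGroup.quotientKerEquivOfSurjective π'
            (π.subgroupMap_surjective CT)).toEquiv]
      have h2 : Nat.card π'.ker
          = Nat.card (Subgroup.centralizer ({cw' 1} : Set (Subgroup.centralizer (Q : Set G)))) := by
        have hmem : ∀ a : CT, a ∈ π'.ker ↔ ((a : T) : G) ∈ Subgroup.centralizer (Q : Set G) := by
          intro a
          rw [MonoidHom.mem_ker]
          refine ⟨fun h => ?_, fun h => Subtype.ext ?_⟩
          · exact (QuotientGroup.eq_one_iff (a : T)).1 (congrArg Subtype.val h)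
          · exact (QuotientGroup.eq_one_iff (a : T)).2 h
        refine Nat.card_congr
          ⟨fun a => ⟨⟨_, (hmem a.1).1 a.2⟩, ?_⟩,
            fun c => ⟨⟨⟨_, hCT c.1.2⟩, ?_⟩, (hmem _).2 c.1.2⟩, fun a => rfl, fun c => rfl⟩
        · refine Subgroup.mem_centralizer_singleton_iff.2 (Subtype.ext ?_)
          have h := congrArg Subtype.val (Subgroup.mem_centralizer_singleton_iff.1 a.1.2)
          simpa [cw'] using h
        · refine Subgroup.mem_centralizer_singleton_iff.2 (Subtype.ext ?_)
          have h := congrArg Subtype.val (Subgroup.mem_centralizer_singleton_iff.1 c.2)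
          simpa [cw'] using h
      have h3 : K.index = (CT.map π).index := Subgroup.index_comap_of_surjective _ hπ
      have h4 := Subgroup.card_mul_index K
      have h5 := Subgroup.card_mul_index (CT.map π)
      have h6 : Nat.card T = Nat.card (T ⧸ C') * Nat.card C' :=
        Subgroup.card_eq_card_quotient_mul_card_subgroup C'
      have h7 : Nat.card C' = Nat.card (Subgroup.centralizer (Q : Set G)) :=
        Nat.card_congr (Subgroup.subgroupOfEquivOfLe hCT).toEquiv
      have h8 := Subgroup.card_mul_index
        (Subgroup.centralizer ({cw' 1} : Set (Subgroup.centralizer (Q : Set G))))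
      have hidx : 0 < K.index := Nat.pos_of_ne_zero Subgroup.index_ne_zero_of_finite
      refine Nat.eq_of_mul_eq_mul_right hidx ?_
      rw [h4, h6, ← h5, h7, ← h8, h1, h2, h3, hk]
      ring
    have hmain : ω = ∑ q : T ⧸ K, Z q.out := by
      have h0 : (Nat.card K : ℂ) ≠ 0 := by exact_mod_cast Nat.card_pos.ne'
      refine mul_left_cancel₀ h0 ?_
      rw [← hsum2, hsum1, hcardK, Nat.cast_mul]
    refine hωn ?_
    rw [hmain, show (∑ q : T ⧸ K, Z q.out)
      = (∑ q : T ⧸ K, (Z q.out - Z 1)) + (K.index : ℂ) * Z 1 by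
        rw [Finset.sum_sub_distrib, Finset.sum_const, Finset.card_univ, nsmul_eq_mul,
          Subgroup.index_eq_card, Nat.card_eq_fintype_card]
        ring]
    refine li_add hM (li_sum hM _ fun q _ => hZ1 _) (li_mul hM ?_ ?_)
    · exact (li_natCast_iff hM _).2 hdvd
    · exact (mem_locRing hM).1 (algInt_mem_locRing hM (isIntegral_centralChar η _))
  intro hdvd
  rw [← Subgroup.relIndex_mul_index (show D ⊔ C' ≤ CT ⊔ C' from sup_le_sup_right hDle C')] at hdvd
  rcases hM.1.dvd_mul.1 hdvd with h | h
  · exact step1 h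
  · exact step2 (hKeq.symm ▸ h)

end Cfsg.Agent.Blocks
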