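import Cfsg.Agent.Blocks.PairLocal

/-!
# Conjugation of pairs inside a local group
-/

namespace Cfsg.Agent.Blocks

universe u

variable {p : ℕ} {M : Ideal Cfsg.AlgInt} {G : Type u} [Group G] [Fintype G] {H : Subgroup G}

theorem imgSet_imgSet_symm {K : Type*} [Group K] [Finite K] {K' : Type*} [Group K'] [Finite K']
    (φ : K' ≃* K) (g : Set (Cfsg.IrrCharacter K')) : imgSet φ (imgSet φ.symm g) = g := by
  rw [imgSet_eq, imgSet_eq, Set.image_image]
  simp only [imgIrr_symm, Set.image_id']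

theorem map_centralizer_le {R : Subgroup H} {k : G}
    (hk : k ∈ Subgroup.centralizer ((R.map H.subtype : Subgroup G) : Set G)) (hkH : k ∈ H) :
    (⟨k, hkH⟩ : H) ∈ Subgroup.centralizer (R : Set H) :=
  Subgroup.mem_centralizer_iff.2 fun q hq =>
    Subtype.ext (Subgroup.mem_centralizer_iff.1 hk q.1 ⟨q, hq, rfl⟩)

theorem centralizer_coe_mem {R : Subgroup H} (c : Subgroup.centralizer (R : Set H)) :
    ((c : H) : G) ∈ Subgroup.centralizer ((R.map H.subtype : Subgroup G) : Set G) :=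
  Subgroup.mem_centralizer_iff.2 fun q hq => by
    obtain ⟨a, ha, rfl⟩ := hq
    exact congrArg Subtype.val (Subgroup.mem_centralizer_iff.1 c.2 a ha)

/-- The centralizer inside a local group. -/
def liftC (R : Subgroup H) (hR : Subgroup.centralizer ((R.map H.subtype : Subgroup G) : Set G) ≤ H) :
    Subgroup.centralizer ((R.map H.subtype : Subgroup G) : Set G) ≃* Subgroup.centralizer (R : Set H) where
  toFun k := ⟨⟨k, hR k.2⟩, map_centralizer_le k.2 (hR k.2)⟩
  invFun c := ⟨((c : H) : G), centralizer_coe_mem c⟩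
  left_inv _ := rfl
  right_inv _ := rfl
  map_mul' _ _ := rfl

theorem pe_liftC (R : Subgroup H) (hR : Subgroup.centralizer ((R.map H.subtype : Subgroup G) : Set G) ≤ H)
    (g : Set (Cfsg.IrrCharacter (Subgroup.centralizer (R : Set H)))) :
    pe (R.map H.subtype) (imgSet (liftC R hR) g) = emb H (pe R g) := by
  refine ext_coeff fun x => ?_
  by_cases hx : x ∈ H
  · rw [emb_of_mem H _ hx, pe, pe]
    by_cases hc : x ∈ Subgroup.centralizer ((R.map H.subtype : Subgroup G) : Set G)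
    · rw [emb_of_mem _ _ hc, emb_of_mem _ _ (map_centralizer_le hc hx)]
      show Cfsg.blockCoeff _ _ = Cfsg.blockCoeff _ _
      rw [blockCoeff_imgSet]
      rfl
    · rw [emb_of_not_mem _ _ hc, emb_of_not_mem _ _ fun h => hc (centralizer_coe_mem ⟨_, h⟩)]
  · rw [emb_of_not_mem H _ hx, pe, emb_of_not_mem _ _ fun h => hx (hR h)]

theorem cja_emb (x : H) (a : MonoidAlgebra ℂ H) : cja (x : G) (emb H a) = emb H (cja x a) := by
  refine ext_coeff fun g => ?_
  rw [cja_coeff]
  by_cases hg : g ∈ H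
  · rw [emb_of_mem _ _ hg, emb_of_mem _ _ (H.mul_mem (H.mul_mem (H.inv_mem x.2) hg) x.2), cja_coeff]
    rfl
  · rw [emb_of_not_mem _ _ hg, emb_of_not_mem _ _ fun h => hg (by
      simpa [mul_assoc] using H.mul_mem (H.mul_mem x.2 h) (H.inv_mem x.2))]

theorem hits_liftC (R : Subgroup H) (hR : Subgroup.centralizer ((R.map H.subtype : Subgroup G) : Set G) ≤ H)
    (g : Set (Cfsg.IrrCharacter (Subgroup.centralizer (R : Set H)))) (a : MonoidAlgebra ℂ H) :
    Hits M (R.map H.subtype) (imgSet (liftC R hR) g) (emb H a) ↔ Hits M R g a := by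
  classical
  haveI := Fintype.ofFinite (Subgroup.centralizer (R : Set H))
  haveI := Fintype.ofFinite (Subgroup.centralizer ((R.map H.subtype : Subgroup G) : Set G))
  have key : ∀ (η : Subgroup.centralizer ((R.map H.subtype : Subgroup G) : Set G) → ℂ)
      (ξ : Subgroup.centralizer (R : Set H) → ℂ), (η = fun k => ξ (liftC R hR k)) →
      Cfsg.brauerOmega (R.map H.subtype) (fun x => (emb H a).coeff x) η
        = Cfsg.brauerOmega R (fun x => a.coeff x) ξ := by
    intro η ξ h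
    subst h
    simp only [Cfsg.brauerOmega, finsum_eq_sum_of_fintype, map_one]
    refine Fintype.sum_equiv (liftC R hR).toEquiv _ _ fun k => ?_
    rw [emb_of_mem H a (hR k.2)]
    rfl
  constructor
  · intro h ξ hξ
    have := h (imgIrr (liftC R hR) ξ) ⟨ξ, hξ, rfl⟩
    rwa [key (imgIrr (liftC R hR) ξ).1 ξ.1 rfl] at this
  · rintro h η ⟨ξ, hξ, hη⟩
    rw [key η.1 ξ.1 hη]
    exact h ξ hξ

variable (H) in
/-- The pair of the big group. -/
def liftIdx (a : Cfsg.BrauerPairIdx H)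
    (hR : Subgroup.centralizer ((a.1.map H.subtype : Subgroup G) : Set G) ≤ H) : Cfsg.BrauerPairIdx G :=
  ⟨a.1.map H.subtype, imgSet (liftC a.1 hR) a.2⟩

theorem isBrauerPair_lift {a : Cfsg.BrauerPairIdx H} (h : Cfsg.IsBrauerPair p M a.1 a.2)
    (hR : Subgroup.centralizer ((a.1.map H.subtype : Subgroup G) : Set G) ≤ H) :
    Cfsg.IsBrauerPair p M (liftIdx H a hR).1 (liftIdx H a hR).2 :=
  ⟨h.1.map _, isPBlock_imgSet _ h.2⟩

theorem normalSubpairRel_lift (hM : Cfsg.IsPModular p M) {a b : Cfsg.BrauerPairIdx H}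
    (h : Cfsg.NormalSubpairRel p M a b)
    (ha : Subgroup.centralizer ((a.1.map H.subtype : Subgroup G) : Set G) ≤ H)
    (hb : Subgroup.centralizer ((b.1.map H.subtype : Subgroup G) : Set G) ≤ H) :
    Cfsg.NormalSubpairRel p M (liftIdx H a ha) (liftIdx H b hb) := by
  obtain ⟨h1, h2, h3, h4, h5, h6⟩ := (isNormalSubpair_iff hM).1 h
  refine (isNormalSubpair_iff hM).2 ⟨isBrauerPair_lift h1 ha, isBrauerPair_lift h2 hb,
    Subgroup.map_mono h3, ?_, ?_, ?_⟩
  · rintro _ ⟨x, hx, rfl⟩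
    refine Subgroup.mem_normalizer_iff.2 fun q => ?_
    show q ∈ a.1.map H.subtype ↔ _ ∈ a.1.map H.subtype
    constructor
    · rintro ⟨y, hy, rfl⟩
      exact ⟨x * y * x⁻¹, (Subgroup.mem_normalizer_iff.1 (h4 hx) y).1 hy, rfl⟩
    · rintro ⟨y, hy, he⟩
      refine ⟨x⁻¹ * y * x, (Subgroup.mem_normalizer_iff.1 (h4 hx) _).2 ?_, ?_⟩
      · rwa [show x * (x⁻¹ * y * x) * x⁻¹ = y by group]
      · show (x : G)⁻¹ * (y : G) * (x : G) = q
        rw [show (y : G) = H.subtype x * q * (H.subtype x)⁻¹ from he]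
        simp [mul_assoc]
  · rintro _ ⟨x, hx, rfl⟩
    show cja (x : G) (pe (a.1.map H.subtype) (imgSet (liftC a.1 ha) a.2))
      = pe (a.1.map H.subtype) (imgSet (liftC a.1 ha) a.2)
    rw [pe_liftC, cja_emb, h5 x hx]
  · show Hits M (b.1.map H.subtype) (imgSet (liftC b.1 hb) b.2)
      (pe (a.1.map H.subtype) (imgSet (liftC a.1 ha) a.2))
    rw [pe_liftC, hits_liftC]
    exact h6

theorem subpairLE_lift (hM : Cfsg.IsPModular p M) {a b : Cfsg.BrauerPairIdx H}
    (h : Relation.ReflTransGen (Cfsg.NormalSubpairRel p M) a b)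
    (ha : Subgroup.centralizer ((a.1.map H.subtype : Subgroup G) : Set G) ≤ H) :
    ∀ hb : Subgroup.centralizer ((b.1.map H.subtype : Subgroup G) : Set G) ≤ H,
      Relation.ReflTransGen (Cfsg.NormalSubpairRel p M) (liftIdx H a ha) (liftIdx H b hb) := by
  induction h with
  | refl => intro _; exact Relation.ReflTransGen.refl
  | @tail c d hac hcd ih =>
    intro hd
    have hc : Subgroup.centralizer ((c.1.map H.subtype : Subgroup G) : Set G) ≤ H :=
      (Subgroup.centralizer_le (Subgroup.map_mono (le_of_chain hM hac))).trans ha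
    exact (ih hc).tail (normalSubpairRel_lift hM hcd hc hd)

theorem cp_lift (x : H) (a : Cfsg.BrauerPairIdx H)
    (ha : Subgroup.centralizer ((a.1.map H.subtype : Subgroup G) : Set G) ≤ H)
    (hx : Subgroup.centralizer (((cp x a).1.map H.subtype : Subgroup G) : Set G) ≤ H) :
    liftIdx H (cp x a) hx = cp (x : G) (liftIdx H a ha) := by
  have h1 : (cp x a).1.map H.subtype = cj (x : G) (a.1.map H.subtype) := by
    show (a.1.map _).map H.subtype = (a.1.map H.subtype).map _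
    rw [Subgroup.map_map, Subgroup.map_map]
    rfl
  refine idx_eq h1 ?_
  show pe ((cp x a).1.map H.subtype) (imgSet (liftC (cp x a).1 hx) (cp x a).2)
    = pe (cj (x : G) (a.1.map H.subtype)) (imgSet (cjC (x : G) (a.1.map H.subtype))
        (imgSet (liftC a.1 ha) a.2))
  rw [pe_liftC, pe_imgSet, pe_liftC, cja_emb]
  simp only [cp]
  rw [pe_imgSet]

theorem exists_res {R : Subgroup G} (hRH : R ≤ H) (hC : Subgroup.centralizer (R : Set G) ≤ H)
    {g : Set (Cfsg.IrrCharacter (Subgroup.centralizer (R : Set G)))}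
    (hg : Cfsg.IsBrauerPair p M R g) :
    ∃ (a : Cfsg.BrauerPairIdx H) (ha : Subgroup.centralizer ((a.1.map H.subtype : Subgroup G) : Set G) ≤ H),
      a.1 = R.subgroupOf H ∧ Cfsg.IsBrauerPair p M a.1 a.2 ∧ liftIdx H a ha = ⟨R, g⟩ := by
  have hR' : (R.subgroupOf H).map H.subtype = R := by
    rw [Subgroup.subgroupOf_map_subtype, inf_eq_left.2 hRH]
  obtain ⟨g0, hg0, hC0⟩ : ∃ g0 : Set (Cfsg.IrrCharacter
      (Subgroup.centralizer (((R.subgroupOf H).map H.subtype : Subgroup G) : Set G))),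
      (⟨_, g0⟩ : Cfsg.BrauerPairIdx G) = ⟨R, g⟩ ∧ Cfsg.IsPBlock M g0 := by
    have key : ∀ S : Subgroup G, S = R → ∃ g0 : Set (Cfsg.IrrCharacter
        (Subgroup.centralizer (S : Set G))),
        (⟨S, g0⟩ : Cfsg.BrauerPairIdx G) = ⟨R, g⟩ ∧ Cfsg.IsPBlock M g0 := by
      rintro S rfl; exact ⟨g, rfl, hg.2⟩
    exact key _ hR'
  have ha : Subgroup.centralizer (((R.subgroupOf H).map H.subtype : Subgroup G) : Set G) ≤ H := by
    rw [hR']; exact hC
  refine ⟨⟨R.subgroupOf H, imgSet (liftC _ ha).symm g0⟩, ha, rfl,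
    ⟨hg.1.comap_of_injective _ (Subgroup.subtype_injective _), isPBlock_imgSet _ hC0⟩, ?_⟩
  rw [← hg0]
  show (⟨_, _⟩ : Cfsg.BrauerPairIdx G) = _
  rw [imgSet_imgSet_symm]

variable {Q : Subgroup G} {f : Set (Cfsg.IrrCharacter (Subgroup.centralizer (Q : Set G)))}
  [Fintype H] {F : Set (Cfsg.IrrCharacter H)}

/-- Pairs over `(Q, f)` in a local group are conjugate into a defect pair. -/
theorem exists_conj_in_local (hM : Cfsg.IsPModular p M) (hCH : Subgroup.centralizer (Q : Set G) ≤ H)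
    (hF : Cfsg.IsPBlock M F) (hFe : emb H (idem F) = pe Q f)
    {D : Subgroup G} (hDH : D ≤ H) (hD : Cfsg.IsDefectGroup p M F (D.subgroupOf H))
    {gD : Set (Cfsg.IrrCharacter (Subgroup.centralizer (D : Set G)))}
    (hgD : Cfsg.IsNormalSubpair p M Q f D gD)
    {N : Subgroup G} (hNH : N ≤ H) {g : Set (Cfsg.IrrCharacter (Subgroup.centralizer (N : Set G)))}
    (hg : Cfsg.IsNormalSubpair p M Q f N g) :
    ∃ h ∈ H, Cfsg.SubpairLE p M (cj h N) (imgSet (cjC h N) g) D gD := by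
  have key : ∀ (R : Subgroup G), R ≤ H →
      ∀ {gR : Set (Cfsg.IrrCharacter (Subgroup.centralizer (R : Set G)))},
      Cfsg.IsNormalSubpair p M Q f R gR →
      ∃ (a : Cfsg.BrauerPairIdx H) (ha : Subgroup.centralizer ((a.1.map H.subtype : Subgroup G) : Set G) ≤ H),
        a.1 = R.subgroupOf H ∧ Cfsg.IsBrauerPairOf p M F a.1 a.2 ∧ liftIdx H a ha = ⟨R, gR⟩ := by
    intro R hRH gR hR
    obtain ⟨h1, h2, h3, -, -, h6⟩ := (isNormalSubpair_iff hM).1 hR
    obtain ⟨a, ha, h7, h8, h9⟩ := exists_res hRH ((Subgroup.centralizer_le h3).trans hCH) h2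
    refine ⟨a, ha, h7, isBrauerPairOf_iff.2 ⟨h8, hF, ?_⟩, h9⟩
    have h10 : ∀ b : Cfsg.BrauerPairIdx G, b = ⟨R, gR⟩ → Hits M b.1 b.2 (pe Q f) := by
      rintro b rfl; exact h6
    have h11 := h10 _ h9
    rw [← hFe] at h11
    exact (hits_liftC a.1 ha a.2 (idem F)).1 h11
  obtain ⟨aD, haD, hD1, hD2, hD3⟩ := key D hDH hgD
  obtain ⟨aN, haN, -, hN2, hN3⟩ := key N hNH hg
  obtain ⟨h, hh⟩ := exists_conj_le_maximal hM
    (isMaximal_of_defect hM (by rw [hD1]; exact hD) hD2) hN2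
  refine ⟨h, h.2, ?_⟩
  have hstep : Subgroup.centralizer (((cp h aN).1.map H.subtype : Subgroup G) : Set G) ≤ H := by
    intro k hk
    have hk2 : (h : G)⁻¹ * k * (h : G) ∈ Subgroup.centralizer ((aN.1.map H.subtype : Subgroup G) : Set G) := by
      refine mem_centralizer_cj ?_
      have h1 : (cp h aN).1.map H.subtype = cj (h : G) (aN.1.map H.subtype) := by
        show (aN.1.map _).map H.subtype = (aN.1.map H.subtype).map _
        rw [Subgroup.map_map, Subgroup.map_map]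
        rfl
      rwa [← h1]
    have h2 := H.mul_mem (H.mul_mem h.2 (haN hk2)) (H.inv_mem h.2)
    simpa [mul_assoc] using h2
  have h1 := subpairLE_lift hM (a := cp h aN) (b := aD) hh hstep haD
  rw [cp_lift h aN haN hstep, hD3, hN3] at h1
  exact h1

end Cfsg.Agent.Blocks
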