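import Cfsg.Agent.Blocks.Automized
import Cfsg.Agent.Blocks.LocalConj
import Cfsg.Agent.Fus.Basic

/-!
# The fusion system of a block
-/

namespace Cfsg.Agent.Blocks

universe u

variable {p : ℕ} {M : Ideal Cfsg.AlgInt} {G : Type u} [Group G] [Fintype G]

/-- Lying below a fixed pair. -/
def Below (p : ℕ) (M : Ideal Cfsg.AlgInt) (top a : Cfsg.BrauerPairIdx G) : Prop :=
  Relation.ReflTransGen (Cfsg.NormalSubpairRel p M) a top

theorem below_cp (hM : Cfsg.IsPModular p M) (x : G) {top a : Cfsg.BrauerPairIdx G}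
    (h : Below p M top a) : Below p M (cp x top) (cp x a) :=
  Relation.ReflTransGen.lift (cp x) (fun _ _ h' => normalSubpairRel_cp hM x h') _ _ h

theorem cp_self {P : Subgroup G} {x : G} (hx : x ∈ P)
    (e : Set (Cfsg.IrrCharacter (Subgroup.centralizer (P : Set G)))) :
    cp x (⟨P, e⟩ : Cfsg.BrauerPairIdx G) = ⟨P, e⟩ := by
  refine idx_eq (cj_eq_self_of_mem_normalizer (Subgroup.le_normalizer hx)) ?_
  show pe (cj x P) _ = pe P e
  simp only [cp]
  rw [pe_imgSet]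
  exact cja_of_pInvariant (pe_pInvariant_self P e) hx

theorem cp_back (x : G) (a : Cfsg.BrauerPairIdx G) : cp x⁻¹ (cp x a) = a := by
  rw [cp_cp, inv_mul_cancel, cp_one]

section System

variable {B : Set (Cfsg.IrrCharacter G)} {P : Subgroup G}
  {e : Set (Cfsg.IrrCharacter (Subgroup.centralizer (P : Set G)))}

theorem below_unique (hM : Cfsg.IsPModular p M) (he : Cfsg.IsBrauerPair p M P e)
    {a b : Cfsg.BrauerPairIdx G} (ha : Below p M ⟨P, e⟩ a) (hb : Below p M ⟨P, e⟩ b)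
    (h : a.1 = b.1) : a = b := by
  obtain ⟨Q, f⟩ := a
  obtain ⟨Q', f'⟩ := b
  dsimp only at h
  subst h
  rw [eq_of_le_of_le hM he ha hb]

theorem below_mono (hM : Cfsg.IsPModular p M) (he : Cfsg.IsBrauerPair p M P e)
    {a b : Cfsg.BrauerPairIdx G} (ha : Below p M ⟨P, e⟩ a) (hb : Below p M ⟨P, e⟩ b)
    (h : a.1 ≤ b.1) : Relation.ReflTransGen (Cfsg.NormalSubpairRel p M) a b := by
  obtain ⟨R, g⟩ := b
  obtain ⟨f, ⟨-, hle⟩, -⟩ := existsUnique_below hM (isBrauerPair_of_le hM he hb) h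
  have : a = ⟨a.1, f⟩ := below_unique hM he ha (Relation.ReflTransGen.trans hle hb) rfl
  rw [this]
  exact hle

theorem exists_below (hM : Cfsg.IsPModular p M) (he : Cfsg.IsBrauerPair p M P e) {Q : Subgroup G}
    (hQ : Q ≤ P) : ∃ f, Below p M ⟨P, e⟩ (⟨Q, f⟩ : Cfsg.BrauerPairIdx G) :=
  let ⟨f, hf, _⟩ := existsUnique_below hM he hQ
  ⟨f, hf.2⟩

/-- The maps of the block fusion system. -/
def blockHom (p : ℕ) (M : Ideal Cfsg.AlgInt) (P : Subgroup G)
    (e : Set (Cfsg.IrrCharacter (Subgroup.centralizer (P : Set G)))) (Q : Subgroup G) : Set (Q →* G) :=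
  {φ | ∃ g : G, (∀ u : Q, φ u = g * (u : G) * g⁻¹) ∧ ∃ a : Cfsg.BrauerPairIdx G,
    a.1 = Q ∧ Below p M ⟨P, e⟩ a ∧ Below p M ⟨P, e⟩ (cp g a)}

theorem range_of_conj {Q : Subgroup G} {φ : Q →* G} {g : G}
    (h : ∀ u : Q, φ u = g * (u : G) * g⁻¹) : φ.range = cj g Q := by
  ext x
  rw [mem_cj]
  refine ⟨?_, fun hx => ⟨⟨_, hx⟩, by rw [h]; simp [mul_assoc]⟩⟩
  rintro ⟨u, rfl⟩
  rw [h]
  simp [mul_assoc]

/-- The fusion system of a block. -/
def blockSystem (hM : Cfsg.IsPModular p M) (he : Cfsg.IsBrauerPair p M P e) : Cfsg.FusionSystem P where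
  Hom := blockHom p M P e
  le_of_mem := by
    rintro Q φ ⟨g, hg, a, rfl, h1, h2⟩
    refine ⟨le_of_chain hM h1, fun x => ?_⟩
    refine le_of_chain hM h2 ?_
    show φ x ∈ cj g a.1
    rw [hg, mem_cj]
    simp [mul_assoc]
  injective_of_mem := by
    rintro Q φ ⟨g, hg, -⟩ x y hxy
    rw [hg, hg] at hxy
    exact Subtype.ext (by simpa using hxy)
  conj_mem := by
    intro Q g hQ hg
    obtain ⟨f, hf⟩ := exists_below hM he hQ
    refine ⟨g, fun u => rfl, ⟨Q, f⟩, rfl, hf, ?_⟩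
    have := below_cp hM g hf
    rwa [cp_self hg] at this
  comp_mem := by
    rintro Q R φ ψ ⟨g, hg, a, rfl, h1, h2⟩ ⟨g', hg', b, rfl, h3, h4⟩ h
    refine ⟨g' * g, fun u => ?_, a, rfl, h1, ?_⟩
    · show ψ ⟨φ u, h u⟩ = _
      rw [hg']
      show g' * φ u * g'⁻¹ = _
      rw [hg]
      group
    · rw [← cp_cp]
      have hle : (cp g a).1 ≤ b.1 := by
        show cj g a.1 ≤ b.1
        intro x hx
        have h' := h ⟨_, mem_cj.1 hx⟩
        rw [hg] at h'
        simpa [mul_assoc] using h'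
      exact Relation.ReflTransGen.trans (below_cp hM g' (below_mono hM he h2 h3 hle)) h4
  inv_mem := by
    rintro Q φ ⟨g, hg, a, rfl, h1, h2⟩
    refine ⟨(MulAut.conj g⁻¹).toMonoidHom.comp φ.range.subtype,
      ⟨g⁻¹, fun u => rfl, cp g a, (range_of_conj hg).symm, h2, ?_⟩, fun x => ?_⟩
    · rw [cp_back]; exact h1
    · show g⁻¹ * φ x * g⁻¹⁻¹ = _
      rw [hg]
      group

theorem isBlockFusionSystemOn_blockSystem (hM : Cfsg.IsPModular p M)
    (hmax : Cfsg.IsMaximalBrauerPair p M B P e) :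
    Cfsg.IsBlockFusionSystemOn p M B P e (blockSystem hM hmax.1.1) := by
  refine ⟨hmax, fun Q φ => ⟨?_, ?_⟩⟩
  · rintro ⟨g, hg, ⟨Q', f⟩, (rfl : Q' = Q), h1, h2⟩
    refine ⟨le_of_chain hM h1, g, hg, le_of_chain hM h2, f, h1, ?_⟩
    rw [conjBlock_eq]; exact h2
  · rintro ⟨-, g, hg, -, f, h1, h2⟩
    rw [conjBlock_eq] at h2
    exact ⟨g, hg, ⟨Q, f⟩, rfl, h1, h2⟩

theorem mem_hom_iff (hM : Cfsg.IsPModular p M) {S : Cfsg.FusionSystem P}
    (hS : Cfsg.IsBlockFusionSystemOn p M B P e S) (Q : Subgroup G) (φ : Q →* G) :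
    φ ∈ S.Hom Q ↔ φ ∈ blockHom p M P e Q :=
  (hS.2 Q φ).trans ((isBlockFusionSystemOn_blockSystem hM hS.1).2 Q φ).symm

/-- The automorphism group of a pair below. -/
theorem autGroup_eq (hM : Cfsg.IsPModular p M) {S : Cfsg.FusionSystem P}
    (hS : Cfsg.IsBlockFusionSystemOn p M B P e S) {Q : Subgroup G}
    {f : Set (Cfsg.IrrCharacter (Subgroup.centralizer (Q : Set G)))}
    (hle : Cfsg.SubpairLE p M Q f P e) (α : MulAut Q) :
    α ∈ S.autGroup Q ↔ ∃ t, t ∈ Subgroup.normalizer (Q : Set G) ∧ cja t (pe Q f) = pe Q f ∧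
      ∀ u : Q, ((α u : Q) : G) = t * (u : G) * t⁻¹ := by
  rw [Fus.mem_autGroup (le_of_chain hM hle), mem_hom_iff hM hS]
  constructor
  · rintro ⟨t, ht, a, ha, h1, h2⟩
    have haQ : a = ⟨Q, f⟩ := below_unique hM hS.1.1.1 h1 hle ha
    subst haQ
    have hcj : cj t Q = Q := by
      rw [← range_of_conj ht]
      ext x
      refine ⟨?_, fun hx => ⟨α.symm ⟨x, hx⟩, by simp⟩⟩
      rintro ⟨u, rfl⟩
      exact (α u).2
    have hfix : cp t (⟨Q, f⟩ : Cfsg.BrauerPairIdx G) = ⟨Q, f⟩ := below_unique hM hS.1.1.1 h2 hle hcj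
    refine ⟨t, Subgroup.mem_normalizer_iff.2 fun q => ⟨fun hq => ?_, fun hq => ?_⟩, ?_, ht⟩
    · exact hcj ▸ mem_cj.2 (by simpa [mul_assoc] using hq)
    · have : t * q * t⁻¹ ∈ cj t Q := hcj.symm ▸ hq
      simpa [mul_assoc] using mem_cj.1 this
    · have h3 := congrArg (fun a : Cfsg.BrauerPairIdx G => pe a.1 a.2) hfix
      simp only [cp] at h3
      rwa [pe_imgSet] at h3
  · rintro ⟨t, htN, htf, ht⟩
    refine ⟨t, ht, ⟨Q, f⟩, rfl, hle, ?_⟩
    have : cp t (⟨Q, f⟩ : Cfsg.BrauerPairIdx G) = ⟨Q, f⟩ :=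
      idx_eq (cj_eq_self_of_mem_normalizer htN) (by
        show pe (cj t Q) _ = pe Q f
        simp only [cp]
        rw [pe_imgSet, htf])
    rw [this]
    exact hle

/-- The stabilizer of a pair in its normalizer. -/
noncomputable def stab (Q : Subgroup G) (f : Set (Cfsg.IrrCharacter (Subgroup.centralizer (Q : Set G)))) : Subgroup G :=
  Subgroup.normalizer (Q : Set G) ⊓ fixer (pe Q f)

theorem mem_stab (hM : Cfsg.IsPModular p M) {Q : Subgroup G}
    {f : Set (Cfsg.IrrCharacter (Subgroup.centralizer (Q : Set G)))} (hf : Cfsg.IsPBlock M f) (y : G) :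
    y ∈ stab Q f ↔ y ∈ Subgroup.normalizer (Q : Set G) ∧
      Cfsg.StabilizesBlock (Subgroup.centralizer (Q : Set G)) f y :=
  ⟨fun h => ⟨h.1, (stabilizesBlock_iff hM h.1 hf).2 h.2⟩,
    fun h => ⟨h.1, (stabilizesBlock_iff hM h.1 hf).1 h.2⟩⟩

/-- A map onto a member with maximal local defect extends. -/
theorem receptive (hM : Cfsg.IsPModular p M) {S : Cfsg.FusionSystem P}
    (hS : Cfsg.IsBlockFusionSystemOn p M B P e S) {Q : Subgroup G}
    {f : Set (Cfsg.IrrCharacter (Subgroup.centralizer (Q : Set G)))}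
    (hle : Cfsg.SubpairLE p M Q f P e)
    (hfn : ∀ x : G, Cfsg.SubpairLE p M (cj x Q) (imgSet (cjC x Q) f) P e →
      Nat.card (cj x⁻¹ P ⊓ stab Q f : Subgroup G) ≤ Nat.card (P ⊓ stab Q f : Subgroup G)) :
    S.IsReceptive Q := by
  classical
  refine ⟨le_of_chain hM hle, fun R φ hφ hr => ?_⟩
  have hQf := isBrauerPair_of_le hM hS.1.1.1 hle
  obtain ⟨hCT, hQT, hTN, hTf, -⟩ := stabilizer_local hM hQf.2 (mem_stab hM hQf.2)
  obtain ⟨g, hg, a, ha, h1, h2⟩ := (mem_hom_iff hM hS R φ).1 hφ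
  obtain ⟨R', fR⟩ := a
  dsimp only at ha
  subst ha
  have hgR : cj g R' = Q := by rw [← range_of_conj hg]; exact hr
  have hga : cp g (⟨R', fR⟩ : Cfsg.BrauerPairIdx G) = ⟨Q, f⟩ := below_unique hM hS.1.1.1 h2 hle hgR
  set N := Cfsg.FusionSystem.extender P R' φ with hN
  have hRN : R' ≤ N := Fus.le_extender hφ
  have hNle : N ≤ P ⊓ Subgroup.normalizer (R' : Set G) := Fus.extender_le_normalizerIn
  obtain ⟨gN, hgN⟩ := exists_below hM hS.1.1.1 (Q := N) (hNle.trans inf_le_left)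
  obtain ⟨f', hf', -⟩ := existsUnique_step hM (isBrauerPair_of_le hM hS.1.1.1 hgN) hRN
    (hNle.trans inf_le_right)
  have hf'' : fR = f' := eq_of_le_of_le hM hS.1.1.1 h1
    (Relation.ReflTransGen.head (show Cfsg.NormalSubpairRel p M ⟨R', f'⟩ ⟨N, gN⟩ from hf') hgN)
  subst hf''
  have hstep := normalSubpairRel_cp hM g (a := ⟨R', fR⟩) (b := ⟨N, gN⟩) hf'
  rw [hga] at hstep
  -- the local group
  let T := stab Q f
  haveI hCn : ((Subgroup.centralizer (Q : Set G)).subgroupOf T).Normal :=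
    ⟨fun c hc t => centralizer_conj_of_le_normalizer hTN t t.2 c hc⟩
  set H : Subgroup G := ((P ⊓ T).subgroupOf T ⊔ (Subgroup.centralizer (Q : Set G)).subgroupOf T).map
    T.subtype with hH
  have hCH : Subgroup.centralizer (Q : Set G) ≤ H := fun c hc =>
    ⟨⟨c, hCT hc⟩, Subgroup.mem_sup_right hc, rfl⟩
  have hPH : P ⊓ T ≤ H := fun d hd => ⟨⟨d, hd.2⟩, Subgroup.mem_sup_left hd, rfl⟩
  have hHT : H ≤ T := Subgroup.map_subtype_le _
  have hHN : H ≤ Subgroup.normalizer (Q : Set G) := hHT.trans hTN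
  have hQH : Q ≤ H := fun q hq => hPH ⟨le_of_chain hM hle hq, hQT hq⟩
  haveI := Fintype.ofFinite H
  obtain ⟨F, hF, hFe⟩ := exists_local_block hM hQf hCH hQH hHN (hHT.trans hTf)
  have heqP : P ⊓ H = P ⊓ T :=
    le_antisymm (inf_le_inf_left _ hHT) (le_inf inf_le_left hPH)
  have hD : Cfsg.IsDefectGroup p M F ((P ⊓ T).subgroupOf H) := by
    rw [← heqP]
    refine (isDefectGroup_iff_max hM hCH hHN (hHT.trans hTf) hF hFe hS.1 hle).2 fun x hx => ?_
    rw [heqP]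
    exact (Subgroup.card_le_of_le (inf_le_inf_left _ hHT)).trans (hfn x hx)
  obtain ⟨gD, hgD, hgDle⟩ : ∃ gD : Set (Cfsg.IrrCharacter (Subgroup.centralizer ((P ⊓ T : Subgroup G) : Set G))),
      Cfsg.IsNormalSubpair p M Q f (P ⊓ T) gD ∧ Cfsg.SubpairLE p M (P ⊓ T) gD P e := by
    rw [inf_stab hM hQf.2 (mem_stab hM hQf.2) hS.1.1.1 hle]
    exact exists_above hM hS.1.1.1 hle
  have hN'H : cj g N ≤ H := by
    intro u hu
    obtain ⟨a, ha, rfl⟩ := hu
    show g * a * g⁻¹ ∈ H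
    have huN : g * a * g⁻¹ ∈ Subgroup.normalizer (Q : Set G) :=
      hstep.2.2.2.1 (mem_cj.2 (by simpa [cp, mul_assoc] using ha))
    obtain ⟨haP, haR, h, hhP, hh⟩ := Fus.mem_extender.1 ha
    have hq : ∀ q ∈ Q, g * a * g⁻¹ * q * (g * a * g⁻¹)⁻¹ = h * q * h⁻¹ := by
      intro q hq
      rw [← hgR, mem_cj] at hq
      have hx : a * (g⁻¹ * q * g) * a⁻¹ ∈ R' := (Subgroup.mem_normalizer_iff.1 haR _).1 hq
      have := hh ⟨_, hq⟩ hx
      rw [hg, hg] at this
      simp only at this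
      calc g * a * g⁻¹ * q * (g * a * g⁻¹)⁻¹ = g * (a * (g⁻¹ * q * g) * a⁻¹) * g⁻¹ := by group
        _ = h * (g * (g⁻¹ * q * g) * g⁻¹) * h⁻¹ := this
        _ = _ := by group
    have hc : h⁻¹ * (g * a * g⁻¹) ∈ Subgroup.centralizer (Q : Set G) := by
      refine Subgroup.mem_centralizer_iff.2 fun q hq' => ?_
      have := hq q hq'
      calc q * (h⁻¹ * (g * a * g⁻¹)) = h⁻¹ * (h * q * h⁻¹) * (g * a * g⁻¹) := by group
        _ = h⁻¹ * (g * a * g⁻¹ * q * (g * a * g⁻¹)⁻¹) * (g * a * g⁻¹) := by rw [this]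
        _ = _ := by group
    have hhN : h ∈ Subgroup.normalizer (Q : Set G) := by
      have := (Subgroup.normalizer (Q : Set G)).mul_mem huN
        ((Subgroup.normalizer (Q : Set G)).inv_mem (Subgroup.centralizer_le_normalizer _ hc))
      simpa [mul_assoc] using this
    have hhT : h ∈ P ⊓ T := by
      show h ∈ P ⊓ stab Q f
      rw [inf_stab hM hQf.2 (mem_stab hM hQf.2) hS.1.1.1 hle]
      exact ⟨hhP, hhN⟩
    rw [show g * a * g⁻¹ = h * (h⁻¹ * (g * a * g⁻¹)) by group]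
    exact H.mul_mem (hPH hhT) (hCH hc)
  obtain ⟨x, hxH, hx⟩ := exists_conj_in_local hM hCH hF hFe (D := P ⊓ T) hPH hD hgD
    (N := cj g N) hN'H hstep
  obtain ⟨y, hy, hyx⟩ := hxH
  obtain ⟨d, hd, c, hc, hdc⟩ := Subgroup.mem_sup_of_normal_right.1 hy
  have hxe : x = (d : G) * (c : G) := by rw [← hyx, ← hdc]; rfl
  have hdP : (d : G) ∈ P := hd.1
  have hbel : Below p M ⟨P, e⟩ (cp ((c : G) * g) (⟨N, gN⟩ : Cfsg.BrauerPairIdx G)) := by
    have h3 : Below p M ⟨P, e⟩ (cp x (cp g (⟨N, gN⟩ : Cfsg.BrauerPairIdx G))) :=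
      Relation.ReflTransGen.trans hx hgDle
    have h4 := below_cp hM (d : G)⁻¹ h3
    rw [cp_self (P.inv_mem hdP), cp_cp, cp_cp] at h4
    rwa [show (d : G)⁻¹ * x * g = (c : G) * g by rw [hxe]; group] at h4
  refine ⟨(MulAut.conj ((c : G) * g)).toMonoidHom.comp N.subtype,
    (mem_hom_iff hM hS N _).2 ⟨(c : G) * g, fun u => rfl, ⟨N, gN⟩, rfl, hgN, hbel⟩, fun z hz hzN => ?_⟩
  show (c : G) * g * z * ((c : G) * g)⁻¹ = φ ⟨z, hz⟩
  rw [hg]
  have hq : g * z * g⁻¹ ∈ Q := by rw [← hgR, mem_cj]; simpa [mul_assoc] using hz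
  have h5 : g * z * g⁻¹ * (c : G) = (c : G) * (g * z * g⁻¹) := Subgroup.mem_centralizer_iff.1 hc _ hq
  calc (c : G) * g * z * ((c : G) * g)⁻¹ = ((c : G) * (g * z * g⁻¹)) * (c : G)⁻¹ := by group
    _ = ((g * z * g⁻¹) * (c : G)) * (c : G)⁻¹ := by rw [← h5]
    _ = g * z * g⁻¹ := by group

/-- A member with maximal local defect is fully automized. -/
theorem automized (hM : Cfsg.IsPModular p M) {S : Cfsg.FusionSystem P}
    (hS : Cfsg.IsBlockFusionSystemOn p M B P e S) {Q : Subgroup G}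
    {f : Set (Cfsg.IrrCharacter (Subgroup.centralizer (Q : Set G)))}
    (hle : Cfsg.SubpairLE p M Q f P e)
    (hfn : ∀ x : G, Cfsg.SubpairLE p M (cj x Q) (imgSet (cjC x Q) f) P e →
      Nat.card (cj x⁻¹ P ⊓ stab Q f : Subgroup G) ≤ Nat.card (P ⊓ stab Q f : Subgroup G)) :
    S.IsFullyAutomized p Q := by
  classical
  haveI : Fact p.Prime := ⟨hM.1⟩
  refine ⟨le_of_chain hM hle, ?_⟩
  have hQf := isBrauerPair_of_le hM hS.1.1.1 hle
  obtain ⟨hCT, hQT, hTN, hTf, -⟩ := stabilizer_local hM hQf.2 (mem_stab hM hQf.2)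
  haveI := Fintype.ofFinite (stab Q f)
  obtain ⟨F, hF, hFe⟩ := exists_local_block hM hQf hCT hQT hTN hTf
  have hD := (isDefectGroup_iff_max hM hCT hTN hTf hF hFe hS.1 hle).2 hfn
  have hidx := not_dvd_index_local hM hQf hCT hQT hTN hTf hF hFe hD
  let θ : stab Q f →* MulAut Q := Q.normalizerMonoidHom.comp (Subgroup.inclusion hTN)
  have hθ : ∀ (t : stab Q f) (u : Q), ((θ t u : Q) : G) = (t : G) * (u : G) * (t : G)⁻¹ := fun _ _ => rfl
  have hker : θ.ker = (Subgroup.centralizer (Q : Set G)).subgroupOf (stab Q f) := by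
    ext t
    rw [MonoidHom.mem_ker]
    constructor
    · intro h
      refine Subgroup.mem_centralizer_iff.2 fun q hq => ?_
      have h1 := hθ t ⟨q, hq⟩
      rw [h] at h1
      exact eq_mul_inv_iff_mul_eq.1 h1
    · intro h
      refine MulEquiv.ext fun u => Subtype.ext ?_
      have h1 : (u : G) * (t : G) = (t : G) * (u : G) := Subgroup.mem_centralizer_iff.1 h (u : G) u.2
      rw [hθ, ← h1, mul_inv_cancel_right]
      rfl
  have hA : S.autGroup Q = θ.range := by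
    ext α
    rw [autGroup_eq hM hS hle]
    constructor
    · rintro ⟨t, htN, htf, ht⟩
      exact ⟨⟨t, htN, htf⟩, MulEquiv.ext fun u => Subtype.ext ((hθ _ u).trans (ht u).symm)⟩
    · rintro ⟨t, rfl⟩
      exact ⟨t, t.2.1, t.2.2, fun u => hθ t u⟩
  have hI : Cfsg.autInducedBy P Q = ((P ⊓ stab Q f).subgroupOf (stab Q f)).map θ := by
    ext α
    rw [Fus.mem_autInducedBy]
    constructor
    · rintro ⟨t, htP, ht⟩
      have htN : t ∈ Subgroup.normalizer (Q : Set G) := by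
        have hcj : cj t Q = Q := by
          refine le_antisymm ?_ fun x hx => ?_
          · rintro x ⟨u, hu, rfl⟩
            show t * u * t⁻¹ ∈ Q
            rw [← ht ⟨u, hu⟩]
            exact (α ⟨u, hu⟩).2
          · refine ⟨_, (α.symm ⟨x, hx⟩).2, ?_⟩
            show t * (α.symm ⟨x, hx⟩ : G) * t⁻¹ = x
            rw [← ht]
            simp
        refine Subgroup.mem_normalizer_iff.2 fun q => ⟨fun hq => ?_, fun hq => ?_⟩
        · exact hcj ▸ mem_cj.2 (by simpa [mul_assoc] using hq)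
        · have : t * q * t⁻¹ ∈ cj t Q := hcj.symm ▸ hq
          simpa [mul_assoc] using mem_cj.1 this
      have htT : t ∈ P ⊓ stab Q f := by
        rw [inf_stab hM hQf.2 (mem_stab hM hQf.2) hS.1.1.1 hle]
        exact ⟨htP, htN⟩
      exact ⟨⟨t, htT.2⟩, htT, MulEquiv.ext fun u => Subtype.ext ((hθ _ u).trans (ht u).symm)⟩
    · rintro ⟨t, ht, rfl⟩
      exact ⟨t, ht.1, fun u => hθ t u⟩
  have hp' : IsPGroup p ((Cfsg.autInducedBy P Q).subgroupOf (S.autGroup Q)) := by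
    refine IsPGroup.comap_of_injective ?_ _ (Subgroup.subtype_injective _)
    rw [hI]
    exact ((hS.1.1.1.1.to_le inf_le_left).comap_of_injective _ (Subgroup.subtype_injective _)).map θ
  have hnd : ¬ p ∣ ((Cfsg.autInducedBy P Q).subgroupOf (S.autGroup Q)).index := by
    have h2 : (Cfsg.autInducedBy P Q).relIndex (S.autGroup Q)
        = ((P ⊓ stab Q f).subgroupOf (stab Q f) ⊔
            (Subgroup.centralizer (Q : Set G)).subgroupOf (stab Q f)).index := by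
      rw [hA, hI, MonoidHom.range_eq_map, Subgroup.relIndex_map_map, hker, top_sup_eq,
        Subgroup.relIndex_top_right]
    exact fun h => hidx (h2 ▸ h)
  exact ⟨hp'.toSylow hnd, rfl⟩

/-- Saturation of the fusion system of a block. -/
theorem saturated (hM : Cfsg.IsPModular p M) {S : Cfsg.FusionSystem P}
    (hS : Cfsg.IsBlockFusionSystemOn p M B P e S) : S.IsSaturated p := by
  classical
  intro Q0 hQ0
  obtain ⟨f0, hf0⟩ := exists_below hM hS.1.1.1 hQ0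
  obtain ⟨x, hx, hxmax⟩ := Finset.exists_max_image
    (Finset.univ.filter fun x : G => Below p M ⟨P, e⟩ (cp x (⟨Q0, f0⟩ : Cfsg.BrauerPairIdx G)))
    (fun x => Nat.card (P ⊓ Subgroup.normalizer ((cj x Q0 : Subgroup G) : Set G) : Subgroup G))
    ⟨1, Finset.mem_filter.2 ⟨Finset.mem_univ _, by rw [cp_one]; exact hf0⟩⟩
  rw [Finset.mem_filter] at hx
  have hx' : Cfsg.SubpairLE p M (cj x Q0) (imgSet (cjC x Q0) f0) P e := hx.2
  have hf' := isBrauerPair_of_le hM hS.1.1.1 hx'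
  have hfn : ∀ y : G, Cfsg.SubpairLE p M (cj y (cj x Q0))
      (imgSet (cjC y (cj x Q0)) (imgSet (cjC x Q0) f0)) P e →
      Nat.card (cj y⁻¹ P ⊓ stab (cj x Q0) (imgSet (cjC x Q0) f0) : Subgroup G)
        ≤ Nat.card (P ⊓ stab (cj x Q0) (imgSet (cjC x Q0) f0) : Subgroup G) := by
    intro y hy
    rw [conj_inf_stab hM hf'.2 (mem_stab hM hf'.2) hS.1.1.1 hy, card_cj,
      inf_stab hM hf'.2 (mem_stab hM hf'.2) hS.1.1.1 hx', cj_cj]
    refine hxmax (y * x) (Finset.mem_filter.2 ⟨Finset.mem_univ _, ?_⟩)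
    rw [← cp_cp]
    exact hy
  refine ⟨cj x Q0, ⟨(MulAut.conj x).toMonoidHom.comp Q0.subtype,
    (mem_hom_iff hM hS Q0 _).2 ⟨x, fun u => rfl, ⟨Q0, f0⟩, rfl, hf0, hx.2⟩, range_of_conj fun u => rfl⟩,
    automized hM hS hx' hfn, receptive hM hS hx' hfn⟩

end System

end Cfsg.Agent.Blocks
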