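import Cfsg.Agent.Blocks.RegMat

/-!
# The bounds of Brauer and Feit
-/

namespace Cfsg.Agent.Blocks

universe u

variable {p : ℕ} {M : Ideal Cfsg.AlgInt} {G : Type u} [Group G] [Fintype G]

theorem degree_factorization_eq (hM : Cfsg.IsPModular p M) {B : Set (Cfsg.IrrCharacter G)}
    (hB : Cfsg.IsPBlock M B) {χ : Cfsg.IrrCharacter G} (hχ : χ ∈ B) :
    (Cfsg.charDegree (χ : G → ℂ)).factorization p + Cfsg.blockDefect p B
      = (Nat.card G).factorization p + Cfsg.blockHeight p B (χ : G → ℂ) := by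
  obtain ⟨χ₀, hχ₀, h0⟩ : (sInf ((fun χ : Cfsg.IrrCharacter G =>
      (Cfsg.charDegree (χ : G → ℂ)).factorization p) '' B))
      ∈ ((fun χ : Cfsg.IrrCharacter G => (Cfsg.charDegree (χ : G → ℂ)).factorization p) '' B) :=
    Nat.sInf_mem ⟨_, χ, hχ, rfl⟩
  have h1 := degree_factorization_le χ₀ p
  have h2 : sInf ((fun χ : Cfsg.IrrCharacter G =>
      (Cfsg.charDegree (χ : G → ℂ)).factorization p) '' B)
      ≤ (Cfsg.charDegree (χ : G → ℂ)).factorization p := Nat.sInf_le ⟨χ, hχ, rfl⟩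
  simp only [Cfsg.blockDefect, Cfsg.blockHeight]
  dsimp only at h0
  omega

omit [Fintype G] in
theorem exists_height_zero {B : Set (Cfsg.IrrCharacter G)} (hne : B.Nonempty) :
    ∃ χ ∈ B, Cfsg.blockHeight p B (χ : G → ℂ) = 0 := by
  obtain ⟨χ₀, hχ₀, h0⟩ := Nat.sInf_mem (hne.image
    (fun χ : Cfsg.IrrCharacter G => (Cfsg.charDegree (χ : G → ℂ)).factorization p))
  exact ⟨χ₀, hχ₀, by rw [Cfsg.blockHeight, ← h0]; exact Nat.sub_self _⟩

/-- A height zero partner gives a nonzero entry. -/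
theorem regVal_ne_zero (hM : Cfsg.IsPModular p M) {B : Set (Cfsg.IrrCharacter G)}
    (hB : Cfsg.IsPBlock M B) {χ ψ : Cfsg.IrrCharacter G} (hχ : χ ∈ B) (hψ : ψ ∈ B)
    (h0 : Cfsg.blockHeight p B (ψ : G → ℂ) = 0) : regVal p χ ψ ≠ 0 := by
  intro h
  have h1 := regVal_eq_omega hM.1 χ ψ
  rw [h, Int.cast_zero, zero_mul] at h1
  refine not_li_omega_regElt hM hB hψ h0 hχ ?_
  rw [(mul_eq_zero.1 h1.symm).resolve_left (Char.irr_one_ne_zero χ)]
  exact li_zero hM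

/-- The quadratic bound along a row with a height zero character. -/
theorem row_bound (hM : Cfsg.IsPModular p M) {B : Set (Cfsg.IrrCharacter G)}
    (hB : Cfsg.IsPBlock M B) {χ : Cfsg.IrrCharacter G} (hχ : χ ∈ B)
    (s : Finset (Cfsg.IrrCharacter G)) (hsχ : χ ∉ s) (e : Cfsg.IrrCharacter G → ℕ)
    (hs : ∀ ψ ∈ s, regVal p χ ψ ≠ 0 ∧
      (p : ℤ) ^ ((Nat.card G).factorization p - Cfsg.blockDefect p B + e ψ) ∣ regVal p χ ψ) :
    4 * ∑ ψ ∈ s, p ^ (2 * e ψ) ≤ p ^ (2 * Cfsg.blockDefect p B) := by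
  classical
  have hp := hM.1
  set a := (Nat.card G).factorization p with ha
  set d := Cfsg.blockDefect p B with hd
  have hda : d ≤ a := Nat.sub_le _ _
  have h1 := sum_regVal_sq hp χ
  have hsub : ∑ ψ ∈ s, regVal p χ ψ ^ 2 + regVal p χ χ ^ 2
      ≤ ∑ ψ : Cfsg.IrrCharacter G, regVal p χ ψ ^ 2 := by
    rw [add_comm, ← Finset.sum_insert (f := fun ψ => regVal p χ ψ ^ 2) hsχ]
    exact Finset.sum_le_sum_of_subset_of_nonneg (Finset.subset_univ _) fun _ _ _ => sq_nonneg _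
  have h2 : ∑ ψ ∈ s, ((p : ℤ) ^ (a - d + e ψ)) ^ 2 ≤ ∑ ψ ∈ s, regVal p χ ψ ^ 2 := by
    refine Finset.sum_le_sum fun ψ hψ => ?_
    rw [sq_le_sq, abs_of_nonneg (pow_nonneg (Nat.cast_nonneg p) _)]
    exact Int.le_of_dvd (abs_pos.2 (hs ψ hψ).1) ((dvd_abs _ _).2 (hs ψ hψ).2)
  have h3 : 4 * ((p : ℤ) ^ a * regVal p χ χ - regVal p χ χ ^ 2) ≤ ((p : ℤ) ^ a) ^ 2 := by
    nlinarith [sq_nonneg ((p : ℤ) ^ a - 2 * regVal p χ χ)]
  have h4 : ((p : ℤ) ^ (a - d)) ^ 2 * (4 * ∑ ψ ∈ s, (p : ℤ) ^ (2 * e ψ))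
      ≤ ((p : ℤ) ^ (a - d)) ^ 2 * (p : ℤ) ^ (2 * d) := by
    have e1 : ((p : ℤ) ^ (a - d)) ^ 2 * (p : ℤ) ^ (2 * d) = ((p : ℤ) ^ a) ^ 2 := by
      rw [← pow_mul, ← pow_mul, ← pow_add]; congr 1; omega
    have e2 : ((p : ℤ) ^ (a - d)) ^ 2 * (4 * ∑ ψ ∈ s, (p : ℤ) ^ (2 * e ψ))
        = 4 * ∑ ψ ∈ s, ((p : ℤ) ^ (a - d + e ψ)) ^ 2 := by
      rw [Finset.mul_sum, Finset.mul_sum, Finset.mul_sum]
      refine Finset.sum_congr rfl fun ψ _ => ?_
      rw [pow_add, mul_pow, ← pow_mul (p : ℤ) (e ψ), mul_comm (e ψ) 2]; ring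
    rw [e1, e2]
    linarith
  have h5 := le_of_mul_le_mul_left h4 (pow_pos (pow_pos (by exact_mod_cast hp.pos) _) _)
  exact_mod_cast h5

/-- The sum of the `p`-powers attached to the heights. -/
theorem sum_height_le (hM : Cfsg.IsPModular p M) {B : Set (Cfsg.IrrCharacter G)}
    (hB : Cfsg.IsPBlock M B) {χ : Cfsg.IrrCharacter G} (hχ : χ ∈ B)
    (h0 : Cfsg.blockHeight p B (χ : G → ℂ) = 0) :
    4 * ∑ ψ ∈ B.toFinite.toFinset.erase χ, p ^ (2 * Cfsg.blockHeight p B (ψ : G → ℂ))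
      ≤ p ^ (2 * Cfsg.blockDefect p B) := by
  classical
  refine row_bound hM hB hχ _ (Finset.notMem_erase _ _) _ fun ψ hψ => ?_
  have hψB : ψ ∈ B := B.toFinite.mem_toFinset.1 (Finset.mem_of_mem_erase hψ)
  rw [regVal_comm hM.1]
  refine ⟨regVal_ne_zero hM hB hψB hχ h0, ?_⟩
  have h := pow_dvd_regVal hM ψ χ
  have h2 := degree_factorization_eq hM hB hψB
  have h3 : Cfsg.blockDefect p B ≤ (Nat.card G).factorization p := Nat.sub_le _ _
  rwa [show (Cfsg.charDegree (ψ : G → ℂ)).factorization p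
    = (Nat.card G).factorization p - Cfsg.blockDefect p B + Cfsg.blockHeight p B (ψ : G → ℂ) by omega]
    at h

theorem height_bound (hM : Cfsg.IsPModular p M) {B : Set (Cfsg.IrrCharacter G)}
    (hB : Cfsg.IsPBlock M B) {χ : Cfsg.IrrCharacter G} (hχ : χ ∈ B) :
    Cfsg.blockHeight p B (χ : G → ℂ) = 0 ∨
      Cfsg.blockHeight p B (χ : G → ℂ) + 2 ≤ Cfsg.blockDefect p B := by
  by_contra hcon
  push Not at hcon
  have h2 := degree_factorization_eq hM hB hχ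
  have hle := degree_factorization_le χ p
  rcases hle.eq_or_lt with heq | hlt
  · have hs := (singleton_block_iff hM χ).2 heq
    rw [← block_eq_blockOf hM hB hχ] at hs
    obtain ⟨χ₀, hχ₀, h0⟩ := exists_height_zero (p := p) ⟨χ, hχ⟩
    exact hcon.1 (((show χ₀ = χ from by rw [hs] at hχ₀; exact hχ₀) ▸ h0))
  · have h3 := add_two_le_of_height hM hB hχ hcon.1 hlt
    omega

/-- A block with a character of positive height. -/
theorem two_mul_card_le (hM : Cfsg.IsPModular p M) {B : Set (Cfsg.IrrCharacter G)}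
    (hB : Cfsg.IsPBlock M B) {χ : Cfsg.IrrCharacter G} (hχ : χ ∈ B)
    (hh : 0 < Cfsg.blockHeight p B (χ : G → ℂ)) :
    2 * Nat.card B ≤ p ^ (2 * Cfsg.blockDefect p B - 2) := by
  classical
  obtain ⟨χ₀, hχ₀, h0⟩ := exists_height_zero (p := p) ⟨χ, hχ⟩
  set d := Cfsg.blockDefect p B with hd
  set F := B.toFinite.toFinset with hF
  set Z := F.filter fun ψ : Cfsg.IrrCharacter G => Cfsg.blockHeight p B (ψ : G → ℂ) = 0 with hZ
  set P := F.filter fun ψ : Cfsg.IrrCharacter G => ¬ Cfsg.blockHeight p B (ψ : G → ℂ) = 0 with hP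
  have hd2 : 2 ≤ d := by
    rcases height_bound hM hB hχ with h | h <;> omega
  have hcard : Nat.card B = Z.card + P.card := by
    rw [Finset.card_filter_add_card_filter_not, Nat.card_coe_set_eq, Set.ncard_eq_toFinset_card]
  have hpp : p ^ (2 * d) = p ^ 2 * p ^ (2 * d - 2) := by rw [← pow_add]; congr 1; omega
  -- the row of the height zero character
  have h1 : 4 * (p ^ 2 * P.card) ≤ p ^ (2 * d) := by
    refine le_trans (Nat.mul_le_mul_left 4 ?_) (sum_height_le hM hB hχ₀ h0)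
    rw [mul_comm (p ^ 2), ← smul_eq_mul, ← Finset.sum_const]
    refine le_trans (Finset.sum_le_sum fun ψ hψ => ?_) (Finset.sum_le_sum_of_subset_of_nonneg
      (fun ψ hψ => Finset.mem_erase.2 ⟨fun he => (Finset.mem_filter.1 hψ).2 (he ▸ h0),
        (Finset.mem_filter.1 hψ).1⟩) fun _ _ _ => Nat.zero_le _)
    exact Nat.pow_le_pow_right hM.1.pos (by have := (Finset.mem_filter.1 hψ).2; omega)
  -- the row of the character of positive height
  have h2 : 4 * (p ^ 2 * Z.card) ≤ p ^ (2 * d) := by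
    have h3 := row_bound hM hB hχ Z (fun h => hh.ne' (Finset.mem_filter.1 h).2) (fun _ => 1)
      fun ψ hψ => by
        have hψB : ψ ∈ B := B.toFinite.mem_toFinset.1 (Finset.mem_filter.1 hψ).1
        refine ⟨regVal_ne_zero hM hB hχ hψB (Finset.mem_filter.1 hψ).2, ?_⟩
        have h := pow_dvd_regVal hM χ ψ
        have h4 := degree_factorization_eq hM hB hχ
        have h5 : d ≤ (Nat.card G).factorization p := Nat.sub_le _ _
        refine dvd_trans (pow_dvd_pow _ ?_) h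
        omega
    rwa [Finset.sum_const, smul_eq_mul, mul_one, mul_comm Z.card] at h3
  have hp0 : 0 < p ^ 2 := pow_pos hM.1.pos 2
  rw [hpp] at h1 h2
  have e1 : 4 * P.card ≤ p ^ (2 * d - 2) := Nat.le_of_mul_le_mul_left (by linarith) hp0
  have e2 : 4 * Z.card ≤ p ^ (2 * d - 2) := Nat.le_of_mul_le_mul_left (by linarith) hp0
  omega

end Cfsg.Agent.Blocks
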