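import Cfsg.Agent.Blocks.ExtFirstMain
import Cfsg.Agent.Blocks.SecondMain

/-!
# The correspondence of blocks over a subgroup containing a normalizer
-/

namespace Cfsg.Agent.Blocks

universe u

variable {p : ℕ} {M : Ideal Cfsg.AlgInt} {G : Type u} [Group G] [Fintype G]

/-- Congruent idempotents on a centralizer, tested on pairs. -/
theorem li_coeff_sub_of_hits (hM : Cfsg.IsPModular p M) {P : Subgroup G} (hP : IsPGroup p P)
    {a c : MonoidAlgebra ℂ G} (hac : IsCentral a) (ha : a ∈ intAlg hM G) (ha2 : a * a = a)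
    (hc : c ∈ intAlg hM G) (hc2 : c * c = c) (hcP : PInvariant P c)
    (hcC : PInvariant (Subgroup.centralizer (P : Set G)) c)
    (h : ∀ e : Set (Cfsg.IrrCharacter (Subgroup.centralizer (P : Set G))),
      Cfsg.IsPBlock M e → (Hits M P e a ↔ Hits M P e c))
    {g : G} (hg : g ∈ Subgroup.centralizer (P : Set G)) :
    Cfsg.MemLocalIdeal M (a.coeff g - c.coeff g) := by
  classical
  haveI := Fintype.ofFinite (Subgroup.centralizer (P : Set G))
  have haP := hac.pInvariant P
  have haC := hac.pInvariant (Subgroup.centralizer (P : Set G))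
  have hcomm := hac.comm c
  have key : ∀ a b : MonoidAlgebra ℂ G, a ∈ intAlg hM G → b ∈ intAlg hM G → a * a = a → b * b = b →
      a * b = b * a → PInvariant P a → PInvariant (Subgroup.centralizer (P : Set G)) a →
      PInvariant P b → PInvariant (Subgroup.centralizer (P : Set G)) b →
      (∀ e : Set (Cfsg.IrrCharacter (Subgroup.centralizer (P : Set G))),
        Cfsg.IsPBlock M e → Hits M P e a → Hits M P e b) →
      Cfsg.MemLocalIdeal M ((a - a * b).coeff g) := by
    intro a b ha hb ha2 hb2 hab haP haC hbP hbC himp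
    by_contra hne
    have h1b : (1 : MonoidAlgebra ℂ G) - b ∈ intAlg hM G := sub_mem (one_mem _) hb
    have h1b2 : (1 - b) * (1 - b) = 1 - b := by
      rw [mul_sub, mul_one, sub_mul, one_mul, hb2, sub_self, sub_zero]
    have he : a - a * b = a * (1 - b) := by rw [mul_sub, mul_one]
    have hidem : a * (1 - b) * (a * (1 - b)) = a * (1 - b) := by
      have hc : (1 - b) * a = a * (1 - b) := by rw [mul_sub, sub_mul, mul_one, one_mul, hab]
      rw [mul_assoc, ← mul_assoc (1 - b), hc, mul_assoc, h1b2, ← mul_assoc, ha2]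
    obtain ⟨e, he', hhe⟩ := exists_pval_ne hM hP (mul_mem ha h1b) hidem
      (pInvariant_mul haP (pInvariant_one_sub hbP)) (pInvariant_mul haC (pInvariant_one_sub hbC))
      hg (he ▸ hne)
    obtain ⟨η, hη⟩ := block_nonempty hM he'
    have h1 := pval_mul hM hP η ha h1b haP haC (pInvariant_one_sub hbP) (pInvariant_one_sub hbC)
      (pInvariant_mul haC (pInvariant_one_sub hbC))
    have h2 := li_sub hM (hhe.pval hη) h1
    rw [sub_sub_sub_cancel_left] at h2
    rcases pval_idem hM hP η ha ha2 haP haC with h3 | h3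
    · have h4 := li_sub hM (li_mul hM h3 (pval_lr hM η h1b (pInvariant_one_sub hbC))) h2
      rw [sub_sub_cancel] at h4
      exact not_li_one hM h4
    · have hb1 := (himp e he' (hits_of_mem hM he' ha haC hη h3)).pval hη
      have h5 : Cfsg.MemLocalIdeal M (pval P η.1 (1 - b)) := by
        rw [pval_sub, pval_one, ← neg_sub]
        exact li_neg hb1
      have h6 := li_sub hM (li_mul_left hM (pval_lr hM η ha haC) h5) h2
      rw [sub_sub_cancel] at h6
      exact not_li_one hM h6
  have h1 := key a c ha hc ha2 hc2 hcomm haP haC hcP hcC fun e he hh => (h e he).1 hh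
  have h2 := key c a hc ha hc2 ha2 hcomm.symm hcP hcC haP haC fun e he hh => (h e he).2 hh
  rw [← hcomm] at h2
  have h3 := li_sub hM h1 h2
  simp only [MonoidAlgebra.coeff_sub, Finsupp.sub_apply, sub_sub_sub_cancel_right] at h3
  exact h3

/-- The block of a pair. -/
theorem exists_block_of_pair (hM : Cfsg.IsPModular p M) {P : Subgroup G}
    {e : Set (Cfsg.IrrCharacter (Subgroup.centralizer (P : Set G)))}
    (he : Cfsg.IsBrauerPair p M P e) : ∃ B, Cfsg.IsBrauerPairOf p M B P e := by
  classical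
  haveI := Fintype.ofFinite (Subgroup.centralizer (P : Set G))
  obtain ⟨ξ, hξ⟩ := block_nonempty hM he.2
  obtain ⟨B, hB, hφ⟩ := (isModHom_trunc hM he.1 (H := Subgroup.centralizer (P : Set G)) le_rfl
    (centralizer_conj_mem _) ξ).exists_block
  obtain ⟨χ, hχ⟩ := block_nonempty hM hB
  refine ⟨B, isBrauerPairOf_iff.2 ⟨he, hB, hits_of_mem hM he.2 (idem_block_mem hM hB)
    ((isCentral_idem B).pInvariant _) hξ ?_⟩⟩
  have h := hφ χ hχ (idem B) (isCentral_idem B) (idem_block_mem hM hB)
  rw [omega_idem, if_pos hχ] at h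
  exact h

theorem block_of_pair_eq (hM : Cfsg.IsPModular p M) {P : Subgroup G}
    {e : Set (Cfsg.IrrCharacter (Subgroup.centralizer (P : Set G)))}
    {B B' : Set (Cfsg.IrrCharacter G)} (h : Cfsg.IsBrauerPairOf p M B P e)
    (h' : Cfsg.IsBrauerPairOf p M B' P e) : B = B' := by
  classical
  haveI := Fintype.ofFinite (Subgroup.centralizer (P : Set G))
  obtain ⟨hp', hB, hh⟩ := isBrauerPairOf_iff.1 h
  obtain ⟨-, hB', hh'⟩ := isBrauerPairOf_iff.1 h'
  obtain ⟨η, hη⟩ := block_nonempty hM hp'.2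
  by_contra hne
  have h1 := pval_mul hM hp'.1 η (idem_block_mem hM hB) (idem_block_mem hM hB')
    ((isCentral_idem B).pInvariant _) ((isCentral_idem B).pInvariant _)
    ((isCentral_idem B').pInvariant _) ((isCentral_idem B').pInvariant _)
    (pInvariant_mul ((isCentral_idem B).pInvariant _) ((isCentral_idem B').pInvariant _))
  have hz : idem B * idem B' = (0 : MonoidAlgebra ℂ G) := by
    rw [← idem_inter, (disjoint_blocks hM hB hB' hne).inter_eq]
    exact ext_coeff fun g => by simp [idem, Cfsg.blockCoeff]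
  rw [hz, pval_zero, zero_sub] at h1
  have h2 := li_neg h1
  rw [neg_neg] at h2
  rcases li_or_li_of_mul hM (pval_lr hM η (idem_block_mem hM hB) ((isCentral_idem B).pInvariant _))
    (pval_lr hM η (idem_block_mem hM hB') ((isCentral_idem B').pInvariant _)) h2 with h3 | h3
  · have := li_sub hM h3 (hh.pval hη); rw [sub_sub_cancel] at this; exact not_li_one hM this
  · have := li_sub hM h3 (hh'.pval hη); rw [sub_sub_cancel] at this; exact not_li_one hM this

/-- The pairs at a defect group are conjugate. -/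
theorem conj_pairs_at_defect (hM : Cfsg.IsPModular p M) {B : Set (Cfsg.IrrCharacter G)}
    {P : Subgroup G} (hBP : Cfsg.IsDefectGroup p M B P)
    {e e' : Set (Cfsg.IrrCharacter (Subgroup.centralizer (P : Set G)))}
    (he : Cfsg.IsBrauerPairOf p M B P e) (he' : Cfsg.IsBrauerPairOf p M B P e') :
    ∃ x ∈ Subgroup.normalizer (P : Set G),
      (⟨cj x P, imgSet (cjC x P) e⟩ : Cfsg.BrauerPairIdx G) = ⟨P, e'⟩ := by
  obtain ⟨x, hx⟩ := exists_conj_le_maximal hM (isMaximal_of_defect hM hBP he') he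
  have hxP : cj x P = P := Subgroup.eq_of_le_of_card_ge (le_of_chain hM hx) (by rw [card_cj])
  have hxN : x ∈ Subgroup.normalizer (P : Set G) := by
    refine Subgroup.mem_normalizer_iff.2 fun g => ⟨fun hg => ?_, fun hg => ?_⟩
    · exact hxP ▸ mem_cj.2 (by simpa [mul_assoc] using hg)
    · have : x * g * x⁻¹ ∈ cj x P := hxP.symm ▸ hg
      simpa [mul_assoc] using mem_cj.1 this
  refine ⟨x, hxN, ?_⟩
  obtain ⟨e2, he2, hpe2, -⟩ := exists_conj_block hxN he.1.2
  have hcp : (⟨cj x P, imgSet (cjC x P) e⟩ : Cfsg.BrauerPairIdx G) = ⟨P, e2⟩ :=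
    idx_eq hxP (by
      show pe (cj x P) _ = pe P e2
      rw [pe_imgSet, hpe2])
  have h1 : Cfsg.SubpairLE p M P e2 P e' := by
    unfold Cfsg.SubpairLE at hx ⊢
    exact hcp ▸ hx
  rw [hcp, (existsUnique_below hM he'.1 le_rfl).unique ⟨he2, h1⟩
      ⟨he'.1.2, Relation.ReflTransGen.refl⟩]

variable {P H : Subgroup G} [Fintype H]

theorem pInvariant_emb (c : Set (Cfsg.IrrCharacter H)) : PInvariant H (emb H (idem c)) :=
  fun _ hx g => emb_conj_invariant (isCentral_idem c) hx g

theorem emb_idem_sq (c : Set (Cfsg.IrrCharacter H)) :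
    emb H (idem c) * emb H (idem c) = emb H (idem c) := by
  rw [← emb_mul, ← idem_inter, Set.inter_self]

/-- A pair lies over exactly the induced block. -/
theorem link_of_pair (hM : Cfsg.IsPModular p M) (hP : IsPGroup p P) (hPH : P ≤ H)
    (hCH : Subgroup.centralizer (P : Set G) ≤ H)
    {e : Set (Cfsg.IrrCharacter (Subgroup.centralizer (P : Set G)))}
    {c : Set (Cfsg.IrrCharacter H)} (hc : Cfsg.IsPBlock M c) (hec : Hits M P e (emb H (idem c)))
    {B : Set (Cfsg.IrrCharacter G)} (he : Cfsg.IsBrauerPairOf p M B P e) :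
    Cfsg.IsInducedBlock M H c B ∧
      ∀ η ∈ e, ∀ [Fintype (Subgroup.centralizer (P : Set G))],
        (∀ ξ ∈ c, ∀ a, IsCentral a → a ∈ intAlg hM H →
          Cfsg.MemLocalIdeal M (omega η.1 (trunc _ (Subgroup.centralizer (P : Set G) : Set G) (emb H a))
            - omega ξ.1 a)) ∧
        (∀ χ ∈ B, ∀ a, IsCentral a → a ∈ intAlg hM G →
          Cfsg.MemLocalIdeal M (omega η.1 (trunc _ (Subgroup.centralizer (P : Set G) : Set G) a)
            - omega χ.1 a)) := by
  classical
  obtain ⟨hp', hB, hh⟩ := isBrauerPairOf_iff.1 he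
  have h2 : ∀ η ∈ e, ∀ [Fintype (Subgroup.centralizer (P : Set G))],
        (∀ ξ ∈ c, ∀ a, IsCentral a → a ∈ intAlg hM H →
          Cfsg.MemLocalIdeal M (omega η.1 (trunc _ (Subgroup.centralizer (P : Set G) : Set G) (emb H a))
            - omega ξ.1 a)) ∧
        (∀ χ ∈ B, ∀ a, IsCentral a → a ∈ intAlg hM G →
          Cfsg.MemLocalIdeal M (omega η.1 (trunc _ (Subgroup.centralizer (P : Set G) : Set G) a)
            - omega χ.1 a)) := by
    intro η hη _
    obtain ⟨c0, hc0, hφc⟩ := (isModHom_trunc_emb hM hP hPH hCH η).exists_block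
    obtain ⟨B0, hB0, hφB⟩ := (isModHom_trunc hM hP (H := Subgroup.centralizer (P : Set G)) le_rfl
      (centralizer_conj_mem _) η).exists_block
    have e1 : c0 = c := by
      by_contra hne
      obtain ⟨ξ, hξ⟩ := block_nonempty hM hc0
      have h := hφc ξ hξ (idem c) (isCentral_idem c) (idem_block_mem hM hc)
      rw [omega_idem, if_neg (Set.disjoint_left.1 (disjoint_blocks hM hc0 hc hne) hξ), sub_zero] at h
      have h' := li_sub hM h (hec.pval hη)
      simp only [pval, sub_sub_cancel] at h'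
      exact not_li_one hM h'
    have e2 : B0 = B := by
      by_contra hne
      obtain ⟨ξ, hξ⟩ := block_nonempty hM hB0
      have h := hφB ξ hξ (idem B) (isCentral_idem B) (idem_block_mem hM hB)
      rw [omega_idem, if_neg (Set.disjoint_left.1 (disjoint_blocks hM hB0 hB hne) hξ), sub_zero] at h
      have h' := li_sub hM h (hh.pval hη)
      simp only [pval, sub_sub_cancel] at h'
      exact not_li_one hM h'
    subst e1; subst e2
    exact ⟨hφc, hφB⟩
  refine ⟨?_, h2⟩
  haveI := Fintype.ofFinite (Subgroup.centralizer (P : Set G))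
  obtain ⟨η, hη⟩ := block_nonempty hM hp'.2
  obtain ⟨ξ, hξ⟩ := block_nonempty hM hc
  obtain ⟨χ, hχ⟩ := block_nonempty hM hB
  obtain ⟨hφc, hφB⟩ := h2 η hη
  refine isInducedBlock_of_hom hM hc hB hξ hχ fun g => ?_
  have a1 := hφc ξ hξ (trunc H Set.univ (classSum g)) (isCentral_trunc_univ H (isCentral_classSum g))
    (trunc_mem hM H _ (classSum_mem hM g))
  rw [trunc_emb_trunc fun x hx => hCH hx] at a1
  have a2 := li_sub hM (hφB χ hχ _ (isCentral_classSum g) (classSum_mem hM g)) a1
  rw [sub_sub_sub_cancel_left] at a2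
  exact a2

/-- Class sums at `P` agree in the two groups. -/
theorem trunc_classSum_over [Fact p.Prime] (hH : Subgroup.normalizer (P : Set G) ≤ H) {w : H}
    (hw : MaxP p P (w : G)) :
    trunc (Subgroup.centralizer (P : Set G)) (Subgroup.centralizer (P : Set G) : Set G)
        (emb H (classSum w))
      = trunc (Subgroup.centralizer (P : Set G)) (Subgroup.centralizer (P : Set G) : Set G)
        (classSum (w : G)) := by
  classical
  have hCH : Subgroup.centralizer (P : Set G) ≤ H := (Subgroup.centralizer_le_normalizer _).trans hH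
  refine ext_coeff fun k => ?_
  rw [trunc_coeff, trunc_coeff, if_pos (SetLike.mem_coe.2 k.2), if_pos (SetLike.mem_coe.2 k.2),
    emb_of_mem _ _ (hCH k.2), classSum_apply, classSum_apply]
  refine if_congr ⟨fun h => ?_, fun h => ?_⟩ rfl rfl
  · obtain ⟨a, ha⟩ := isConj_iff.1 h
    exact isConj_iff.2 ⟨a, congrArg Subtype.val ha⟩
  · obtain ⟨n, hn, hn'⟩ := exists_normalizer_conj hw h k.2
    exact IsConj.symm (isConj_iff.2 ⟨⟨n, hH hn⟩, Subtype.ext hn'⟩)

theorem maxP_to_sub {w : H} (hPH : P ≤ H) (hw : MaxP p P (w : G)) : MaxP p (P.subgroupOf H) w := by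
  refine ⟨fun q hq => Subgroup.mem_centralizer_singleton_iff.2 (Subtype.ext
    (Subgroup.mem_centralizer_singleton_iff.1 (hw.1 hq))),
    hw.2.1.comap_of_injective _ (Subgroup.subtype_injective _), fun Q h1 h2 h3 => ?_⟩
  have h4 := hw.2.2 (Q.map H.subtype) (fun q hq => ⟨⟨q, hPH hq⟩, h1 hq, rfl⟩) (by
    rintro g ⟨a, ha, rfl⟩
    exact Subgroup.mem_centralizer_singleton_iff.2
      (congrArg Subtype.val (Subgroup.mem_centralizer_singleton_iff.1 (h2 ha)))) (h3.map _)
  refine le_antisymm (fun q hq => ?_) h1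
  show (q : G) ∈ P
  exact h4.le ⟨q, hq, rfl⟩

/-- A linked pair of blocks shares its defect group at `P`. -/
theorem defect_iff_of_link (hM : Cfsg.IsPModular p M) (hP : IsPGroup p P)
    (hH : Subgroup.normalizer (P : Set G) ≤ H)
    {e : Set (Cfsg.IrrCharacter (Subgroup.centralizer (P : Set G)))}
    {c : Set (Cfsg.IrrCharacter H)} (hc : Cfsg.IsPBlock M c) (hec : Hits M P e (emb H (idem c)))
    {B : Set (Cfsg.IrrCharacter G)} (he : Cfsg.IsBrauerPairOf p M B P e) :
    Cfsg.IsDefectGroup p M B P ↔ Cfsg.IsDefectGroup p M c (P.subgroupOf H) := by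
  classical
  haveI : Fact p.Prime := ⟨hM.1⟩
  have hPH : P ≤ H := Subgroup.le_normalizer.trans hH
  have hCH : Subgroup.centralizer (P : Set G) ≤ H := (Subgroup.centralizer_le_normalizer _).trans hH
  haveI := Fintype.ofFinite (Subgroup.centralizer (P : Set G))
  obtain ⟨hp', hB, hh⟩ := isBrauerPairOf_iff.1 he
  obtain ⟨η, hη⟩ := block_nonempty hM hp'.2
  obtain ⟨ξ, hξ⟩ := block_nonempty hM hc
  obtain ⟨χ, hχ⟩ := block_nonempty hM hB
  obtain ⟨hφc, hφB⟩ := (link_of_pair hM hP hPH hCH hc hec he).2 η hη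
  have hω : ∀ w : H, MaxP p P (w : G) → Cfsg.MemLocalIdeal M
      (Cfsg.centralChar ξ.1 w - Cfsg.centralChar χ.1 (w : G)) := by
    intro w hw
    rw [← omega_classSum (Char.irr_isClassFunction ξ), ← omega_classSum (Char.irr_isClassFunction χ)]
    have a1 := hφc ξ hξ (classSum w) (isCentral_classSum w) (classSum_mem hM w)
    rw [trunc_classSum_over hH hw] at a1
    have a2 := li_sub hM (hφB χ hχ _ (isCentral_classSum (w : G)) (classSum_mem hM _)) a1
    rwa [sub_sub_sub_cancel_left] at a2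
  have hnz : ∀ (K : MonoidAlgebra ℂ G), PInvariant (Subgroup.centralizer (P : Set G)) K →
      Hits M P e K → ∃ g ∈ Subgroup.centralizer (P : Set G), ¬ Cfsg.MemLocalIdeal M (K.coeff g) := by
    intro K hKC hK
    by_contra hcon
    push Not at hcon
    have := li_sub hM (pval_li_of_coeff hM η hKC hcon) (hK.pval hη)
    rw [sub_sub_cancel] at this
    exact not_li_one hM this
  constructor
  · intro hBP
    obtain ⟨w, hw, hwP⟩ := isDefectGroup_iff.1 hBP
    let w' : H := ⟨w, hCH (mem_centralizer_iff_le.2 hwP.1)⟩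
    have hne : ¬ Cfsg.MemLocalIdeal M (Cfsg.centralChar ξ.1 w') := fun h => hw.2.2 χ hχ (by
      have := li_sub hM h (hω w' hwP); rwa [sub_sub_cancel] at this)
    obtain ⟨D, hD⟩ := exists_defectGroup hM hc
    obtain ⟨x, hx, hxD⟩ := defect_le_centralizer hM hc hD hξ hne
    obtain ⟨g, hg, hgne⟩ := hnz _ (fun x hx => pInvariant_emb c x (hCH hx)) hec
    rw [emb_of_mem _ _ (hCH hg)] at hgne
    obtain ⟨y, hy⟩ := cj_le_defect hM hc hD hgne
      (hP.comap_of_injective H.subtype (Subgroup.subtype_injective _))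
      (fun q hq => Subgroup.mem_centralizer_singleton_iff.2 (Subtype.ext
        ((Subgroup.mem_centralizer_iff.1 hg (q : G) hq))))
    obtain ⟨a, ha⟩ := isConj_iff.1 hx.symm
    have h1 := cj_le_centralizer hxD a
    rw [ha] at h1
    have h2 := card_le_maxP (maxP_to_sub hPH hwP) h1 (isPGroup_cj (defectGroup_isPGroup hD) a)
    rw [card_cj] at h2
    have h3 := eq_of_le_of_card_le' hy (by rw [card_cj]; exact h2)
    rw [← h3] at hD
    have h4 := isDefectGroup_cj hD y⁻¹
    rwa [cj_inv_self] at h4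
  · intro hcP
    obtain ⟨u, hu, huP⟩ := isDefectGroup_iff.1 hcP
    obtain ⟨m1, m2, m3⟩ := maxP_subgroupOf hPH huP
    have huG : MaxP p P (u : G) := maxP_of_normalizer m2 m1
      fun Q h1 h2 h3 h4 => m3 Q h1 h2 (h3.trans hH) h4
    have hne : ¬ Cfsg.MemLocalIdeal M (Cfsg.centralChar χ.1 (u : G)) := fun h => hu.2.2 ξ hξ (by
      have := li_add hM (hω u huG) h; rwa [sub_add_cancel] at this)
    obtain ⟨D, hD⟩ := exists_defectGroup hM hB
    obtain ⟨x, hx, hxD⟩ := defect_le_centralizer hM hB hD hχ hne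
    obtain ⟨g, hg, hgne⟩ := hnz _ ((isCentral_idem B).pInvariant _) hh
    obtain ⟨y, hy⟩ := cj_le_defect hM hB hD hgne hP (mem_centralizer_iff_le.1 hg)
    obtain ⟨a, ha⟩ := isConj_iff.1 hx.symm
    have h1 := cj_le_centralizer hxD a
    rw [ha] at h1
    have h2 := card_le_maxP huG h1 (isPGroup_cj (defectGroup_isPGroup hD) a)
    rw [card_cj] at h2
    have h3 := eq_of_le_of_card_le' hy (by rw [card_cj]; exact h2)
    rw [← h3] at hD
    have h4 := isDefectGroup_cj hD y⁻¹
    rwa [cj_inv_self] at h4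

/-- Linked blocks with defect group `P` agree at `P`. -/
theorem congr_of_link (hM : Cfsg.IsPModular p M) (hP : IsPGroup p P)
    (hH : Subgroup.normalizer (P : Set G) ≤ H)
    {e : Set (Cfsg.IrrCharacter (Subgroup.centralizer (P : Set G)))}
    {c : Set (Cfsg.IrrCharacter H)} (hc : Cfsg.IsPBlock M c) (hec : Hits M P e (emb H (idem c)))
    {B : Set (Cfsg.IrrCharacter G)} (he : Cfsg.IsBrauerPairOf p M B P e)
    (hBP : Cfsg.IsDefectGroup p M B P) {g : G} (hg : g ∈ Subgroup.centralizer (P : Set G)) :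
    Cfsg.MemLocalIdeal M ((idem B).coeff g - (emb H (idem c)).coeff g) := by
  classical
  have hPH : P ≤ H := Subgroup.le_normalizer.trans hH
  have hCH : Subgroup.centralizer (P : Set G) ≤ H := (Subgroup.centralizer_le_normalizer _).trans hH
  have hB := he.2.1
  refine li_coeff_sub_of_hits hM hP (isCentral_idem B) (idem_block_mem hM hB)
    (by rw [← idem_inter, Set.inter_self]) (emb_mem hM H (idem_block_mem hM hc)) (emb_idem_sq c)
    (fun x hx => pInvariant_emb c x (hPH hx)) (fun x hx => pInvariant_emb c x (hCH hx))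
    (fun f hf => ⟨fun hh => ?_, fun hh => ?_⟩) hg
  · obtain ⟨x, hxN, hxe⟩ := conj_pairs_at_defect hM hBP he (isBrauerPairOf_iff.2 ⟨⟨hP, hf⟩, hB, hh⟩)
    have h := hits_cj x hec
    have hfix : cja x (emb H (idem c)) = emb H (idem c) := by
      refine ext_coeff fun k => ?_
      have := pInvariant_emb c x⁻¹ (H.inv_mem (hH hxN)) k
      rw [inv_inv] at this
      rw [cja_coeff]
      exact this
    rw [hfix] at h
    have h2 : ∀ (a : Cfsg.BrauerPairIdx G), a = ⟨P, f⟩ → Hits M a.1 a.2 (emb H (idem c)) →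
        Hits M P f (emb H (idem c)) := fun a ha hh => by subst ha; exact hh
    exact h2 _ hxe h
  · obtain ⟨B', hB'⟩ := exists_block_of_pair hM (P := P) ⟨hP, hf⟩
    have := induced_unique hM (link_of_pair hM hP hPH hCH hc hh hB').1
      (link_of_pair hM hP hPH hCH hc hec he).1
    subst this
    exact hB'.2.2

/-- Agreement at `P` transports hits. -/
theorem hits_congr (hM : Cfsg.IsPModular p M)
    {e : Set (Cfsg.IrrCharacter (Subgroup.centralizer (P : Set G)))} (he : Cfsg.IsPBlock M e)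
    {a c : MonoidAlgebra ℂ G} (hc : c ∈ intAlg hM G)
    (haC : PInvariant (Subgroup.centralizer (P : Set G)) a)
    (hcC : PInvariant (Subgroup.centralizer (P : Set G)) c)
    (hcong : ∀ g ∈ Subgroup.centralizer (P : Set G), Cfsg.MemLocalIdeal M (a.coeff g - c.coeff g))
    (h : Hits M P e a) : Hits M P e c := by
  classical
  haveI := Fintype.ofFinite (Subgroup.centralizer (P : Set G))
  obtain ⟨η, hη⟩ := block_nonempty hM he
  refine hits_of_mem hM he hc hcC hη ?_
  have h1 : Cfsg.MemLocalIdeal M (pval P η.1 (a - c)) :=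
    pval_li_of_coeff hM η (fun x hx g => by
      simp only [MonoidAlgebra.coeff_sub, Finsupp.sub_apply, haC x hx g, hcC x hx g])
      (fun g hg => by simpa using hcong g hg)
  rw [pval_sub] at h1
  have h2 := li_sub hM (h.pval hη) h1
  convert h2 using 1
  ring

theorem subgroupBlockCoeff_eq (c : Set (Cfsg.IrrCharacter H)) {x : G} (hx : x ∈ H) :
    Cfsg.subgroupBlockCoeff H c x = (emb H (idem c)).coeff x := by
  rw [emb_of_mem _ _ hx]
  simp only [Cfsg.subgroupBlockCoeff, dif_pos hx]
  rfl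

/-- The Brauer correspondence over `H`. -/
theorem brauer_correspondence (hM : Cfsg.IsPModular p M) (hP : IsPGroup p P)
    (hH : Subgroup.normalizer (P : Set G) ≤ H) :
    (∀ B : Set (Cfsg.IrrCharacter G), Cfsg.IsPBlock M B → Cfsg.IsDefectGroup p M B P →
      ∃! c : Set (Cfsg.IrrCharacter H), Cfsg.IsPBlock M c ∧
        Cfsg.IsDefectGroup p M c (P.subgroupOf H) ∧
        ∀ x : G, x ∈ Subgroup.centralizer (P : Set G) →
          Cfsg.MemLocalIdeal M (Cfsg.blockCoeff B x - Cfsg.subgroupBlockCoeff H c x)) ∧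
    (∀ c : Set (Cfsg.IrrCharacter H), Cfsg.IsPBlock M c →
      Cfsg.IsDefectGroup p M c (P.subgroupOf H) →
      ∃! B : Set (Cfsg.IrrCharacter G), Cfsg.IsPBlock M B ∧ Cfsg.IsDefectGroup p M B P ∧
        ∀ x : G, x ∈ Subgroup.centralizer (P : Set G) →
          Cfsg.MemLocalIdeal M (Cfsg.blockCoeff B x - Cfsg.subgroupBlockCoeff H c x)) := by
  classical
  haveI : Fact p.Prime := ⟨hM.1⟩
  haveI := Fintype.ofFinite (Subgroup.centralizer (P : Set G))
  have hPH : P ≤ H := Subgroup.le_normalizer.trans hH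
  have hCH : Subgroup.centralizer (P : Set G) ≤ H := (Subgroup.centralizer_le_normalizer _).trans hH
  refine ⟨fun B hB hBP => ?_, fun c hc hcP => ?_⟩
  · obtain ⟨w, hw, hwP⟩ := isDefectGroup_iff.1 hBP
    obtain ⟨e, he, hh⟩ := exists_pval_ne hM hP (idem_block_mem hM hB)
      (by rw [← idem_inter, Set.inter_self]) ((isCentral_idem B).pInvariant _)
      ((isCentral_idem B).pInvariant _) (mem_centralizer_iff_le.2 hwP.1)
      (show ¬ Cfsg.MemLocalIdeal M ((idem B).coeff w) from hw.2.1)
    obtain ⟨η, hη⟩ := block_nonempty hM he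
    obtain ⟨c, hc, hφ⟩ := (isModHom_trunc_emb hM hP hPH hCH η).exists_block
    obtain ⟨ξ, hξ⟩ := block_nonempty hM hc
    have hec : Hits M P e (emb H (idem c)) := by
      refine hits_of_mem hM he (emb_mem hM H (idem_block_mem hM hc))
        (fun x hx => pInvariant_emb c x (hCH hx)) hη ?_
      have h := hφ ξ hξ (idem c) (isCentral_idem c) (idem_block_mem hM hc)
      rw [omega_idem, if_pos hξ] at h
      exact h
    have heB : Cfsg.IsBrauerPairOf p M B P e := isBrauerPairOf_iff.2 ⟨⟨hP, he⟩, hB, hh⟩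
    refine ⟨c, ⟨hc, (defect_iff_of_link hM hP hH hc hec heB).1 hBP, fun x hx => ?_⟩, ?_⟩
    · rw [subgroupBlockCoeff_eq c (hCH hx)]
      exact congr_of_link hM hP hH hc hec heB hBP hx
    · rintro c' ⟨hc', -, hcong⟩
      refine eq_of_hits_common hM hP hPH hCH hc' hc he (hits_congr hM he
        (emb_mem hM H (idem_block_mem hM hc')) ((isCentral_idem B).pInvariant _)
        (fun x hx => pInvariant_emb c' x (hCH hx)) (fun x hx => ?_) hh) hec
      rw [← subgroupBlockCoeff_eq c' (hCH hx)]
      exact hcong x hx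
  · obtain ⟨u, hu, huP⟩ := isDefectGroup_iff.1 hcP
    obtain ⟨m1, -, -⟩ := maxP_subgroupOf hPH huP
    obtain ⟨e, he, hec⟩ := exists_pval_ne hM hP (emb_mem hM H (idem_block_mem hM hc)) (emb_idem_sq c)
      (fun x hx => pInvariant_emb c x (hPH hx)) (fun x hx => pInvariant_emb c x (hCH hx))
      (mem_centralizer_iff_le.2 m1) (by rw [emb_coe]; exact hu.2.1)
    obtain ⟨B, heB⟩ := exists_block_of_pair hM (P := P) ⟨hP, he⟩
    have hBP := (defect_iff_of_link hM hP hH hc hec heB).2 hcP
    refine ⟨B, ⟨heB.2.1, hBP, fun x hx => ?_⟩, ?_⟩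
    · rw [subgroupBlockCoeff_eq c (hCH hx)]
      exact congr_of_link hM hP hH hc hec heB hBP hx
    · rintro B' ⟨hB', -, hcong⟩
      refine block_of_pair_eq hM (isBrauerPairOf_iff.2 ⟨⟨hP, he⟩, hB', hits_congr hM he
        (idem_block_mem hM hB') (fun x hx => pInvariant_emb c x (hCH hx))
        ((isCentral_idem B').pInvariant _) (fun x hx => ?_) hec⟩) heB
      rw [← neg_sub, ← subgroupBlockCoeff_eq c (hCH hx)]
      exact li_neg (hcong x hx)

end Cfsg.Agent.Blocks
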