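import Cfsg.Agent.Blocks.AbelianDefect
import Cfsg.Agent.Blocks.Correspondence
import Cfsg.Agent.Blocks.DefectNumber
import Cfsg.Agent.Blocks.SectionApp
import Cfsg.Agent.S4663

/-!
# Defects of non-principal blocks of centralizers
-/

namespace Cfsg.Agent.Blocks

universe u

variable {p : ℕ} {M : Ideal Cfsg.AlgInt} {G : Type u} [Group G] [Fintype G]

theorem exists_maximal_of_block (hM : Cfsg.IsPModular p M) {B : Set (Cfsg.IrrCharacter G)}
    (hB : Cfsg.IsPBlock M B) :
    ∃ (P : Subgroup G) (e : Set (Cfsg.IrrCharacter (Subgroup.centralizer (P : Set G)))),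
      Cfsg.IsMaximalBrauerPair p M B P e := by
  classical
  obtain ⟨D, hD⟩ := exists_defectGroup hM hB
  obtain ⟨w, hw, hwD⟩ := isDefectGroup_iff.1 hD
  haveI := Fintype.ofFinite (Subgroup.normalizer (D : Set G))
  have hDp : IsPGroup p D := hwD.2.1
  obtain ⟨b, hb⟩ := exists_inducing hM hDp Subgroup.le_normalizer (Subgroup.centralizer_le_normalizer _)
    le_rfl hB hw.2.1 (Subgroup.mem_centralizer_iff.2 fun q hq =>
      (Subgroup.mem_centralizer_singleton_iff.1 (hwD.1 hq)))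
  obtain ⟨e, he, -⟩ := exists_pair_under hM hDp Subgroup.le_normalizer
    (Subgroup.centralizer_le_normalizer _) le_rfl hb
  exact ⟨D, e, isMaximal_of_defect hM hD he⟩

theorem exists_block_over (hM : Cfsg.IsPModular p M) {Q : Subgroup G} (hQ : IsPGroup p Q)
    {K : Subgroup G} (hK : K = Subgroup.centralizer (Q : Set G)) {b : Set (Cfsg.IrrCharacter K)}
    (hb : Cfsg.IsPBlock M b) (hnp : b ≠ Cfsg.principalBlock M K) :
    ∃ B : Set (Cfsg.IrrCharacter G), Cfsg.IsPBlock M B ∧ B ≠ Cfsg.principalBlock M G ∧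
      Cfsg.blockDefect p b ≤ Cfsg.blockDefect p B := by
  subst hK
  classical
  haveI : Fact p.Prime := ⟨hM.1⟩
  haveI := Fintype.ofFinite (Subgroup.centralizer (Q : Set G))
  obtain ⟨B, hB⟩ := exists_block_of_pair hM (show Cfsg.IsBrauerPair p M Q b from ⟨hQ, hb⟩)
  refine ⟨B, hB.2.1, fun h => hnp ((Cfsg.Agent.S4663.result p M hM Q hQ b hb).1 (h ▸ hB)), ?_⟩
  obtain ⟨P, e, hmax, hle⟩ := exists_maximal hM hB
  obtain ⟨D, hD⟩ := exists_defectGroup hM hb
  obtain ⟨x, -, hDx⟩ := exists_conj_of_defect hM le_rfl (Subgroup.centralizer_le_normalizer _)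
    (fun c hc => cja_of_pInvariant (pe_pInvariant_centralizer Q b) hc) hb rfl hmax hle hD
  obtain ⟨-, -, -, -, -, hPD⟩ := maximal_defect hM hmax
  have h := Subgroup.card_le_of_le (hDx.trans inf_le_left)
  rw [card_cj, ← Nat.card_congr (D.equivMapOfInjective _ (Subgroup.subtype_injective _)).toEquiv,
    card_defectGroup hM hb hD, card_defectGroup hM hB.2.1 hPD] at h
  exact (Nat.pow_le_pow_iff_right hM.1.one_lt).1 h

theorem exists_local_over (hM : Cfsg.IsPModular p M) {B : Set (Cfsg.IrrCharacter G)}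
    (hB : Cfsg.IsPBlock M B) (hnp : B ≠ Cfsg.principalBlock M G) (h0 : 0 < Cfsg.blockDefect p B) :
    ∃ z : G, orderOf z = p ∧ ∀ K : Subgroup G,
      K = Subgroup.centralizer ((Subgroup.zpowers z : Subgroup G) : Set G) →
        ∃ b : Set (Cfsg.IrrCharacter K), Cfsg.IsPBlock M b ∧ b ≠ Cfsg.principalBlock M K ∧
          Cfsg.blockDefect p B ≤ Cfsg.blockDefect p b := by
  classical
  haveI : Fact p.Prime := ⟨hM.1⟩
  obtain ⟨P, e, hmax⟩ := exists_maximal_of_block hM hB
  obtain ⟨-, -, -, -, -, hPD⟩ := maximal_defect hM hmax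
  have hP := hmax.1.1.1
  haveI : Nontrivial P := by
    rw [← Finite.one_lt_card_iff_nontrivial, card_defectGroup hM hB hPD]
    exact Nat.one_lt_pow h0.ne' hM.1.one_lt
  haveI := hP.center_nontrivial
  obtain ⟨n, hn, hcard⟩ := (hP.to_subgroup (Subgroup.center P)).nontrivial_iff_card.1 inferInstance
  obtain ⟨c, hc⟩ := exists_prime_orderOf_dvd_card' (G := Subgroup.center P) p
    (hcard ▸ dvd_pow_self p hn.ne')
  refine ⟨((c : P) : G), by rw [Subgroup.orderOf_coe, Subgroup.orderOf_coe, hc], ?_⟩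
  rintro K rfl
  set Q : Subgroup G := Subgroup.zpowers ((c : P) : G) with hQ
  haveI := Fintype.ofFinite (Subgroup.centralizer (Q : Set G))
  have hQP : Q ≤ P := Subgroup.zpowers_le.2 (c : P).2
  obtain ⟨f, hf⟩ := exists_below hM hmax.1.1 hQP
  have hQf := isBrauerPair_of_le hM hmax.1.1 hf
  have hPC : P ≤ Subgroup.centralizer (Q : Set G) := fun a ha => by
    rw [hQ, centralizer_zpowers, Subgroup.mem_centralizer_singleton_iff]
    exact congrArg Subtype.val (Subgroup.mem_center_iff.1 c.2 ⟨a, ha⟩)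
  obtain ⟨g, hg, -⟩ := exists_above hM hmax.1.1 hf
  obtain ⟨D, hD, hle⟩ := exists_le_defect hM le_rfl hQf.2 (rfl : emb _ (idem f) = pe Q f) hg
  refine ⟨f, hQf.2, fun h => hnp ?_, ?_⟩
  · exact block_of_pair_eq hM ((isBrauerPairOf_chain hM (a := ⟨Q, f⟩) (b := ⟨P, e⟩) hf B).1 hmax.1)
      ((Cfsg.Agent.S4663.result p M hM Q hQf.1 f hQf.2).2 h)
  · have h := Subgroup.card_le_of_le (((fun u hu => hle ⟨⟨hu, Subgroup.centralizer_le_normalizer _ (hPC hu)⟩, u.2⟩) :
      P.subgroupOf (Subgroup.centralizer (Q : Set G)) ≤ D))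
    rw [Nat.card_congr (Subgroup.subgroupOfEquivOfLe hPC).toEquiv, card_defectGroup hM hQf.2 hD,
      card_defectGroup hM hB hPD] at h
    exact (Nat.pow_le_pow_iff_right hM.1.one_lt).1 h

end Cfsg.Agent.Blocks
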