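import Cfsg.Agent.Blocks.PairTheory
import Cfsg.Agent.Blocks.BlockInd

/-!
# The extended first main theorem
-/

namespace Cfsg.Agent.Blocks

universe u

variable {p : ℕ} {M : Ideal Cfsg.AlgInt} {G : Type u} [Group G] [Finite G]

/-- The defect of a block inducing from a subgroup of the normalizer of the defect group. -/
theorem defect_of_inducing (hM : Cfsg.IsPModular p M) [Fintype G] {B : Set (Cfsg.IrrCharacter G)}
    {P L : Subgroup G} [Fintype L] (hP : IsPGroup p P) (hPL : P ≤ L)
    (hLN : L ≤ Subgroup.normalizer (P : Set G)) (hBP : Cfsg.IsDefectGroup p M B P)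
    {b : Set (Cfsg.IrrCharacter L)} (hind : Cfsg.IsInducedBlock M L b B) :
    Cfsg.IsDefectGroup p M b (P.subgroupOf L) := by
  obtain ⟨D, hD⟩ := exists_defectGroup hM hind.1
  obtain ⟨E, hE, hDE⟩ := exists_defect_ge hM hind hD
  haveI := subgroupOf_normal_of_le_normalizer hLN
  have hPD : P.subgroupOf L ≤ D :=
    normal_le_defect hM hind.1 hD (hP.comap_of_injective L.subtype (Subgroup.subtype_injective _))
  obtain ⟨x, hx⟩ := defectGroup_conj hM hind.2.1 hBP hE
  have h1 : Nat.card D ≤ Nat.card (P.subgroupOf L) := by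
    rw [Nat.card_congr (Subgroup.subgroupOfEquivOfLe hPL).toEquiv,
      ← card_cj x P, hx, Nat.card_congr (D.equivMapOfInjective L.subtype
        (Subgroup.subtype_injective L)).toEquiv]
    exact Subgroup.card_le_of_le hDE
  rwa [Subgroup.eq_of_le_of_card_ge hPD h1]

/-- Pairs at a defect group are maximal. -/
theorem isMaximal_of_defect (hM : Cfsg.IsPModular p M) {B : Set (Cfsg.IrrCharacter G)}
    {P : Subgroup G} (hBP : Cfsg.IsDefectGroup p M B P)
    {e : Set (Cfsg.IrrCharacter (Subgroup.centralizer (P : Set G)))}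
    (he : Cfsg.IsBrauerPairOf p M B P e) : Cfsg.IsMaximalBrauerPair p M B P e := by
  obtain ⟨P1, e1, hmax1, hc⟩ := exists_maximal hM he
  obtain ⟨-, -, -, -, -, hBD1⟩ := maximal_defect hM hmax1
  obtain ⟨x, hx⟩ := defectGroup_conj hM he.2.1 hBD1 hBP
  have hPP : P = P1 := Subgroup.eq_of_le_of_card_ge (le_of_chain hM hc) (by
    rw [← hx, card_cj])
  refine ⟨he, fun R g hR hRle => ?_⟩
  obtain ⟨P2, e2, hmax2, hc2⟩ := exists_maximal hM hR
  obtain ⟨-, -, -, -, -, hBD2⟩ := maximal_defect hM hmax2
  obtain ⟨y, hy⟩ := defectGroup_conj hM he.2.1 hBD2 hBP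
  refine (Subgroup.eq_of_le_of_card_ge (le_of_chain hM hRle) ?_).symm
  show Nat.card R ≤ Nat.card P
  calc Nat.card R ≤ Nat.card P2 := Subgroup.card_le_of_le (le_of_chain hM hc2)
    _ = Nat.card P := by rw [← hy, card_cj]

/-- If a product hits, so do both factors. -/
theorem li_mul_hits (hM : Cfsg.IsPModular p M) {P : Subgroup G}
    [Fintype (Subgroup.centralizer (P : Set G))] (hP : IsPGroup p P)
    (η : Cfsg.IrrCharacter (Subgroup.centralizer (P : Set G))) {a c : MonoidAlgebra ℂ G}
    (ha : a ∈ intAlg hM G) (hc : c ∈ intAlg hM G) (hac : IsCentral a) (hcP : PInvariant P c)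
    (hcC : PInvariant (Subgroup.centralizer (P : Set G)) c)
    (h : Cfsg.MemLocalIdeal M (pval P η.1 (a * c) - 1)) (ha2 : a * a = a) (hc2 : c * c = c) :
    Cfsg.MemLocalIdeal M (pval P η.1 a - 1) ∧ Cfsg.MemLocalIdeal M (pval P η.1 c - 1) := by
  have haP := hac.pInvariant P
  have haC := hac.pInvariant (Subgroup.centralizer (P : Set G))
  have h1 := pval_mul hM hP η ha hc haP haC hcP hcC (pInvariant_mul haC hcC)
  refine ⟨(pval_idem hM hP η ha ha2 haP haC).resolve_left fun h0 => ?_,
    (pval_idem hM hP η hc hc2 hcP hcC).resolve_left fun h0 => ?_⟩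
  all_goals
    have h2 : Cfsg.MemLocalIdeal M (pval P η.1 a * pval P η.1 c) := by
      first
        | exact li_mul hM h0 (pval_lr hM η hc hcC)
        | exact li_mul_left hM (pval_lr hM η ha haC) h0
    have h3 := li_sub hM (li_add hM h1 h2) h
    rw [sub_add_cancel, sub_sub_cancel] at h3
    exact not_li_one hM h3

/-- A block inducing `B` lies over a pair of `B`. -/
theorem exists_pair_under (hM : Cfsg.IsPModular p M) [Fintype G] {B : Set (Cfsg.IrrCharacter G)}
    {P L : Subgroup G} [Fintype L] (hP : IsPGroup p P) (hPL : P ≤ L)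
    (hCL : Subgroup.centralizer (P : Set G) ≤ L) (hLN : L ≤ Subgroup.normalizer (P : Set G))
    {b : Set (Cfsg.IrrCharacter L)} (hind : Cfsg.IsInducedBlock M L b B) :
    ∃ e : Set (Cfsg.IrrCharacter (Subgroup.centralizer (P : Set G))),
      Cfsg.IsBrauerPairOf p M B P e ∧ Hits M P e (emb L (idem b)) := by
  classical
  haveI := Fintype.ofFinite (Subgroup.centralizer (P : Set G))
  have hT : idem B ∈ intAlg hM G := idem_block_mem hM hind.2.1
  have hA : emb L (idem b) ∈ intAlg hM G := emb_mem hM L (idem_block_mem hM hind.1)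
  have hA2 : emb L (idem b) * emb L (idem b) = emb L (idem b) := by
    rw [← emb_mul, ← idem_inter, Set.inter_self]
  have hAL : PInvariant L (emb L (idem b)) := fun x hx g =>
    emb_conj_invariant (isCentral_idem b) hx g
  have hAP : PInvariant P (emb L (idem b)) := fun x hx => hAL x (hPL hx)
  have hAC : PInvariant (Subgroup.centralizer (P : Set G)) (emb L (idem b)) :=
    fun x hx => hAL x (hCL hx)
  have hT2 : idem B * idem B = idem B := by rw [← idem_inter, Set.inter_self]
  have hTA : idem B * emb L (idem b) ∈ intAlg hM G := mul_mem hT hA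
  have hTA2 : idem B * emb L (idem b) * (idem B * emb L (idem b)) = idem B * emb L (idem b) := by
    have hc := (isCentral_idem B).comm (emb L (idem b))
    rw [mul_assoc, ← mul_assoc (emb L (idem b)), ← hc, mul_assoc, hA2, ← mul_assoc, hT2]
  have hTP : PInvariant P (idem B * emb L (idem b)) :=
    pInvariant_mul ((isCentral_idem B).pInvariant P) hAP
  have hTC : PInvariant (Subgroup.centralizer (P : Set G)) (idem B * emb L (idem b)) :=
    pInvariant_mul ((isCentral_idem B).pInvariant _) hAC
  obtain ⟨g, hg, hgne⟩ : ∃ g ∈ Subgroup.centralizer (P : Set G),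
      ¬ Cfsg.MemLocalIdeal M ((idem B * emb L (idem b)).coeff g) := by
    by_contra hcon
    push Not at hcon
    obtain ⟨ξ, hξ⟩ := block_nonempty hM hind.1
    obtain ⟨χ, hχ⟩ := block_nonempty hM hind.2.1
    haveI := subgroupOf_normal_of_le_normalizer hLN
    have hconjC := centralizer_conj_of_le_normalizer hLN
    have hc1 : IsCentral (trunc L (Subgroup.centralizer (P : Set G) : Set G) (idem B)) :=
      isCentral_trunc hconjC (isCentral_idem B)
    have hcent : ∀ a : MonoidAlgebra ℂ G, PInvariant L a →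
        IsCentral (trunc L (Subgroup.centralizer (P : Set G) : Set G) a) := by
      intro a ha h y
      simp only [trunc_coeff, Subgroup.coe_mul, Subgroup.coe_inv, SetLike.mem_coe]
      have hiff : (y : G) * h * (y : G)⁻¹ ∈ Subgroup.centralizer (P : Set G) ↔
          (h : G) ∈ Subgroup.centralizer (P : Set G) := by
        refine ⟨fun h' => ?_, hconjC y y.2 h⟩
        have := hconjC _ (L.inv_mem y.2) _ h'
        simpa [mul_assoc] using this
      simp only [hiff, ha y y.2 h]
    have h1 : Cfsg.MemLocalIdeal M (omega ξ.1 (trunc L (Subgroup.centralizer (P : Set G) : Set G)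
        (idem B)) - 1) := by
      have a1 := li_trunc_univ_sub hM hP hPL hLN ξ (isCentral_idem B) hT
      have a2 := li_trunc_sub_omega hM hind hξ hχ (isCentral_idem B) hT
      rw [omega_idem, if_pos hχ] at a2
      have := li_sub hM a2 a1
      simpa using this
    have h2 : Cfsg.MemLocalIdeal M (omega ξ.1 (idem b)
        - omega ξ.1 (trunc L (Subgroup.centralizer (P : Set G) : Set G) (emb L (idem b)))) := by
      rw [← omega_sub]
      refine li_omega_of_vanish hM (P := P.subgroupOf L)
        (hP.comap_of_injective L.subtype (Subgroup.subtype_injective _)) ξ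
        ((isCentral_idem b).sub (hcent _ hAL))
        (sub_mem (idem_block_mem hM hind.1) (trunc_mem hM L _ hA)) fun c hc => ?_
      have hcc : (c : G) ∈ Subgroup.centralizer (P : Set G) := Subgroup.mem_centralizer_iff.2
        fun q hq => congrArg Subtype.val (Subgroup.mem_centralizer_iff.1 hc ⟨q, hPL hq⟩ hq)
      rw [MonoidAlgebra.coeff_sub, Finsupp.sub_apply, trunc_coeff, if_pos (SetLike.mem_coe.2 hcc),
        emb_coe, sub_self]
      exact li_zero hM
    rw [omega_idem, if_pos hξ] at h2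
    have h3 := trunc_mul hM hP hCL hT hA ((isCentral_idem B).pInvariant P) hAP
    have h4 : Cfsg.MemLocalIdeal M (omega ξ.1
        (trunc L (Subgroup.centralizer (P : Set G) : Set G) (idem B * emb L (idem b)))) := by
      refine li_omega hM ξ (hcent _ (pInvariant_mul ((isCentral_idem B).pInvariant L) hAL))
        fun c => ?_
      rw [trunc_coeff]
      split_ifs with hc
      · exact hcon _ hc
      · exact li_zero hM
    have h5 : Cfsg.MemLocalIdeal M (omega ξ.1
        (trunc L (Subgroup.centralizer (P : Set G) : Set G) (idem B * emb L (idem b))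
          - trunc L (Subgroup.centralizer (P : Set G) : Set G) (idem B)
            * trunc L (Subgroup.centralizer (P : Set G) : Set G) (emb L (idem b)))) := by
      refine li_omega hM ξ ((hcent _ (pInvariant_mul ((isCentral_idem B).pInvariant L) hAL)).sub
        (hc1.mul (hcent _ hAL))) fun c => ?_
      rw [MonoidAlgebra.coeff_sub, Finsupp.sub_apply]
      exact h3 c
    rw [omega_sub, omega_mul ξ hc1] at h5
    have h6 := li_sub hM h4 h5
    rw [sub_sub_cancel] at h6
    rcases li_or_li_of_mul hM (omega_lr hM ξ hc1 (trunc_mem hM L _ hT))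
      (omega_lr hM ξ (hcent _ hAL) (trunc_mem hM L _ hA)) h6 with h7 | h7
    · have := li_sub hM h7 h1
      rw [sub_sub_cancel] at this
      exact not_li_one hM this
    · have := li_add hM h2 h7
      rw [sub_add_cancel] at this
      exact not_li_one hM this
  obtain ⟨e, he, hhe⟩ := exists_pval_ne hM hP hTA hTA2 hTP hTC hg hgne
  obtain ⟨η, hη⟩ := block_nonempty hM he
  have hm := li_mul_hits hM hP η hT hA (isCentral_idem B) hAP hAC (hhe.pval hη)
    hT2 hA2
  exact ⟨e, isBrauerPairOf_iff.2 ⟨⟨hP, he⟩, hind.2.1,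
    hits_of_mem hM he hT ((isCentral_idem B).pInvariant _) hη hm.1⟩,
    hits_of_mem hM he hA hAC hη hm.2⟩

/-- Two blocks of a subgroup over one pair agree. -/
theorem eq_of_hits_common (hM : Cfsg.IsPModular p M) {P L : Subgroup G} (hP : IsPGroup p P)
    (hPL : P ≤ L) (hCL : Subgroup.centralizer (P : Set G) ≤ L)
    {b b' : Set (Cfsg.IrrCharacter L)} (hb : Cfsg.IsPBlock M b) (hb' : Cfsg.IsPBlock M b')
    {e : Set (Cfsg.IrrCharacter (Subgroup.centralizer (P : Set G)))} (he : Cfsg.IsPBlock M e)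
    (h : Hits M P e (emb L (idem b))) (h' : Hits M P e (emb L (idem b'))) : b = b' := by
  classical
  haveI := Fintype.ofFinite G
  haveI := Fintype.ofFinite L
  haveI := Fintype.ofFinite (Subgroup.centralizer (P : Set G))
  by_contra hne
  obtain ⟨η, hη⟩ := block_nonempty hM he
  have hA : ∀ c : Set (Cfsg.IrrCharacter L), PInvariant L (emb L (idem c)) := fun c x hx g =>
    emb_conj_invariant (isCentral_idem c) hx g
  have h1 := pval_mul hM hP η (emb_mem hM L (idem_block_mem hM hb))
    (emb_mem hM L (idem_block_mem hM hb')) (fun x hx => hA b x (hPL hx)) (fun x hx => hA b x (hCL hx))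
    (fun x hx => hA b' x (hPL hx)) (fun x hx => hA b' x (hCL hx))
    (pInvariant_mul (fun x hx => hA b x (hCL hx)) (fun x hx => hA b' x (hCL hx)))
  have hz : emb L (idem b) * emb L (idem b') = 0 := by
    rw [← emb_mul, ← idem_inter, (disjoint_blocks hM hb hb' hne).inter_eq]
    refine ext_coeff fun g => ?_
    by_cases hg : g ∈ L
    · rw [emb_of_mem _ _ hg]; simp [idem, Cfsg.blockCoeff]
    · rw [emb_of_not_mem _ _ hg]; simp
  rw [hz, pval_zero, zero_sub] at h1
  have h2 := li_neg h1
  rw [neg_neg] at h2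
  have hA' := fun c (hc : Cfsg.IsPBlock M c) => pval_lr hM η (emb_mem hM L (idem_block_mem hM hc))
    (fun x hx => hA c x (hCL hx))
  rcases li_or_li_of_mul hM (hA' b hb) (hA' b' hb') h2 with h3 | h3
  · have := li_sub hM h3 (h.pval hη); rw [sub_sub_cancel] at this; exact not_li_one hM this
  · have := li_sub hM h3 (h'.pval hη); rw [sub_sub_cancel] at this; exact not_li_one hM this

/-- Conjugation of the blocks inducing `B`. -/
theorem exists_conj_of_inducing (hM : Cfsg.IsPModular p M) [Fintype G] {B : Set (Cfsg.IrrCharacter G)}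
    {P : Subgroup G} (hP : IsPGroup p P) (hBP : Cfsg.IsDefectGroup p M B P)
    {L : Subgroup G} [Fintype L] (hPL : P ≤ L)
    (hCL : Subgroup.centralizer (P : Set G) ≤ L) (hLN : L ≤ Subgroup.normalizer (P : Set G))
    (hLn : ∀ n ∈ Subgroup.normalizer (P : Set G), ∀ x ∈ L, n * x * n⁻¹ ∈ L)
    {b b' : Set (Cfsg.IrrCharacter L)} (hb : Cfsg.IsInducedBlock M L b B)
    (hb' : Cfsg.IsInducedBlock M L b' B) :
    ∃ n ∈ Subgroup.normalizer (P : Set G), ∀ θ ∈ b, ∃ θ' ∈ b', ∀ x : L, ∀ hx : n * (x : G) * n⁻¹ ∈ L,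
      θ'.1 x = θ.1 ⟨n * (x : G) * n⁻¹, hx⟩ := by
  classical
  obtain ⟨e, he, hhe⟩ := exists_pair_under hM hP hPL hCL hLN hb
  obtain ⟨e', he', hhe'⟩ := exists_pair_under hM hP hPL hCL hLN hb'
  obtain ⟨x, hx⟩ := exists_conj_le_maximal hM (isMaximal_of_defect hM hBP he') he
  have hxP : cj x P = P := Subgroup.eq_of_le_of_card_ge (le_of_chain hM hx) (by rw [card_cj])
  have hxN : x ∈ Subgroup.normalizer (P : Set G) := by
    refine Subgroup.mem_normalizer_iff.2 fun g => ⟨fun hg => ?_, fun hg => ?_⟩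
    · exact hxP ▸ mem_cj.2 (by simpa [mul_assoc] using hg)
    · have : x * g * x⁻¹ ∈ cj x P := hxP.symm ▸ hg
      simpa [mul_assoc] using mem_cj.1 this
  have hxi := (Subgroup.normalizer (P : Set G)).inv_mem hxN
  obtain ⟨e2, he2, hpe2, -⟩ := exists_conj_block hxN he.1.2
  have hcp : (⟨cj x P, imgSet (cjC x P) e⟩ : Cfsg.BrauerPairIdx G) = ⟨P, e2⟩ :=
    idx_eq hxP (by
      show pe (cj x P) _ = pe P e2
      rw [pe_imgSet, hpe2])
  have hee : e2 = e' := by
    have h1 : Cfsg.SubpairLE p M P e2 P e' := by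
      unfold Cfsg.SubpairLE at hx ⊢
      exact hcp ▸ hx
    exact (existsUnique_below hM he'.1 le_rfl).unique ⟨he2, h1⟩
      ⟨he'.1.2, Relation.ReflTransGen.refl⟩
  let φ : L ≃* L :=
    ⟨⟨fun c => ⟨x⁻¹ * (c : G) * x, by simpa using hLn _ hxi c c.2⟩,
      fun c => ⟨x * (c : G) * x⁻¹, hLn _ hxN c c.2⟩,
      fun c => Subtype.ext (by simp [mul_assoc]), fun c => Subtype.ext (by simp [mul_assoc])⟩,
      fun a c => Subtype.ext (by simp [mul_assoc])⟩
  have hpb : emb L (idem (imgSet φ b)) = cja x (emb L (idem b)) := by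
    refine ext_coeff fun g => ?_
    rw [cja_coeff]
    by_cases hg : g ∈ L
    · have hg' : x⁻¹ * g * x ∈ L := by simpa using hLn _ hxi g hg
      rw [emb_of_mem _ _ hg, emb_of_mem _ _ hg']
      show Cfsg.blockCoeff _ _ = Cfsg.blockCoeff _ _
      rw [blockCoeff_imgSet]
      rfl
    · rw [emb_of_not_mem _ _ hg, emb_of_not_mem _ _]
      intro h
      exact hg (by simpa [mul_assoc] using hLn _ hxN _ h)
  have hb2 : imgSet φ b = b' := by
    refine eq_of_hits_common hM hP hPL hCL (isPBlock_imgSet φ hb.1) hb'.1 he'.1.2 ?_ hhe'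
    rw [hpb, ← hee]
    have h := hits_cj x hhe
    have h2 : ∀ (a : Cfsg.BrauerPairIdx G), a = ⟨P, e2⟩ → Hits M a.1 a.2 (cja x (emb L (idem b))) →
        Hits M P e2 (cja x (emb L (idem b))) := fun a ha hh => by subst ha; exact hh
    exact h2 _ hcp h
  refine ⟨x⁻¹, hxi, fun θ hθ => ⟨imgIrr φ θ, ?_, fun c hc => ?_⟩⟩
  · rw [← hb2]; exact ⟨θ, hθ, rfl⟩
  · rw [imgIrr_apply]
    refine congrArg θ.1 (Subtype.ext ?_)
    show x⁻¹ * (c : G) * x = x⁻¹ * (c : G) * x⁻¹⁻¹
    rw [inv_inv]

end Cfsg.Agent.Blocks
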