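import Cfsg.Agent.Blocks.AbelianDefect
import Mathlib.RingTheory.ZMod.UnitsCyclic
import Mathlib.NumberTheory.Basic

/-!
# Inertial quotients of blocks with abelian defect groups
-/

namespace Cfsg.Agent.Blocks

universe u

variable {p : ℕ} {M : Ideal Cfsg.AlgInt} {G : Type u} [Group G] [Fintype G]
  {B : Set (Cfsg.IrrCharacter G)} {P : Subgroup G}

theorem maximal_of_inducing (hM : Cfsg.IsPModular p M) (hPD : Cfsg.IsDefectGroup p M B P)
    (hab : ∀ x ∈ P, ∀ y ∈ P, x * y = y * x)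
    {c : Set (Cfsg.IrrCharacter (Subgroup.centralizer (P : Set G)))}
    (hc : Cfsg.IsInducedBlock M (Subgroup.centralizer (P : Set G)) c B) :
    Cfsg.IsMaximalBrauerPair p M B P c := by
  classical
  haveI := Fintype.ofFinite (Subgroup.centralizer (P : Set G))
  obtain ⟨w, hw, hwD⟩ := isDefectGroup_iff.1 hPD
  have hPC : P ≤ Subgroup.centralizer (P : Set G) := fun a ha =>
    Subgroup.mem_centralizer_iff.2 fun q hq => hab q hq a ha
  obtain ⟨e, he, hhe⟩ := exists_pair_under hM hwD.2.1 hPC le_rfl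
    (Subgroup.centralizer_le_normalizer _) hc
  obtain ⟨η, hη⟩ := block_nonempty hM he.1.2
  have h1 := hhe.pval hη
  rw [pval, trunc_emb_self, omega_idem] at h1
  by_cases hm : η ∈ c
  · have : e = c := by
      by_contra hne
      exact Set.disjoint_left.1 (disjoint_blocks hM he.1.2 hc.1 hne) hη hm
    subst this
    exact isMaximal_of_defect hM hPD he
  · rw [if_neg hm, zero_sub] at h1
    have := li_neg h1
    rw [neg_neg] at this
    exact absurd this (not_li_one hM)

variable {e : Set (Cfsg.IrrCharacter (Subgroup.centralizer (P : Set G)))}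

theorem inertial_index_not_dvd (hM : Cfsg.IsPModular p M) (hmax : Cfsg.IsMaximalBrauerPair p M B P e)
    (hab : ∀ x ∈ P, ∀ y ∈ P, x * y = y * x) :
    ¬ p ∣ ((Subgroup.centralizer (P : Set G)).subgroupOf (stab P e)).index := by
  classical
  have hPe := hmax.1.1
  obtain ⟨hCT, hQT, hTN, hTf, -⟩ := stabilizer_local hM hPe.2 (mem_stab hM hPe.2)
  haveI := Fintype.ofFinite (stab P e)
  obtain ⟨F, hF, hFe⟩ := exists_local_block hM hPe hCT hQT hTN hTf
  have hle : Cfsg.SubpairLE p M P e P e := Relation.ReflTransGen.refl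
  have hD := (isDefectGroup_iff_max hM hCT hTN hTf hF hFe hmax hle).2 fun z _ => by
    rw [inf_eq_left.2 hQT, ← card_cj z⁻¹ P]
    exact Subgroup.card_le_of_le inf_le_left
  have hidx := not_dvd_index_local hM hPe hCT hQT hTN hTf hF hFe hD
  have hPC : P ≤ Subgroup.centralizer (P : Set G) := fun a ha =>
    Subgroup.mem_centralizer_iff.2 fun q hq => hab q hq a ha
  have hDC : (P ⊓ stab P e).subgroupOf (stab P e) ≤
      (Subgroup.centralizer (P : Set G)).subgroupOf (stab P e) := fun u hu => hPC hu.1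
  rwa [sup_eq_right.2 hDC] at hidx

theorem cyclic_inertial (hM : Cfsg.IsPModular p M) (hmax : Cfsg.IsMaximalBrauerPair p M B P e)
    (hcyc : IsCyclic P) (hP1 : P ≠ ⊥) (T : Subgroup G) (hT : T = stab P e)
    [hn : ((Subgroup.centralizer (P : Set G)).subgroupOf T).Normal] :
    IsCyclic (T ⧸ (Subgroup.centralizer (P : Set G)).subgroupOf T) ∧
      (Subgroup.centralizer (P : Set G)).relIndex T ∣ p - 1 ∧
      ∀ g ∈ T, ∀ x ∈ P, x ≠ 1 → g * x * g⁻¹ = x → g ∈ Subgroup.centralizer (P : Set G) := by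
  classical
  subst hT
  haveI : Fact p.Prime := ⟨hM.1⟩
  haveI := hcyc
  have hab : ∀ x ∈ P, ∀ y ∈ P, x * y = y * x := fun x hx y hy =>
    congrArg Subtype.val (IsCyclic.isMulCommutative.is_comm.comm (⟨x, hx⟩ : P) ⟨y, hy⟩)
  have hidx := inertial_index_not_dvd hM hmax hab
  let θ : stab P e →* MulAut P :=
    P.normalizerMonoidHom.comp (Subgroup.inclusion (fun t ht => ht.1))
  have hθ : ∀ (t : stab P e) (u : P), ((θ t u : P) : G) = (t : G) * (u : G) * (t : G)⁻¹ := fun _ _ => rfl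
  have hker : θ.ker = (Subgroup.centralizer (P : Set G)).subgroupOf (stab P e) := by
    ext t
    rw [MonoidHom.mem_ker]
    constructor
    · intro h
      refine Subgroup.mem_centralizer_iff.2 fun q hq => ?_
      have h1 := hθ t ⟨q, hq⟩
      rw [h] at h1
      exact eq_mul_inv_iff_mul_eq.1 h1
    · intro h
      refine MulEquiv.ext fun u => Subtype.ext ?_
      have h1 : (u : G) * (t : G) = (t : G) * (u : G) := Subgroup.mem_centralizer_iff.1 h (u : G) u.2
      rw [hθ, ← h1, mul_inv_cancel_right]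
      rfl
  rw [← hker, Subgroup.index_ker] at hidx
  obtain ⟨n, hn'⟩ := IsPGroup.iff_card.1 hmax.1.1.1
  have hn0 : 0 < n := by
    rcases Nat.eq_zero_or_pos n with h | h
    · exact absurd (Subgroup.card_eq_one.1 (by rw [hn', h, pow_zero])) hP1
    · exact h
  have hdvd : Nat.card θ.range ∣ Nat.card (MulAut P) := Subgroup.card_subgroup_dvd_card _
  rw [IsCyclic.card_mulAut, hn', Nat.totient_prime_pow hM.1 hn0] at hdvd
  have hdvd1 : Nat.card θ.range ∣ p - 1 :=
    (Nat.Coprime.dvd_mul_left (Nat.Coprime.pow_right (n - 1) (hM.1.coprime_iff_not_dvd.2 hidx).symm)).1 hdvd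
  have hcycR : IsCyclic θ.range := by
    rcases eq_or_ne p 2 with hp2 | hp2
    · subst hp2
      have h1 : Nat.card θ.range = 1 := Nat.dvd_one.1 hdvd1
      haveI : Subsingleton θ.range := (Nat.card_eq_one_iff_unique.1 h1).1
      infer_instance
    · haveI := ZMod.isCyclic_units_of_prime_pow p hM.1 hp2 n
      let f : θ.range →* (ZMod (p ^ n))ˣ :=
        ((hn' ▸ IsCyclic.mulAutMulEquiv P : MulAut P ≃* (ZMod (p ^ n))ˣ)).toMonoidHom.comp θ.range.subtype
      exact isCyclic_of_injective f fun a b h => Subtype.ext ((MulEquiv.injective _) h)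
  refine ⟨?_, ?_, ?_⟩
  · haveI := hcycR
    exact ((QuotientGroup.quotientMulEquivOfEq hker.symm).trans (QuotientGroup.quotientKerEquivRange θ)).isCyclic.2
      hcycR
  · show ((Subgroup.centralizer (P : Set G)).subgroupOf (stab P e)).index ∣ p - 1
    rw [← hker, Subgroup.index_ker]
    exact hdvd1
  · intro g hg x hx hx1 hfix
    obtain ⟨m, hm⟩ := MonoidHom.map_cyclic (θ ⟨g, hg⟩ : MulAut P).toMonoidHom
    have hm' : ∀ u : P, θ ⟨g, hg⟩ u = u ^ m := hm
    obtain ⟨z, hz, hzfix⟩ : ∃ z : P, orderOf z = p ∧ θ ⟨g, hg⟩ z = z := by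
      obtain ⟨k, hk⟩ := IsPGroup.iff_orderOf.1 hmax.1.1.1 ⟨x, hx⟩
      have hk0 : k ≠ 0 := fun h => hx1 (congrArg Subtype.val (orderOf_eq_one_iff.1 (by rw [hk, h, pow_zero]) :
        (⟨x, hx⟩ : P) = 1))
      refine ⟨(⟨x, hx⟩ : P) ^ p ^ (k - 1), ?_, ?_⟩
      · rw [orderOf_pow' _ (pow_ne_zero _ hM.1.ne_zero), hk,
          Nat.gcd_eq_right (pow_dvd_pow p (Nat.sub_le k 1)), Nat.pow_div (Nat.sub_le k 1) hM.1.pos,
          show k - (k - 1) = 1 by omega, pow_one]
      · rw [map_pow, show θ ⟨g, hg⟩ ⟨x, hx⟩ = ⟨x, hx⟩ from Subtype.ext hfix]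
    have hpm : (p : ℤ) ∣ m - 1 := by
      rw [← hz, orderOf_dvd_iff_zpow_eq_one, zpow_sub, zpow_one, ← hm', hzfix, mul_inv_cancel]
    have hiter : ∀ (j : ℕ) (u : P), ((θ ⟨g, hg⟩) ^ j) u = u ^ (m ^ j) := by
      intro j
      induction j with
      | zero => intro u; simp
      | succ j ih => intro u; rw [pow_succ', MulAut.mul_apply, hm', ih, pow_succ, zpow_mul]
    have hpow : (θ ⟨g, hg⟩) ^ (p ^ n) = 1 := by
      refine MulEquiv.ext fun u => ?_
      rw [hiter]
      have h1 : ((p : ℤ) ^ (n + 1)) ∣ m ^ p ^ n - 1 ^ p ^ n := dvd_sub_pow_of_dvd_sub hpm n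
      rw [one_pow] at h1
      have h2 : (orderOf u : ℤ) ∣ m ^ p ^ n - 1 := by
        refine dvd_trans ?_ h1
        exact_mod_cast (orderOf_dvd_natCard u).trans (hn' ▸ pow_dvd_pow p (Nat.le_succ n))
      rw [orderOf_dvd_iff_zpow_eq_one, zpow_sub, zpow_one, mul_inv_eq_one] at h2
      exact h2
    have h1 : orderOf (θ ⟨g, hg⟩) ∣ Nat.card θ.range :=
      (orderOf_map_dvd θ.range.subtype (⟨θ ⟨g, hg⟩, ⟨g, hg⟩, rfl⟩ : θ.range)).trans (orderOf_dvd_natCard _)
    have h3 : θ ⟨g, hg⟩ = 1 := orderOf_eq_one_iff.1 (Nat.eq_one_of_dvd_coprimes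
      (Nat.Coprime.pow_left n (hM.1.coprime_iff_not_dvd.2 hidx)) (orderOf_dvd_of_pow_eq_one hpow) h1)
    have h4 : (⟨g, hg⟩ : stab P e) ∈ θ.ker := h3
    rw [hker] at h4
    exact h4

end Cfsg.Agent.Blocks
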