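import Cfsg.Agent.Blocks.Inertial
import Cfsg.Prelude.Def_BlockLocal

/-!
# Local blocks under an abelian defect group
-/

namespace Cfsg.Agent.Blocks

set_option maxHeartbeats 150000

universe u

variable {p : ℕ} {M : Ideal Cfsg.AlgInt} {G : Type u} [Group G] [Fintype G]
  {B : Set (Cfsg.IrrCharacter G)} {P : Subgroup G}
  {e : Set (Cfsg.IrrCharacter (Subgroup.centralizer (P : Set G)))}
  {Q : Subgroup G} {f : Set (Cfsg.IrrCharacter (Subgroup.centralizer (Q : Set G)))}

omit [Fintype G] in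
theorem pval_classSum [Finite G] [Fintype ↥(Subgroup.centralizer (P : Set G))]
    [Fintype ↥(Subgroup.centralizer (Q : Set G))]
    (hKH : Subgroup.centralizer (P : Set G) ≤ Subgroup.centralizer (Q : Set G))
    (ξ : Cfsg.IrrCharacter (Subgroup.centralizer (P : Set G))) (h : Subgroup.centralizer (Q : Set G)) :
    pval P ξ.1 (emb (Subgroup.centralizer (Q : Set G)) (classSum h))
      = Cfsg.inducedCentralCharIn (Subgroup.centralizer (Q : Set G))
          (Subgroup.centralizer (P : Set G)) ξ.1 (h : G) := by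
  classical
  rw [pval, omega, ev, Finset.sum_div, Cfsg.inducedCentralCharIn,
    finsum_mem_eq_finite_toFinset_sum _ (Set.toFinite _),
    ← Finset.sum_subset (Finset.subset_univ (Set.toFinite {k : Subgroup.centralizer (P : Set G) |
      ∃ x : Subgroup.centralizer (Q : Set G), (x : G) * (k : G) * (x : G)⁻¹ = (h : G)}).toFinset)]
  · refine Finset.sum_congr rfl fun k hk => ?_
    obtain ⟨x, hx⟩ := (Set.Finite.mem_toFinset _).1 hk
    rw [trunc_coeff, if_pos (SetLike.mem_coe.2 k.2), emb_of_mem _ _ (hKH k.2), classSum_apply,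
      if_pos, one_mul]
    exact (isConj_iff.2 ⟨x, Subtype.ext hx⟩).symm
  · intro k _ hk
    rw [trunc_coeff, if_pos (SetLike.mem_coe.2 k.2), emb_of_mem _ _ (hKH k.2), classSum_apply,
      if_neg, zero_mul, zero_div]
    intro hc
    obtain ⟨x, hx⟩ := isConj_iff.1 hc.symm
    exact hk ((Set.Finite.mem_toFinset _).2 ⟨x, congrArg Subtype.val hx⟩)

theorem exists_inducedIn (hM : Cfsg.IsPModular p M) (hmax : Cfsg.IsMaximalBrauerPair p M B P e)
    (hab : ∀ x ∈ P, ∀ y ∈ P, x * y = y * x) (hQP : Q ≤ P) :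
    ∃ f, Cfsg.IsInducedBlockIn M (Subgroup.centralizer (Q : Set G)) (Subgroup.centralizer (P : Set G)) e f := by
  classical
  haveI := Fintype.ofFinite (Subgroup.centralizer (P : Set G))
  haveI := Fintype.ofFinite (Subgroup.centralizer (Q : Set G))
  have hPC : P ≤ Subgroup.centralizer (Q : Set G) := fun a ha =>
    Subgroup.mem_centralizer_iff.2 fun q hq => hab q (hQP hq) a ha
  have hKH : Subgroup.centralizer (P : Set G) ≤ Subgroup.centralizer (Q : Set G) :=
    Subgroup.centralizer_le hQP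
  obtain ⟨ξ, hξ⟩ := block_nonempty hM hmax.1.1.2
  obtain ⟨F, hF, hφ⟩ := (isModHom_trunc_emb hM hmax.1.1.1 hPC hKH ξ).exists_block
  refine ⟨F, hmax.1.1.2, hF, fun η hη χ hχ h => ?_⟩
  rw [← pval_classSum hKH η h]
  have h1 := hφ χ hχ (classSum h) (isCentral_classSum h) (classSum_mem hM h)
  rw [omega_classSum (Char.irr_isClassFunction χ)] at h1
  have h2 := pval_congr hM (sameBlock_of_mem hM hmax.1.1.2 hη hξ)
    (emb_mem hM (Subgroup.centralizer (Q : Set G)) (classSum_mem hM h))
    (fun x hx g => emb_conj_invariant (isCentral_classSum h) (hKH hx) g)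
  have h3 := li_add hM h2 h1
  convert h3 using 1
  show _ = pval P η.1 _ - pval P ξ.1 _ + (pval P ξ.1 _ - _)
  ring

theorem below_of_inducedIn (hM : Cfsg.IsPModular p M) (hmax : Cfsg.IsMaximalBrauerPair p M B P e)
    (hab : ∀ x ∈ P, ∀ y ∈ P, x * y = y * x) (hQP : Q ≤ P)
    (hind : Cfsg.IsInducedBlockIn M (Subgroup.centralizer (Q : Set G)) (Subgroup.centralizer (P : Set G)) e f) :
    Cfsg.SubpairLE p M Q f P e := by
  classical
  haveI := Fintype.ofFinite (Subgroup.centralizer (P : Set G))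
  haveI := Fintype.ofFinite (Subgroup.centralizer (Q : Set G))
  have hQ : IsPGroup p Q := hmax.1.1.1.to_le hQP
  have hPC : P ≤ Subgroup.centralizer (Q : Set G) := fun a ha =>
    Subgroup.mem_centralizer_iff.2 fun q hq => hab q (hQP hq) a ha
  have hKH : Subgroup.centralizer (P : Set G) ≤ Subgroup.centralizer (Q : Set G) :=
    Subgroup.centralizer_le hQP
  obtain ⟨ξ, hξ⟩ := block_nonempty hM hmax.1.1.2
  obtain ⟨χ, hχ⟩ := block_nonempty hM hind.2.1
  have hli : Cfsg.MemLocalIdeal M (pval P ξ.1 (emb (Subgroup.centralizer (Q : Set G)) (idem f))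
      - omega χ.1 (idem f)) := by
    refine li_of_classSum hM (fun a => pval P ξ.1 (emb (Subgroup.centralizer (Q : Set G)) a) - omega χ.1 a)
      (fun a b => ?_) (fun c a => ?_) (fun h => ?_) (isCentral_idem f) (idem_block_mem hM hind.2.1)
    · rw [emb_add, pval_add, omega_add]; ring
    · rw [emb_smul, pval, trunc_smul, omega_smul, omega_smul, pval]; ring
    · rw [omega_classSum (Char.irr_isClassFunction χ)]
      rw [pval_classSum hKH ξ h]
      exact hind.2.2 ξ hξ χ hχ h
  rw [omega_idem, if_pos hχ] at hli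
  exact Relation.ReflTransGen.single ((isNormalSubpair_iff hM).2 ⟨⟨hQ, hind.2.1⟩, hmax.1.1, hQP,
    hPC.trans (Subgroup.centralizer_le_normalizer _),
    fun x hx => cja_of_pInvariant (pe_pInvariant_centralizer Q f) (hPC hx),
    hits_of_mem hM hmax.1.1.2 (pe_mem hM Q hind.2.1)
      (fun x hx => pe_pInvariant_centralizer Q f x (hKH hx)) hξ hli⟩)

theorem local_nilpotent_iff (hM : Cfsg.IsPModular p M) (hmax : Cfsg.IsMaximalBrauerPair p M B P e)
    (hab : ∀ x ∈ P, ∀ y ∈ P, x * y = y * x) (hle : Cfsg.SubpairLE p M Q f P e) :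
    Cfsg.IsNilpotentBlock p M f ↔
      ∀ y ∈ stab P e, y ∈ Subgroup.centralizer (Q : Set G) → y ∈ Subgroup.centralizer (P : Set G) := by
  classical
  haveI := Fintype.ofFinite (Subgroup.centralizer (Q : Set G))
  have hQP : Q ≤ P := le_of_chain hM hle
  have hQf := isBrauerPair_of_le hM hmax.1.1 hle
  have hPC : P ≤ Subgroup.centralizer (Q : Set G) := fun a ha =>
    Subgroup.mem_centralizer_iff.2 fun q hq => hab q (hQP hq) a ha
  have hCN : Subgroup.centralizer (Q : Set G) ≤ Subgroup.normalizer (Q : Set G) :=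
    Subgroup.centralizer_le_normalizer _
  have hKH : Subgroup.centralizer (P : Set G) ≤ Subgroup.centralizer (Q : Set G) :=
    Subgroup.centralizer_le hQP
  have hD : Cfsg.IsDefectGroup p M f ((P ⊓ Subgroup.centralizer (Q : Set G)).subgroupOf
      (Subgroup.centralizer (Q : Set G))) :=
    (isDefectGroup_iff_max hM le_rfl hCN
      (fun c hc => cja_of_pInvariant (pe_pInvariant_centralizer Q f) hc) hQf.2 rfl hmax hle).2
      fun z _ => by
        rw [inf_eq_left.2 hPC, ← card_cj z⁻¹ P]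
        exact Subgroup.card_le_of_le inf_le_left
  rw [inf_eq_left.2 hPC] at hD
  obtain ⟨g, hg1, hg2⟩ := exists_above hM hmax.1.1 hle
  have hhits : Hits M P e (pe Q f) := by
    have key : ∀ R : Subgroup G, R = P → ∀ g,
        Cfsg.IsNormalSubpair p M Q f R g → Cfsg.SubpairLE p M R g P e → Hits M P e (pe Q f) := by
      rintro R rfl g h1 h2
      rw [eq_of_le_of_le hM hmax.1.1 h2 Relation.ReflTransGen.refl] at h1
      exact ((isNormalSubpair_iff hM).1 h1).2.2.2.2.2
    exact key _ (inf_eq_left.2 (hPC.trans hCN)) g hg1 hg2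
  obtain ⟨a, ha, h7, h8, h9⟩ := exists_res hPC hKH hmax.1.1
  have h10 : Hits M (a.1.map (Subgroup.centralizer (Q : Set G)).subtype) (imgSet (liftC a.1 ha) a.2)
      (emb (Subgroup.centralizer (Q : Set G)) (idem f)) := by
    have : ∀ b : Cfsg.BrauerPairIdx G, b = ⟨P, e⟩ → Hits M b.1 b.2 (pe Q f) := by
      rintro b rfl; exact hhits
    exact this _ h9
  have hof : Cfsg.IsBrauerPairOf p M f a.1 a.2 :=
    isBrauerPairOf_iff.2 ⟨h8, hQf.2, (hits_liftC a.1 ha a.2 (idem f)).1 h10⟩
  have hm := isMaximal_of_defect hM (by rw [h7]; exact hD) hof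
  have hab' : ∀ x ∈ a.1, ∀ y ∈ a.1, x * y = y * x := by
    rw [h7]; exact fun x hx y hy => Subtype.ext (hab _ hx _ hy)
  rw [abelian_nilpotent_iff hM hm hab']
  have hpe : emb (Subgroup.centralizer (Q : Set G)) (pe a.1 a.2) = pe P e := by
    rw [← pe_liftC a.1 ha a.2]
    have key : ∀ b : Cfsg.BrauerPairIdx G, b = ⟨P, e⟩ → pe b.1 b.2 = pe P e := by
      rintro b rfl; rfl
    exact key (liftIdx (Subgroup.centralizer (Q : Set G)) a ha) h9
  have hst : ∀ y : Subgroup.centralizer (Q : Set G), y ∈ stab a.1 a.2 ↔ (y : G) ∈ stab P e := by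
    intro y
    have hn : y ∈ Subgroup.normalizer (a.1 : Set (Subgroup.centralizer (Q : Set G))) ↔
        (y : G) ∈ Subgroup.normalizer (P : Set G) := by
      rw [h7, Subgroup.mem_normalizer_iff, Subgroup.mem_normalizer_iff]
      refine ⟨fun h q => ⟨fun hq => (h ⟨q, hPC hq⟩).1 hq, fun hq => ?_⟩, fun h q => h (q : G)⟩
      have hqC : q ∈ Subgroup.centralizer (Q : Set G) := by
        have := (Subgroup.centralizer (Q : Set G)).mul_mem ((Subgroup.centralizer (Q : Set G)).mul_mem
          ((Subgroup.centralizer (Q : Set G)).inv_mem y.2) (hPC hq)) y.2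
        simpa [mul_assoc] using this
      exact (h ⟨q, hqC⟩).2 hq
    refine and_congr hn ?_
    show cja y (pe a.1 a.2) = pe a.1 a.2 ↔ cja (y : G) (pe P e) = pe P e
    rw [← hpe, cja_emb]
    refine ⟨fun h => by rw [h], fun h => ?_⟩
    have h2 := congrArg (trunc (Subgroup.centralizer (Q : Set G))
      ((Subgroup.centralizer (Q : Set G)) : Set G)) h
    rwa [trunc_emb_self, trunc_emb_self] at h2
  constructor
  · intro h y hy hyC
    have h2 := h ⟨y, hyC⟩ ((hst ⟨y, hyC⟩).2 hy)
    rw [h7] at h2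
    exact Subgroup.mem_centralizer_iff.2 fun q hq =>
      congrArg Subtype.val (Subgroup.mem_centralizer_iff.1 h2 ⟨q, hPC hq⟩ hq)
  · intro h y hy
    have h2 := h (y : G) ((hst y).1 hy) y.2
    rw [h7]
    exact Subgroup.mem_centralizer_iff.2 fun q hq =>
      Subtype.ext (Subgroup.mem_centralizer_iff.1 h2 (q : G) hq)

end Cfsg.Agent.Blocks
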