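import Cfsg.Agent.Blocks.AbelianDefect

/-!
# Local blocks of a nilpotent block
-/

namespace Cfsg.Agent.Blocks

universe u

variable {p : ℕ} {M : Ideal Cfsg.AlgInt} {G : Type u} [Group G] [Fintype G] {Q : Subgroup G}

/-- The centralizer of a subgroup of a centralizer. -/
def supC (R : Subgroup (Subgroup.centralizer (Q : Set G))) :
    Subgroup.centralizer ((Q ⊔ R.map (Subgroup.centralizer (Q : Set G)).subtype : Subgroup G) : Set G)
      ≃* Subgroup.centralizer (R : Set (Subgroup.centralizer (Q : Set G))) where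
  toFun k := ⟨⟨k, Subgroup.centralizer_le (le_sup_left : Q ≤ _) k.2⟩,
    map_centralizer_le (Subgroup.centralizer_le (le_sup_right : R.map _ ≤ _) k.2) _⟩
  invFun c := ⟨((c : Subgroup.centralizer (Q : Set G)) : G), mem_centralizer_iff_le.2
    (sup_le (mem_centralizer_iff_le.1 c.1.2) (mem_centralizer_iff_le.1 (centralizer_coe_mem c)))⟩
  left_inv _ := rfl
  right_inv _ := rfl
  map_mul' _ _ := rfl

theorem pe_supC (R : Subgroup (Subgroup.centralizer (Q : Set G)))
    (g : Set (Cfsg.IrrCharacter (Subgroup.centralizer (R : Set (Subgroup.centralizer (Q : Set G)))))) :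
    pe (Q ⊔ R.map (Subgroup.centralizer (Q : Set G)).subtype) (imgSet (supC R) g)
      = emb (Subgroup.centralizer (Q : Set G)) (pe R g) := by
  refine ext_coeff fun x => ?_
  by_cases hx : x ∈ Subgroup.centralizer (Q : Set G)
  · rw [emb_of_mem (Subgroup.centralizer (Q : Set G)) _ hx, pe, pe]
    by_cases hc : x ∈ Subgroup.centralizer
        ((Q ⊔ R.map (Subgroup.centralizer (Q : Set G)).subtype : Subgroup G) : Set G)
    · rw [emb_of_mem _ _ hc, emb_of_mem _ _
        (map_centralizer_le (Subgroup.centralizer_le (le_sup_right : R.map _ ≤ _) hc) hx)]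
      show Cfsg.blockCoeff _ _ = Cfsg.blockCoeff _ _
      rw [blockCoeff_imgSet]
      rfl
    · rw [emb_of_not_mem _ _ hc, emb_of_not_mem _ _ fun h => hc (show x ∈ _ from ((supC R).symm ⟨⟨x, hx⟩, h⟩).2)]
  · rw [emb_of_not_mem (Subgroup.centralizer (Q : Set G)) _ hx, pe,
      emb_of_not_mem _ _ fun h => hx (Subgroup.centralizer_le (le_sup_left : Q ≤ _) h)]

theorem hits_supC (R : Subgroup (Subgroup.centralizer (Q : Set G)))
    (g : Set (Cfsg.IrrCharacter (Subgroup.centralizer (R : Set (Subgroup.centralizer (Q : Set G))))))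
    (a : MonoidAlgebra ℂ (Subgroup.centralizer (Q : Set G))) (h : Hits M R g a) :
    Hits M (Q ⊔ R.map (Subgroup.centralizer (Q : Set G)).subtype) (imgSet (supC R) g)
      (emb (Subgroup.centralizer (Q : Set G)) a) := by
  classical
  haveI := Fintype.ofFinite (Subgroup.centralizer (R : Set (Subgroup.centralizer (Q : Set G))))
  haveI := Fintype.ofFinite (Subgroup.centralizer
    ((Q ⊔ R.map (Subgroup.centralizer (Q : Set G)).subtype : Subgroup G) : Set G))
  rintro η ⟨ξ, hξ, hη⟩
  have key : Cfsg.brauerOmega (Q ⊔ R.map (Subgroup.centralizer (Q : Set G)).subtype)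
      (fun x => (emb (Subgroup.centralizer (Q : Set G)) a).coeff x) η.1
        = Cfsg.brauerOmega R (fun x => a.coeff x) ξ.1 := by
    rw [hη]
    simp only [Cfsg.brauerOmega, finsum_eq_sum_of_fintype, map_one]
    refine Fintype.sum_equiv (supC R).toEquiv _ _ fun k => ?_
    rw [emb_of_mem _ a (Subgroup.centralizer_le (le_sup_left : Q ≤ _) k.2)]
    rfl
  rw [key]
  exact h ξ hξ

theorem local_nilpotent (hM : Cfsg.IsPModular p M) {B : Set (Cfsg.IrrCharacter G)}
    (hnil : Cfsg.IsNilpotentBlock p M B)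
    {f : Set (Cfsg.IrrCharacter (Subgroup.centralizer (Q : Set G)))}
    (hQf : Cfsg.IsBrauerPairOf p M B Q f) : Cfsg.IsNilpotentBlock p M f := by
  classical
  haveI : Fact p.Prime := ⟨hM.1⟩
  haveI := Fintype.ofFinite (Subgroup.centralizer (Q : Set G))
  refine ⟨hQf.1.2, fun R g hRg y hy hst hreg => ?_⟩
  obtain ⟨hRg1, -, hh⟩ := isBrauerPairOf_iff.1 hRg
  have hR'C : R.map (Subgroup.centralizer (Q : Set G)).subtype ≤ Subgroup.centralizer (Q : Set G) :=
    Subgroup.map_subtype_le _
  have hCN : Subgroup.centralizer (Q : Set G) ≤ Subgroup.normalizer (Q : Set G) :=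
    Subgroup.centralizer_le_normalizer _
  have hS : IsPGroup p (Q ⊔ R.map (Subgroup.centralizer (Q : Set G)).subtype : Subgroup G) := by
    rw [sup_comm]
    exact (hRg1.1.map _).to_sup_of_normal_right' hQf.1.1 (hR'C.trans hCN)
  have hfix : Q ⊔ R.map (Subgroup.centralizer (Q : Set G)).subtype ≤ fixer (pe Q f) :=
    sup_le (fun x hx => cja_of_pInvariant (pe_pInvariant_self Q f) hx)
      fun x hx => cja_of_pInvariant (pe_pInvariant_centralizer Q f) (hR'C hx)
  have hsub : Cfsg.IsNormalSubpair p M Q f (Q ⊔ R.map (Subgroup.centralizer (Q : Set G)).subtype)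
      (imgSet (supC R) g) :=
    (isNormalSubpair_iff hM).2 ⟨hQf.1, ⟨hS, isPBlock_imgSet _ hRg1.2⟩, le_sup_left,
      sup_le Subgroup.le_normalizer (hR'C.trans hCN), fun x hx => hfix hx, hits_supC R g _ hh⟩
  have hB := (isBrauerPairOf_step hM hsub B).2 hQf
  have hcj : cj (y : G) (Q ⊔ R.map (Subgroup.centralizer (Q : Set G)).subtype)
      = Q ⊔ R.map (Subgroup.centralizer (Q : Set G)).subtype := by
    have hq : cj (y : G) Q = Q := cj_eq_self_of_mem_normalizer (hCN y.2)
    have h2 : cj y R = R := cj_eq_self_of_mem_normalizer hy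
    show (Q ⊔ R.map _).map _ = _
    rw [Subgroup.map_sup]
    refine congrArg₂ (· ⊔ ·) hq ?_
    conv_rhs => rw [← h2]
    show (R.map _).map _ = (R.map _).map _
    rw [Subgroup.map_map, Subgroup.map_map]
    rfl
  have hyN := mem_normalizer_of_cj_eq hcj
  have hst' : cja (y : G) (pe (Q ⊔ R.map (Subgroup.centralizer (Q : Set G)).subtype) (imgSet (supC R) g))
      = pe (Q ⊔ R.map (Subgroup.centralizer (Q : Set G)).subtype) (imgSet (supC R) g) := by
    rw [pe_supC, cja_emb, (stabilizesBlock_iff hM hy hRg1.2).1 hst]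
  have hc := hnil.2 _ _ hB (y : G) hyN ((stabilizesBlock_iff hM hyN hB.1.2).2 hst') (by
    show ¬ p ∣ orderOf (y : G)
    rw [Subgroup.orderOf_coe]
    exact hreg)
  exact map_centralizer_le (Subgroup.centralizer_le (le_sup_right : R.map _ ≤ _) hc) y.2

theorem defect_of_inner (hM : Cfsg.IsPModular p M) {B : Set (Cfsg.IrrCharacter G)} {P : Subgroup G}
    {e : Set (Cfsg.IrrCharacter (Subgroup.centralizer (P : Set G)))}
    (hmax : Cfsg.IsMaximalBrauerPair p M B P e)
    (hin : ∀ R : Subgroup G, (blockSystem hM hmax.1.1).Hom R = (Cfsg.innerFusionSystem P).Hom R)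
    {f : Set (Cfsg.IrrCharacter (Subgroup.centralizer (Q : Set G)))}
    (hle : Cfsg.SubpairLE p M Q f P e) :
    Cfsg.IsDefectGroup p M f
      ((P ⊓ Subgroup.centralizer (Q : Set G)).subgroupOf (Subgroup.centralizer (Q : Set G))) := by
  classical
  haveI := Fintype.ofFinite (Subgroup.centralizer (Q : Set G))
  have hQf := isBrauerPair_of_le hM hmax.1.1 hle
  refine (isDefectGroup_iff_max hM le_rfl (Subgroup.centralizer_le_normalizer _)
    (fun c hc => cja_of_pInvariant (pe_pInvariant_centralizer Q f) hc) hQf.2 rfl hmax hle).2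
    fun x hx => ?_
  have hφ : (MulAut.conj x).toMonoidHom.comp Q.subtype ∈ (blockSystem hM hmax.1.1).Hom Q :=
    ⟨x, fun u => rfl, ⟨Q, f⟩, rfl, hle, hx⟩
  rw [hin] at hφ
  obtain ⟨-, a, ha, hag⟩ := hφ
  have hc : a⁻¹ * x ∈ Subgroup.centralizer (Q : Set G) := by
    refine Subgroup.mem_centralizer_iff.2 fun q hq => ?_
    have h : x * q * x⁻¹ = a * q * a⁻¹ := hag ⟨q, hq⟩
    calc q * (a⁻¹ * x) = a⁻¹ * (a * q * a⁻¹) * x := by group
      _ = a⁻¹ * (x * q * x⁻¹) * x := by rw [h]
      _ = _ := by group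
  have heq : cj x⁻¹ P ⊓ Subgroup.centralizer (Q : Set G)
      ≤ cj (a⁻¹ * x)⁻¹ (P ⊓ Subgroup.centralizer (Q : Set G)) := by
    rintro u ⟨hu1, hu2⟩
    rw [mem_cj, inv_inv]
    refine ⟨?_, (Subgroup.centralizer (Q : Set G)).mul_mem
      ((Subgroup.centralizer (Q : Set G)).mul_mem hc hu2) ((Subgroup.centralizer (Q : Set G)).inv_mem hc)⟩
    have h1 : x * u * x⁻¹ ∈ P := by simpa using mem_cj.1 hu1
    have := P.mul_mem (P.mul_mem (P.inv_mem ha) h1) ha
    simpa [mul_assoc] using this
  refine (Subgroup.card_le_of_le heq).trans ?_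
  rw [card_cj]

end Cfsg.Agent.Blocks
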