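import Mathlib

/-!
# A lower bound for sums of squared absolute values of cyclotomic integers
-/

set_option autoImplicit false
set_option linter.all false

open scoped ComplexConjugate IntermediateField

namespace Cfsg.Agent.Blocks

theorem card_le_sum_normSq_cyclotomic {N : ℕ} (hN : 0 < N) {ζ : ℂ} (hζ : ζ ^ N = 1)
    {ι : Type*} (s : Finset ι) (a : ι → ℂ) (hmem : ∀ i ∈ s, a i ∈ ℚ⟮ζ⟯)
    (hint : ∀ i ∈ s, IsIntegral ℤ (a i)) (hne : ∀ i ∈ s, a i ≠ 0) (S : ℕ)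
    (hS : ∑ i ∈ s, a i * conj (a i) = (S : ℂ)) : s.card ≤ S := by
  classical
  have hζi : IsIntegral ℚ ζ := IsIntegral.of_pow hN (by rw [hζ]; exact isIntegral_one)
  haveI : FiniteDimensional ℚ ℚ⟮ζ⟯ := IntermediateField.adjoin.finiteDimensional hζi
  have hζ0 : ζ ≠ 0 := fun h => by simp [h, zero_pow hN.ne'] at hζ
  have hcz : conj ζ = ζ⁻¹ := by
    rw [Complex.inv_eq_conj (Complex.norm_eq_one_of_pow_eq_one hζ hN.ne')]
  have hcmem : ∀ z ∈ ℚ⟮ζ⟯, conj z ∈ ℚ⟮ζ⟯ := by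
    intro z hz
    induction hz using IntermediateField.adjoin_induction with
    | mem x hx =>
      rw [Set.mem_singleton_iff.1 hx, hcz]
      exact inv_mem (IntermediateField.mem_adjoin_simple_self ℚ ζ)
    | algebraMap q => rw [eq_ratCast, map_ratCast]; exact SubfieldClass.ratCast_mem _ q
    | add x y _ _ hx hy => rw [map_add]; exact add_mem hx hy
    | inv x _ hx => rw [map_inv₀]; exact inv_mem hx
    | mul x y _ _ hx hy => rw [map_mul]; exact mul_mem hx hy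
  have hcomm : ∀ (σ : ℚ⟮ζ⟯ →ₐ[ℚ] ℂ) (z : ℂ) (hz : z ∈ ℚ⟮ζ⟯),
      σ ⟨conj z, hcmem z hz⟩ = conj (σ ⟨z, hz⟩) := by
    intro σ z hz
    induction hz using IntermediateField.adjoin_induction with
    | mem x hx =>
      obtain rfl := Set.mem_singleton_iff.1 hx
      have h1 : (⟨conj x, hcmem x (IntermediateField.mem_adjoin_simple_self ℚ x)⟩ : ℚ⟮x⟯)
          = (IntermediateField.AdjoinSimple.gen ℚ x)⁻¹ := Subtype.ext (by simpa using hcz)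
      have hp : σ (IntermediateField.AdjoinSimple.gen ℚ x) ^ N = 1 := by
        rw [← map_pow, show (IntermediateField.AdjoinSimple.gen ℚ x) ^ N = 1 from
          Subtype.ext (by simpa using hζ), map_one]
      rw [show (⟨conj x, _⟩ : ℚ⟮x⟯) = (IntermediateField.AdjoinSimple.gen ℚ x)⁻¹ from h1, map_inv₀]
      exact (Complex.inv_eq_conj (Complex.norm_eq_one_of_pow_eq_one hp hN.ne'))
    | algebraMap q =>
      have h1 : (⟨conj (algebraMap ℚ ℂ q), hcmem _ (IntermediateField.algebraMap_mem _ q)⟩ : ℚ⟮ζ⟯)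
          = algebraMap ℚ ℚ⟮ζ⟯ q := Subtype.ext (by simp)
      rw [h1, show (⟨algebraMap ℚ ℂ q, IntermediateField.algebraMap_mem _ q⟩ : ℚ⟮ζ⟯)
          = algebraMap ℚ ℚ⟮ζ⟯ q from Subtype.ext rfl, σ.commutes]
      simp
    | add x y hx hy hx' hy' =>
      rw [show (⟨conj (x + y), hcmem _ (add_mem hx hy)⟩ : ℚ⟮ζ⟯)
          = ⟨conj x, hcmem _ hx⟩ + ⟨conj y, hcmem _ hy⟩ from Subtype.ext (by simp),
        show (⟨x + y, add_mem hx hy⟩ : ℚ⟮ζ⟯) = ⟨x, hx⟩ + ⟨y, hy⟩ from rfl,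
        map_add, map_add, hx', hy', map_add]
    | inv x hx hx' =>
      rw [show (⟨conj x⁻¹, hcmem _ (inv_mem hx)⟩ : ℚ⟮ζ⟯) = (⟨conj x, hcmem _ hx⟩)⁻¹ from
          Subtype.ext (by simp), show (⟨x⁻¹, inv_mem hx⟩ : ℚ⟮ζ⟯) = (⟨x, hx⟩)⁻¹ from rfl,
        map_inv₀, map_inv₀, hx', map_inv₀]
    | mul x y hx hy hx' hy' =>
      rw [show (⟨conj (x * y), hcmem _ (mul_mem hx hy)⟩ : ℚ⟮ζ⟯)
          = ⟨conj x, hcmem _ hx⟩ * ⟨conj y, hcmem _ hy⟩ from Subtype.ext (by simp),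
        show (⟨x * y, mul_mem hx hy⟩ : ℚ⟮ζ⟯) = ⟨x, hx⟩ * ⟨y, hy⟩ from rfl,
        map_mul, map_mul, hx', hy', map_mul]
  let b : s → ℚ⟮ζ⟯ := fun i => ⟨a i.1, hmem i.1 i.2⟩
  let c : s → ℚ⟮ζ⟯ := fun i => ⟨conj (a i.1), hcmem _ (hmem i.1 i.2)⟩
  have hsum : ∑ i : s, b i * c i = (S : ℚ⟮ζ⟯) := by
    refine Subtype.ext ?_
    have : ((∑ i : s, b i * c i : ℚ⟮ζ⟯) : ℂ) = ∑ i : s, a i.1 * conj (a i.1) := by
      simp [b, c]
    rw [this, Finset.sum_coe_sort s (fun i => a i * conj (a i)), hS]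
    simp
  have hσ : ∀ σ : ℚ⟮ζ⟯ →ₐ[ℚ] ℂ, ∑ i : s, ‖σ (b i)‖ ^ 2 = (S : ℝ) := by
    intro σ
    have h1 := congrArg σ hsum
    simp only [map_sum, map_mul, map_natCast] at h1
    rw [Finset.sum_congr rfl fun i _ => show σ (b i) * σ (c i) = ((‖σ (b i)‖ ^ 2 : ℝ) : ℂ) by
      rw [show σ (c i) = conj (σ (b i)) from hcomm σ (a i.1) (hmem i.1 i.2), Complex.mul_conj',
        Complex.ofReal_pow]] at h1
    exact_mod_cast h1
  have hprod : ∀ i : s, (1 : ℝ) ≤ ∏ σ : ℚ⟮ζ⟯ →ₐ[ℚ] ℂ, ‖σ (b i)‖ ^ 2 := by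
    intro i
    have hb : IsIntegral ℤ (b i) :=
      (isIntegral_algHom_iff ((IntermediateField.val ℚ⟮ζ⟯).restrictScalars ℤ) Subtype.val_injective).1
        (hint i.1 i.2)
    obtain ⟨n, hn⟩ := IsIntegrallyClosed.isIntegral_iff.1 (Algebra.isIntegral_norm ℚ hb)
    have hn' : (n : ℂ) = ∏ σ : ℚ⟮ζ⟯ →ₐ[ℚ] ℂ, σ (b i) := by
      rw [← Algebra.norm_eq_prod_embeddings ℚ ℂ, ← hn]
      simp
    have hb0 : b i ≠ 0 := fun h => hne i.1 i.2 (congrArg Subtype.val h)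
    have hn0 : n ≠ 0 := by
      intro h
      rw [h, Int.cast_zero, eq_comm, Finset.prod_eq_zero_iff] at hn'
      obtain ⟨σ, -, hσ'⟩ := hn'
      exact hb0 ((map_eq_zero σ).1 hσ')
    rw [Finset.prod_pow, ← norm_prod, ← hn', Complex.norm_intCast]
    have : (1 : ℝ) ≤ |(n : ℝ)| := by exact_mod_cast Int.one_le_abs hn0
    nlinarith
  have hi : ∀ i : s, (Fintype.card (ℚ⟮ζ⟯ →ₐ[ℚ] ℂ) : ℝ) ≤ ∑ σ : ℚ⟮ζ⟯ →ₐ[ℚ] ℂ, ‖σ (b i)‖ ^ 2 := by
    intro i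
    have hpos : ∀ σ : ℚ⟮ζ⟯ →ₐ[ℚ] ℂ, 0 < ‖σ (b i)‖ ^ 2 := fun σ =>
      pow_pos (norm_pos_iff.2 ((map_ne_zero σ).2 fun h => hne i.1 i.2 (congrArg Subtype.val h))) 2
    have h1 : (0 : ℝ) ≤ ∑ σ : ℚ⟮ζ⟯ →ₐ[ℚ] ℂ, Real.log (‖σ (b i)‖ ^ 2) := by
      rw [← Real.log_prod (fun σ _ => (hpos σ).ne')]
      exact Real.log_nonneg (hprod i)
    have h2 := Finset.sum_le_sum (s := Finset.univ) fun σ (_ : σ ∈ Finset.univ) =>
      Real.log_le_sub_one_of_pos (hpos σ)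
    rw [Finset.sum_sub_distrib, Finset.sum_const, Finset.card_univ, nsmul_eq_mul, mul_one] at h2
    linarith
  have h3 := Finset.sum_le_sum (s := Finset.univ) fun i (_ : i ∈ Finset.univ) => hi i
  replace h3 := h3.trans_eq (Finset.sum_comm.trans (Finset.sum_congr rfl fun σ _ => hσ σ))
  simp only [Finset.sum_const, nsmul_eq_mul, Finset.card_univ, Fintype.card_coe] at h3
  have hpos : (0 : ℝ) < Fintype.card (ℚ⟮ζ⟯ →ₐ[ℚ] ℂ) := by
    exact_mod_cast Fintype.card_pos_iff.2 ⟨IntermediateField.val _⟩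
  have h4 : (s.card : ℝ) ≤ (S : ℝ) := by
    refine le_of_mul_le_mul_right ?_ hpos
    linarith
  exact_mod_cast h4

end Cfsg.Agent.Blocks
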