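import Cfsg.Agent.Blocks.SubsectionNorm
import Cfsg.Agent.Blocks.RootNorm
import Cfsg.Agent.Blocks.BrauerFeit

/-!
# Major subsections
-/

namespace Cfsg.Agent.Blocks

universe u

variable {p : ℕ} {M : Ideal Cfsg.AlgInt}

section Generic

variable {H : Type u} [Group H] [Fintype H]

/-- The reduced integer matrix of a block. -/
noncomputable def redVal (p : ℕ) (b : Set (Cfsg.IrrCharacter H)) (η η' : Cfsg.IrrCharacter H) : ℤ :=
  regVal p η η' / (p : ℤ) ^ ((Nat.card H).factorization p - Cfsg.blockDefect p b)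

theorem pow_mul_redVal (hM : Cfsg.IsPModular p M) {b : Set (Cfsg.IrrCharacter H)}
    (hb : Cfsg.IsPBlock M b) {η : Cfsg.IrrCharacter H} (hη : η ∈ b) (η' : Cfsg.IrrCharacter H) :
    regVal p η η' = (p : ℤ) ^ ((Nat.card H).factorization p - Cfsg.blockDefect p b) * redVal p b η η' := by
  rw [redVal, Int.mul_ediv_cancel']
  refine dvd_trans (pow_dvd_pow _ ?_) (pow_dvd_regVal hM η η')
  have h1 := degree_factorization_eq hM hb hη
  omega

/-- The reduced degree. -/
noncomputable def redDeg (p : ℕ) (b : Set (Cfsg.IrrCharacter H)) (η : Cfsg.IrrCharacter H) : ℕ :=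
  Cfsg.charDegree η.1 / p ^ ((Nat.card H).factorization p - Cfsg.blockDefect p b)

theorem redVal_omega (hM : Cfsg.IsPModular p M) {b : Set (Cfsg.IrrCharacter H)}
    (hb : Cfsg.IsPBlock M b) {η : Cfsg.IrrCharacter H} (hη : η ∈ b) (η' : Cfsg.IrrCharacter H) :
    (redVal p b η η' : ℂ) * ((Nat.card H / p ^ (Nat.card H).factorization p : ℕ) : ℂ)
      = (redDeg p b η : ℂ) * omega η.1 (regElt p η'.1) := by
  have h1 := regVal_eq_omega hM.1 η η'
  rw [pow_mul_redVal hM hb hη η', (irr_charDegree η).1] at h1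
  have h2 : p ^ ((Nat.card H).factorization p - Cfsg.blockDefect p b) * redDeg p b η
      = Cfsg.charDegree η.1 := by
    refine Nat.mul_div_cancel' ?_
    have h3 := degree_factorization_eq hM hb hη
    exact dvd_trans (pow_dvd_pow _ (by omega)) (Nat.ordProj_dvd _ p)
  rw [← h2, Int.cast_mul, Int.cast_pow, Int.cast_natCast, Nat.cast_mul, Nat.cast_pow,
    mul_assoc, mul_assoc] at h1
  exact mul_left_cancel₀ (pow_ne_zero _ (by exact_mod_cast hM.1.ne_zero)) h1

theorem redVal_comm (hM : Cfsg.IsPModular p M) (b : Set (Cfsg.IrrCharacter H))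
    (η η' : Cfsg.IrrCharacter H) : redVal p b η η' = redVal p b η' η := by
  rw [redVal, redVal, regVal_comm hM.1]

theorem not_dvd_redDeg (hM : Cfsg.IsPModular p M) {b : Set (Cfsg.IrrCharacter H)}
    (hb : Cfsg.IsPBlock M b) {η : Cfsg.IrrCharacter H} (hη : η ∈ b)
    (h0 : Cfsg.blockHeight p b η.1 = 0) : ¬ p ∣ redDeg p b η := by
  have h3 := degree_factorization_eq hM hb hη
  have hd : Cfsg.blockDefect p b ≤ (Nat.card H).factorization p := Nat.sub_le _ _
  rw [redDeg, show (Nat.card H).factorization p - Cfsg.blockDefect p b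
    = (Cfsg.charDegree η.1).factorization p by omega]
  exact Nat.not_dvd_ordCompl hM.1 (irr_charDegree η).2

/-- The scalar by which a central element acts. -/
noncomputable def cw (η : Cfsg.IrrCharacter H) (z : H) : ℂ :=
  omega η.1 (MonoidAlgebra.single z (1 : ℂ))

theorem omega_single_eq (η : H → ℂ) (c : H) :
    omega η (MonoidAlgebra.single c (1 : ℂ)) = η c / η 1 := by
  classical
  rw [omega, ev, Finset.sum_eq_single c]
  · simp
  · intro d _ hd
    simp [MonoidAlgebra.coeff_single, Finsupp.single_apply, Ne.symm hd]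
  · intro h; exact absurd (Finset.mem_univ _) h

theorem isCentral_single {z : H} (hz : ∀ c : H, c * z = z * c) :
    IsCentral (MonoidAlgebra.single z (1 : ℂ)) := by
  classical
  intro g x
  simp only [MonoidAlgebra.coeff_single, Finsupp.single_apply]
  refine if_congr ⟨fun h => ?_, fun h => ?_⟩ rfl rfl
  · calc z = x⁻¹ * (x * z) := by group
      _ = x⁻¹ * (z * x) := by rw [hz x]
      _ = g := by rw [h]; group
  · subst h
    rw [hz x, mul_inv_cancel_right]

theorem irr_central_mul (η : Cfsg.IrrCharacter H) {z : H} (hz : ∀ c : H, c * z = z * c) (c : H) :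
    η.1 (z * c) = cw η z * η.1 c := by
  have h := omega_mul η (isCentral_single hz) (MonoidAlgebra.single c (1 : ℂ))
  rw [MonoidAlgebra.single_mul_single, one_mul, omega_single_eq, omega_single_eq η.1 c] at h
  rw [cw]
  field_simp [Char.irr_one_ne_zero η] at h
  exact h

theorem cw_pow (η : Cfsg.IrrCharacter H) {z : H} (hz : ∀ c : H, c * z = z * c) :
    cw η z ^ orderOf z = 1 := by
  rw [cw, ← omega_pow η (isCentral_single hz), MonoidAlgebra.single_pow, one_pow,
    pow_orderOf_eq_one, ← MonoidAlgebra.one_def, omega_one]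

theorem li_root_sub_one (hM : Cfsg.IsPModular p M) {w : ℂ} {k : ℕ} (hw : w ^ p ^ k = 1) :
    Cfsg.MemLocalIdeal M (w - 1) := by
  haveI := Fact.mk hM.1
  haveI := locIdeal_isMaximal hM
  haveI : CharP (locRing hM ⧸ locIdeal hM) p := charP_residue hM
  have hint : IsIntegral ℤ w :=
    IsIntegral.of_pow (pow_pos hM.1.pos k) (by rw [hw]; exact isIntegral_one)
  let a : locRing hM := ⟨w, algInt_mem_locRing hM hint⟩
  have h1 : (Ideal.Quotient.mk (locIdeal hM) (a - 1)) ^ p ^ k = 0 := by
    rw [map_sub, map_one, sub_pow_char_pow, one_pow, ← map_pow,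
      show a ^ p ^ k = 1 from Subtype.ext (by simpa using hw), map_one, sub_self]
  have h2 := pow_eq_zero_iff'.1 h1
  exact (mem_locIdeal hM).1 (Ideal.Quotient.eq_zero_iff_mem.1 h2.1)

theorem li_mul_sub_mul (hM : Cfsg.IsPModular p M) {z z' w w' : ℂ} (hz : Cfsg.MemLocalRing M z)
    (hw' : Cfsg.MemLocalRing M w') (h : Cfsg.MemLocalIdeal M (z - z'))
    (h' : Cfsg.MemLocalIdeal M (w - w')) : Cfsg.MemLocalIdeal M (z * w - z' * w') := by
  have := li_add hM (li_mul_left hM hz h') (li_mul hM h hw')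
  convert this using 1
  ring

end Generic

section Kernel

variable {G : Type u} [Group G] [Fintype G] {x : G} {k : ℕ}
  [Fintype (Subgroup.centralizer ({x} : Set G))]

/-- The section function of a character. -/
noncomputable def secFun (x : G) (χ : Cfsg.IrrCharacter G) :
    Subgroup.centralizer ({x} : Set G) → ℂ := fun c => (χ : G → ℂ) (x * (c : G))

/-- The kernel of a set of characters. -/
noncomputable def kern {H : Type u} [Group H] [Finite H] (e : Set (Cfsg.IrrCharacter H)) (s t : H) : ℂ :=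
  ∑ η ∈ e.toFinite.toFinset, η.1 s * starRingEnd ℂ (η.1 t)

theorem conj_kern {H : Type u} [Group H] [Finite H] (e : Set (Cfsg.IrrCharacter H)) (s t : H) :
    starRingEnd ℂ (kern e s t) = kern e t s := by
  simp only [kern, map_sum, map_mul, Complex.conj_conj]
  exact Finset.sum_congr rfl fun η _ => mul_comm _ _

theorem kern_singular {H : Type u} [Group H] [Fintype H] (hM : Cfsg.IsPModular p M)
    {e : Set (Cfsg.IrrCharacter H)} (he : Cfsg.IsPBlock M e) {s c : H} (hs : ¬ p ∣ orderOf s)
    (hc : p ∣ orderOf c) : kern e s c = 0 := by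
  rw [← conj_kern, show kern e c s = 0 from sum_eq_zero_of_singular hM (idem_block_mem hM he) hc hs,
    map_zero]

theorem sum_regular_kern {H : Type u} [Group H] [Fintype H] (hM : Cfsg.IsPModular p M)
    {e : Set (Cfsg.IrrCharacter H)} (he : Cfsg.IsPBlock M e) {s : H} (hs : ¬ p ∣ orderOf s)
    (η : Cfsg.IrrCharacter H) [Decidable (η ∈ e)] :
    ∑ c ∈ Finset.univ.filter (fun c : H => ¬ p ∣ orderOf c), η.1 c * kern e s c
      = if η ∈ e then (Nat.card H : ℂ) * η.1 s else 0 := by
  classical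
  rw [Finset.sum_subset (Finset.subset_univ _) fun c _ hc => by
    rw [kern_singular hM he hs (not_not.1 fun h => hc (Finset.mem_filter.2 ⟨Finset.mem_univ _, h⟩)),
      mul_zero]]
  simp only [kern, Finset.mul_sum]
  rw [Finset.sum_comm]
  have hn0 : (Nat.card H : ℂ) ≠ 0 := by exact_mod_cast Nat.card_pos.ne'
  have : ∀ ζ : Cfsg.IrrCharacter H, ∑ c, η.1 c * (ζ.1 s * starRingEnd ℂ (ζ.1 c))
      = ζ.1 s * ((Nat.card H : ℂ) * Cfsg.classInner η.1 ζ.1) := by
    intro ζ
    rw [Cfsg.classInner, ← mul_assoc (Nat.card H : ℂ), mul_inv_cancel₀ hn0, one_mul, Finset.mul_sum]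
    exact Finset.sum_congr rfl fun c _ => by ring
  rw [Finset.sum_congr rfl fun ζ _ => this ζ]
  simp only [Char.classInner_irr, mul_ite, mul_one, mul_zero]
  rw [Finset.sum_ite_eq]
  simp only [Set.Finite.mem_toFinset, mul_comm ((Nat.card H : ℂ))]

/-- Orthogonality of the parts in a subsection. -/
theorem sum_part_mul_part (hM : Cfsg.IsPModular p M) {B : Set (Cfsg.IrrCharacter G)}
    (hB : Cfsg.IsPBlock M B) (hx : orderOf x = p ^ k)
    {e : Set (Cfsg.IrrCharacter (Subgroup.centralizer ({x} : Set G)))}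
    (he : Cfsg.IsInducedBlock M (Subgroup.centralizer ({x} : Set G)) e B)
    {s t : Subgroup.centralizer ({x} : Set G)} (hs : ¬ p ∣ orderOf s) (ht : ¬ p ∣ orderOf t) :
    ∑ χ ∈ B.toFinite.toFinset,
        Cfsg.blockPart e (secFun x χ) s * starRingEnd ℂ (Cfsg.blockPart e (secFun x χ) t)
      = kern e s t := by
  classical
  set R := Finset.univ.filter fun c : Subgroup.centralizer ({x} : Set G) => ¬ p ∣ orderOf c with hR
  set n : ℂ := (Nat.card (Subgroup.centralizer ({x} : Set G)) : ℂ) with hn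
  have hn0 : n ≠ 0 := by rw [hn]; exact_mod_cast Nat.card_pos.ne'
  have hpart : ∀ χ, ∀ r : Subgroup.centralizer ({x} : Set G), ¬ p ∣ orderOf r →
      Cfsg.blockPart e (secFun x χ) r = n⁻¹ * ∑ c ∈ R, secFun x χ c * kern e r c := by
    intro χ r hr
    have h1 : ∑ c ∈ R, secFun x χ c * kern e r c = ∑ c, secFun x χ c * kern e r c :=
      Finset.sum_subset (Finset.subset_univ _) fun c _ hc => by
        rw [kern_singular hM he.1 hr (not_not.1 fun h => hc (by simp [hR, h])), mul_zero]
    rw [blockPart_kernel, h1]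
    rfl
  calc _ = ∑ χ ∈ B.toFinite.toFinset, (n⁻¹ * ∑ c ∈ R, secFun x χ c * kern e s c)
        * starRingEnd ℂ (n⁻¹ * ∑ c ∈ R, secFun x χ c * kern e t c) :=
        Finset.sum_congr rfl fun χ _ => by rw [hpart χ s hs, hpart χ t ht]
    _ = n⁻¹ * n⁻¹ * ∑ c ∈ R, ∑ d ∈ R, kern e s c * starRingEnd ℂ (kern e t d) *
          ∑ χ ∈ B.toFinite.toFinset, secFun x χ c * starRingEnd ℂ (secFun x χ d) := by
        simp only [map_mul, map_sum, map_inv₀, hn, map_natCast, Finset.mul_sum, Finset.sum_mul]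
        rw [Finset.sum_comm]
        conv_lhs => enter [2, d]; rw [Finset.sum_comm]
        rw [Finset.sum_comm]
        exact Finset.sum_congr rfl fun c _ => Finset.sum_congr rfl fun d _ =>
          Finset.sum_congr rfl fun χ _ => by ring
    _ = n⁻¹ * n⁻¹ * ∑ c ∈ R, ∑ d ∈ R, kern e s c * starRingEnd ℂ (kern e t d) *
          ∑ η ∈ (indSet M (Subgroup.centralizer ({x} : Set G)) B).toFinite.toFinset,
            η.1 c * starRingEnd ℂ (η.1 d) := by
        congr 1
        refine Finset.sum_congr rfl fun c hc => Finset.sum_congr rfl fun d hd => ?_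
        simp only [secFun]
        rw [sum_pair hM hB hx (Finset.mem_filter.1 hc).2 (Finset.mem_filter.1 hd).2]
    _ = n⁻¹ * n⁻¹ * ∑ η ∈ (indSet M (Subgroup.centralizer ({x} : Set G)) B).toFinite.toFinset,
          (∑ c ∈ R, η.1 c * kern e s c) * starRingEnd ℂ (∑ c ∈ R, η.1 c * kern e t c) := by
        congr 1
        simp only [map_sum, map_mul, Finset.mul_sum, Finset.sum_mul]
        rw [Finset.sum_comm]
        conv_lhs => enter [2, d]; rw [Finset.sum_comm]
        rw [Finset.sum_comm]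
        exact Finset.sum_congr rfl fun η _ => Finset.sum_congr rfl fun c _ =>
          Finset.sum_congr rfl fun d _ => by ring
    _ = n⁻¹ * n⁻¹ * ∑ η ∈ (indSet M (Subgroup.centralizer ({x} : Set G)) B).toFinite.toFinset,
          if η ∈ e then (n * η.1 s) * starRingEnd ℂ (n * η.1 t) else 0 := by
        congr 1
        refine Finset.sum_congr rfl fun η _ => ?_
        rw [hR, sum_regular_kern hM he.1 hs, sum_regular_kern hM he.1 ht]
        split_ifs <;> simp [hn]
    _ = _ := by
        rw [kern, ← Finset.sum_filter, Finset.mul_sum]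
        refine Finset.sum_congr ?_ fun η _ => ?_
        · ext η
          simp only [Finset.mem_filter, Set.Finite.mem_toFinset, and_iff_right_iff_imp]
          intro hη
          show Cfsg.IsInducedBlock M _ _ B
          rwa [← block_eq_blockOf hM he.1 hη]
        · rw [map_mul, hn, map_natCast, ← hn]
          field_simp

end Kernel

section Major

variable {G : Type u} [Group G] [Fintype G]

/-- Brauer's inequality for a major subsection. -/
theorem card_sq_le_major (hM : Cfsg.IsPModular p M) {B : Set (Cfsg.IrrCharacter G)}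
    (hB : Cfsg.IsPBlock M B) (hh : ∀ χ ∈ B, Cfsg.blockHeight p B (χ : G → ℂ) = 0)
    {x : G} {k : ℕ} (hx : orderOf x = p ^ k)
    [Fintype (Subgroup.centralizer ({x} : Set G))]
    {b : Set (Cfsg.IrrCharacter (Subgroup.centralizer ({x} : Set G)))}
    (hind : Cfsg.IsInducedBlock M (Subgroup.centralizer ({x} : Set G)) b B) :
    Nat.card B ^ 2 ≤ p ^ (2 * Cfsg.blockDefect p b) * Cfsg.blockRank p b := by
  classical
  set d := Cfsg.blockDefect p b with hd
  set aC := (Nat.card (Subgroup.centralizer ({x} : Set G))).factorization p with haC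
  have hda : d ≤ aC := Nat.sub_le _ _
  have hb := hind.1
  obtain ⟨η0, hη0, hz0⟩ := exists_height_zero (p := p) (block_nonempty hM hb)
  let z : Subgroup.centralizer ({x} : Set G) :=
    ⟨x, Subgroup.mem_centralizer_singleton_iff.2 rfl⟩
  have hz : ∀ c : Subgroup.centralizer ({x} : Set G), c * z = z * c := fun c =>
    Subtype.ext (Subgroup.mem_centralizer_singleton_iff.1 c.2)
  have hzo : orderOf z = p ^ k := by rw [← Subgroup.orderOf_coe]; exact hx
  have hwr : ∀ η : Cfsg.IrrCharacter (Subgroup.centralizer ({x} : Set G)), cw η z ^ p ^ k = 1 :=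
    fun η => hzo ▸ cw_pow η hz
  let f : Cfsg.IrrCharacter G → Subgroup.centralizer ({x} : Set G) → ℂ := fun χ c => (χ : G → ℂ) c
  have hfc : ∀ χ, Cfsg.IsCharacter _ (f χ) := fun χ =>
    Char.isCharacter_comp (Char.isCharacter_of_isIrrCharacter χ.2)
      (Subgroup.centralizer ({x} : Set G)).subtype
  have hn' : ∀ χ η, ∃ n : ℕ, Cfsg.classInner (f χ) (η : Cfsg.IrrCharacter _).1 = n := fun χ η =>
    Char.exists_nat_inner (hfc χ) (Char.isCharacter_of_isIrrCharacter η.2)
  choose n hn using hn'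
  let a : Cfsg.IrrCharacter G → Cfsg.IrrCharacter (Subgroup.centralizer ({x} : Set G)) → ℂ :=
    fun χ η => cw η z * (n χ η : ℂ)
  have hexp : ∀ χ, secFun x χ = ∑ η, a χ η • η.1 := by
    intro χ
    funext c
    have h1 := congrFun (Char.classFunction_expand (Char.isClassFunction_of_isCharacter (hfc χ)))
      (z * c)
    simp only [Finset.sum_apply, Pi.smul_apply, smul_eq_mul, hn] at h1
    show (χ : G → ℂ) (x * (c : G)) = _
    rw [show (χ : G → ℂ) (x * (c : G)) = f χ (z * c) from rfl, h1]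
    simp only [Finset.sum_apply, Pi.smul_apply, smul_eq_mul, irr_central_mul _ hz, a]
    exact Finset.sum_congr rfl fun η _ => by ring
  have hinner : ∀ χ η, Cfsg.classInner (secFun x χ) (η : Cfsg.IrrCharacter _).1 = a χ η := by
    intro χ η
    rw [hexp, Char.classInner_sum_left]
    simp only [Char.classInner_smul_left, Char.classInner_irr, mul_ite, mul_one, mul_zero]
    rw [Finset.sum_ite_eq', if_pos (Finset.mem_univ _)]
  let S := b.toFinite.toFinset
  let A : Cfsg.IrrCharacter G × Cfsg.IrrCharacter G → ℂ := fun q =>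
    ∑ η ∈ S, ∑ η' ∈ S, a q.1 η * starRingEnd ℂ (a q.2 η') * (redVal p b η η' : ℂ)
  -- the matrix is not congruent to zero
  let W : Cfsg.IrrCharacter G → ℂ := fun χ => omega η0.1 (regElt p (f χ))
  have hW : ∀ χ ∈ B, ¬ Cfsg.MemLocalIdeal M (W χ) := by
    intro χ hχ hl
    have h2 := li_induced_sub hM hind hη0 hχ (isCentral_regElt p (Char.irr_isClassFunction χ))
      (regElt_mem hM (Char.isCharacter_of_isIrrCharacter χ.2))
    rw [trunc_regElt] at h2
    have h3 := li_sub hM hl h2
    rw [sub_sub_cancel] at h3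
    exact not_li_omega_regElt hM hB hχ (hh χ hχ) hχ h3
  have hWs : ∀ χ, W χ = ∑ η ∈ S, (n χ η : ℂ) * omega η0.1 (regElt p η.1) := by
    intro χ
    have h0 : ∀ η, η ∉ b → omega η0.1 (regElt p (η : Cfsg.IrrCharacter _).1) = 0 := fun η hη =>
      omega_regElt_eq_zero hM fun h => hη (by
        rw [block_eq_blockOf hM hb hη0]; exact sameBlock_symm h)
    have h2 : ∀ φ : Subgroup.centralizer ({x} : Set G) → ℂ, omega η0.1 (regElt p φ)
        = ev φ (regElt p η0.1) / η0.1 1 := fun φ => by rw [omega, ev_regElt_symm]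
    have h3 : W χ = ∑ η, (n χ η : ℂ) * omega η0.1 (regElt p η.1) := by
      simp only [W, h2]
      conv_lhs => rw [Char.classFunction_expand (Char.isClassFunction_of_isCharacter (hfc χ))]
      simp only [hn, ev, Finset.sum_apply, Pi.smul_apply, smul_eq_mul, Finset.mul_sum]
      rw [Finset.sum_comm, Finset.sum_div]
      refine Finset.sum_congr rfl fun η _ => ?_
      rw [mul_div_assoc', Finset.mul_sum]
      congr 1
      exact Finset.sum_congr rfl fun g _ => by ring
    rw [h3]
    exact (Finset.sum_subset (Finset.subset_univ _) fun η _ hη => by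
      rw [h0 η fun h => hη (b.toFinite.mem_toFinset.2 h), mul_zero]).symm
  let D : Cfsg.IrrCharacter G → ℂ := fun χ => ∑ η ∈ S, (n χ η : ℂ) * (redDeg p b η : ℂ)
  let q : ℂ := ((Nat.card (Subgroup.centralizer ({x} : Set G)) / p ^ aC : ℕ) : ℂ)
  have hlrN : ∀ m : ℕ, Cfsg.MemLocalRing M (m : ℂ) := fun m =>
    (mem_locRing hM).1 (natCast_mem _ _)
  have hlrW : ∀ η : Cfsg.IrrCharacter (Subgroup.centralizer ({x} : Set G)),
      Cfsg.MemLocalRing M (omega η0.1 (regElt p η.1)) := fun η =>
    omega_lr hM η0 (isCentral_regElt p (Char.irr_isClassFunction η))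
      (regElt_mem hM (Char.isCharacter_of_isIrrCharacter η.2))
  have hA1 : ∀ χ ψ, Cfsg.MemLocalIdeal M (A (χ, ψ) * q - D χ * W ψ) := by
    intro χ ψ
    have e1 : D χ * W ψ = ∑ η ∈ S, ∑ η' ∈ S, (n χ η : ℂ) * (redDeg p b η : ℂ) *
        ((n ψ η' : ℂ) * omega η0.1 (regElt p η'.1)) := by
      rw [hWs ψ, Finset.sum_mul]
      exact Finset.sum_congr rfl fun η _ => Finset.mul_sum _ _ _
    rw [e1]
    simp only [A, Finset.sum_mul]
    rw [← Finset.sum_sub_distrib]
    refine li_sum hM _ fun η hη => ?_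
    rw [← Finset.sum_sub_distrib]
    refine li_sum hM _ fun η' hη' => ?_
    have hηb := b.toFinite.mem_toFinset.1 hη
    rw [mul_assoc, redVal_omega hM hb hηb, show (n χ η : ℂ) * (redDeg p b η : ℂ) *
      ((n ψ η' : ℂ) * omega η0.1 (regElt p η'.1)) = ((n χ η : ℂ) * (n ψ η' : ℂ)) *
        ((redDeg p b η : ℂ) * omega η0.1 (regElt p η'.1)) by ring]
    have hwl : ∀ η, Cfsg.MemLocalRing M (cw η z) := fun η => (mem_locRing hM).1
      (algInt_mem_locRing hM (IsIntegral.of_pow (pow_pos hM.1.pos k) (by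
        rw [hwr η]; exact isIntegral_one)))
    have hwc : ∀ η, starRingEnd ℂ (cw η z) ^ p ^ k = 1 := fun η => by rw [← map_pow, hwr, map_one]
    refine li_mul_sub_mul hM ?_ (lr_mul hM (hlrN _) (hlrW _)) ?_ ?_
    · simp only [a, map_mul, map_natCast]
      exact lr_mul hM (lr_mul hM (hwl η) (hlrN _)) (lr_mul hM ((mem_locRing hM).1
        (algInt_mem_locRing hM (IsIntegral.of_pow (pow_pos hM.1.pos k) (by
          rw [hwc η']; exact isIntegral_one)))) (hlrN _))
    · simp only [a, map_mul, map_natCast]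
      have h1 := li_mul_sub_mul hM (z := cw η z) (z' := 1) (w := starRingEnd ℂ (cw η' z)) (w' := 1)
        (hwl η) (lr_one hM) (li_root_sub_one hM (hwr η)) (li_root_sub_one hM (hwc η'))
      have h2 := li_mul hM h1 (lr_mul hM (hlrN (n χ η)) (hlrN (n ψ η')))
      convert h2 using 1
      ring
    · rw [← mul_sub]
      exact li_mul_left hM (hlrN _) (li_omega_sub hM (sameBlock_of_mem hM hb hηb hη0)
        (isCentral_regElt p (Char.irr_isClassFunction η'))
        (regElt_mem hM (Char.isCharacter_of_isIrrCharacter η'.2)))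
  let W0 : ℂ := omega η0.1 (regElt p η0.1)
  have hA2 : ∀ χ, Cfsg.MemLocalIdeal M (D χ * W0 - (redDeg p b η0 : ℂ) * W χ) := by
    intro χ
    simp only [D, hWs, Finset.sum_mul, Finset.mul_sum]
    rw [← Finset.sum_sub_distrib]
    refine li_sum hM _ fun η hη => ?_
    have hηb := b.toFinite.mem_toFinset.1 hη
    rw [show (redDeg p b η0 : ℂ) * ((n χ η : ℂ) * omega η0.1 (regElt p η.1))
        = (n χ η : ℂ) * ((redDeg p b η0 : ℂ) * omega η0.1 (regElt p η.1)) by ring,
      ← redVal_omega hM hb hη0, redVal_comm hM, redVal_omega hM hb hηb, mul_assoc, ← mul_sub,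
      ← mul_sub]
    refine li_mul_left hM (hlrN _) (li_mul_left hM (hlrN _) ?_)
    have := li_omega_sub hM (sameBlock_of_mem hM hb hη0 hηb)
      (isCentral_regElt p (Char.irr_isClassFunction η0))
      (regElt_mem hM (Char.isCharacter_of_isIrrCharacter η0.2))
    exact this
  have hlrW' : ∀ χ, Cfsg.MemLocalRing M (W χ) := fun χ =>
    omega_lr hM η0 (isCentral_regElt p (Char.isClassFunction_of_isCharacter (hfc χ)))
      (regElt_mem hM (hfc χ))
  have hA3 : ∀ χ ∈ B, ∀ ψ ∈ B, ¬ Cfsg.MemLocalIdeal M (A (χ, ψ)) := by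
    intro χ hχ ψ hψ hl
    have h1 := li_mul hM (li_mul hM hl (hlrN _ : Cfsg.MemLocalRing M q)) (hlrW η0)
    have h2 := li_mul hM (hA1 χ ψ) (hlrW η0)
    have h3 := li_mul hM (hA2 χ) (hlrW' ψ)
    have h4 : Cfsg.MemLocalIdeal M ((redDeg p b η0 : ℂ) * W χ * W ψ) := by
      have := li_sub hM (li_sub hM h1 h2) h3
      convert this using 1
      simp only [W0]
      ring
    rcases li_or_li_of_mul hM (lr_mul hM (hlrN _) (hlrW' χ)) (hlrW' ψ) h4 with h5 | h5
    · rcases li_or_li_of_mul hM (hlrN _) (hlrW' χ) h5 with h6 | h6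
      · exact not_dvd_redDeg hM hb hη0 hz0 ((li_natCast_iff hM _).1 h6)
      · exact hW χ hχ h6
    · exact hW ψ hψ h5
  -- the value of the matrix
  set R := Finset.univ.filter fun c : Subgroup.centralizer ({x} : Set G) => ¬ p ∣ orderOf c with hR
  set N : ℂ := (Nat.card (Subgroup.centralizer ({x} : Set G)) : ℂ) with hN
  let F := fun χ => Cfsg.blockPart b (secFun x χ)
  have hF : ∀ χ s, F χ s = ∑ η ∈ S, a χ η * η.1 s := by
    intro χ s
    show Cfsg.blockPart b (secFun x χ) s = _
    simp only [Cfsg.blockPart, finsum_mem_eq_finite_toFinset_sum _ b.toFinite, S]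
    refine Finset.sum_congr rfl fun η _ => ?_
    rw [← hinner χ η]
    simp only [Cfsg.classInner]
    congr 2
    refine Finset.sum_congr ?_ fun _ _ => rfl
    ext c
    simp
  have hAF : ∀ χ ψ, A (χ, ψ) = (p : ℂ) ^ d * (N⁻¹ * ∑ s ∈ R, F χ s * starRingEnd ℂ (F ψ s)) := by
    intro χ ψ
    have hreg : ∀ η ∈ S, ∀ η', (redVal p b η η' : ℂ)
        = (p : ℂ) ^ d * (N⁻¹ * ∑ s ∈ R, η.1 s * starRingEnd ℂ ((η' : Cfsg.IrrCharacter _).1 s)) := by
      intro η hη η'
      have h1 := regVal_spec hM.1 η η'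
      rw [pow_mul_redVal hM hb (b.toFinite.mem_toFinset.1 hη) η', Int.cast_mul, Int.cast_pow,
        Int.cast_natCast, Cfsg.classInner] at h1
      rw [hR, Finset.sum_filter]
      refine mul_left_cancel₀ (pow_ne_zero (aC - d) (Nat.cast_ne_zero.2 hM.1.ne_zero : (p : ℂ) ≠ 0)) ?_
      rw [← h1, ← mul_assoc ((p : ℂ) ^ (aC - d)), ← pow_add, Nat.sub_add_cancel hda, ← hN,
        Finset.mul_sum _ _ N⁻¹, Finset.mul_sum, Finset.mul_sum]
      refine Finset.sum_congr rfl fun s _ => ?_
      simp only [regFun, ← haC]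
      by_cases hs : p ∣ orderOf s
      · simp [hs]
      · simp only [hs, if_false, not_false_eq_true, if_true]; push_cast; ring
    simp only [A]
    rw [Finset.sum_congr rfl fun η hη => Finset.sum_congr rfl fun η' _ => by rw [hreg η hη η']]
    simp only [hF, map_sum, map_mul, Finset.mul_sum, Finset.sum_mul]
    conv_rhs => rw [Finset.sum_comm]; enter [2, s]; rw [Finset.sum_comm]
    conv_rhs => rw [Finset.sum_comm]
    exact Finset.sum_congr rfl fun η _ => Finset.sum_congr rfl fun η' _ =>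
      Finset.sum_congr rfl fun s _ => by ring
  let P := B.toFinite.toFinset ×ˢ B.toFinite.toFinset
  have hsum : ∑ v ∈ P, A v * starRingEnd ℂ (A v)
      = ((p ^ (2 * d) * Cfsg.blockRank p b : ℕ) : ℂ) := by
    have h1 : ∑ v ∈ P, A v * starRingEnd ℂ (A v) = (p : ℂ) ^ d * (p : ℂ) ^ d * (N⁻¹ * N⁻¹ *
        ∑ s ∈ R, ∑ t ∈ R, (∑ χ ∈ B.toFinite.toFinset, F χ s * starRingEnd ℂ (F χ t))
          * starRingEnd ℂ (∑ ψ ∈ B.toFinite.toFinset, F ψ s * starRingEnd ℂ (F ψ t))) := by
      simp only [P, Finset.sum_product, hAF, map_mul, map_pow, map_inv₀, hN, map_natCast, map_sum,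
        Complex.conj_conj, Finset.mul_sum, Finset.sum_mul]
      simp only [Finset.sum_comm (s := R) (t := B.toFinite.toFinset)]
      refine Finset.sum_congr rfl fun χ _ => Finset.sum_congr rfl fun ψ _ =>
        Finset.sum_congr rfl fun s _ => Finset.sum_congr rfl fun t _ => by ring
    have hN0 : N ≠ 0 := by rw [hN]; exact_mod_cast Nat.card_pos.ne'
    rw [h1, Nat.cast_mul, Nat.cast_pow, blockRank_eq hM hb, two_mul, pow_add]
    congr 1
    rw [Finset.sum_congr rfl fun s hs => Finset.sum_congr rfl fun t ht => by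
      rw [sum_part_mul_part hM hB hx hind (Finset.mem_filter.1 hs).2 (Finset.mem_filter.1 ht).2,
        conj_kern]]
    have h2 : ∀ s ∈ R, ∑ t ∈ R, kern b s t * kern b t s = N * kern b s s := by
      intro s hs
      have h3 : ∀ t, kern b t s = ∑ η ∈ S, η.1 t * starRingEnd ℂ (η.1 s) := fun t => rfl
      simp only [h3, Finset.mul_sum]
      rw [Finset.sum_comm]
      refine Finset.sum_congr rfl fun η hη => ?_
      rw [← mul_assoc, ← show (∑ t ∈ R, η.1 t * kern b s t) = N * η.1 s by
        rw [hR, sum_regular_kern hM hb (Finset.mem_filter.1 hs).2, if_pos (b.toFinite.mem_toFinset.1 hη),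
          hN], Finset.sum_mul]
      exact Finset.sum_congr rfl fun t _ => by ring
    rw [Finset.sum_congr rfl h2, ← Finset.mul_sum, ← mul_assoc, inv_mul_cancel_right₀ hN0]
    simp only [Cfsg.classInner, pRegularPart_apply, ite_mul, zero_mul, ← Finset.mul_sum, ← hN]
    congr 1
    rw [Finset.sum_comm (s := b.toFinite.toFinset), hR, Finset.sum_filter]
    refine Finset.sum_congr rfl fun s _ => ?_
    by_cases hs : p ∣ orderOf s
    · simp [hs]
    · simp only [hs, if_false, not_false_eq_true, if_true]; rfl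
  obtain ⟨ζ, hζ⟩ : ∃ ζ : ℂ, IsPrimitiveRoot ζ (p ^ k) :=
    ⟨_, Complex.isPrimitiveRoot_exp _ (pow_ne_zero _ hM.1.ne_zero)⟩
  haveI : NeZero (p ^ k) := ⟨pow_ne_zero _ hM.1.ne_zero⟩
  have hroot : ∀ w : ℂ, w ^ p ^ k = 1 → w ∈ IntermediateField.adjoin ℚ ({ζ} : Set ℂ) := by
    intro w hw
    obtain ⟨j, -, rfl⟩ := hζ.eq_pow_of_pow_eq_one hw
    exact pow_mem (IntermediateField.mem_adjoin_simple_self ℚ ζ) j
  have hmem : ∀ v, A v ∈ IntermediateField.adjoin ℚ ({ζ} : Set ℂ) := fun v =>
    sum_mem fun η _ => sum_mem fun η' _ => by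
      simp only [a, map_mul, map_natCast]
      exact mul_mem (mul_mem (mul_mem (hroot _ (hwr η)) (natCast_mem _ _))
        (mul_mem (hroot _ (by rw [← map_pow, hwr η', map_one])) (natCast_mem _ _))) (intCast_mem _ _)
  have hintA : ∀ v, IsIntegral ℤ (A v) := fun v =>
    IsIntegral.sum _ fun η _ => IsIntegral.sum _ fun η' _ => by
      simp only [a, map_mul, map_natCast]
      refine ((?_ : IsIntegral ℤ _).mul ?_).mul (isIntegral_algebraMap (R := ℤ) (A := ℂ))
      · exact (IsIntegral.of_pow (pow_pos hM.1.pos k) (by rw [hwr η]; exact isIntegral_one)).mul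
          (isIntegral_algebraMap (R := ℤ) (x := ((n v.1 η : ℕ) : ℤ)))
      · exact (IsIntegral.of_pow (pow_pos hM.1.pos k)
          (by rw [← map_pow, hwr η', map_one]; exact isIntegral_one)).mul
          (isIntegral_algebraMap (R := ℤ) (x := ((n v.2 η' : ℕ) : ℤ)))
  have h := card_le_sum_normSq_cyclotomic (pow_pos hM.1.pos k) hζ.pow_eq_one P A
    (fun v _ => hmem v) (fun v _ => hintA v) (fun v hv => ne_zero_of_not_li hM
      (hA3 v.1 (B.toFinite.mem_toFinset.1 (Finset.mem_product.1 hv).1) v.2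
        (B.toFinite.mem_toFinset.1 (Finset.mem_product.1 hv).2))) _ hsum
  rw [Finset.card_product, ← Set.ncard_eq_toFinset_card, ← Nat.card_coe_set_eq, ← sq] at h
  exact h

end Major

end Cfsg.Agent.Blocks
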