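import Cfsg.Agent.Blocks.BlockInd
import Cfsg.Agent.Blocks.Kernel
import Cfsg.Prelude.Def_BrauerPairs

/-!
# Brauer pairs: transport by conjugation and the normal step
-/

namespace Cfsg.Agent.Blocks

universe u v w

variable {p : ℕ} {M : Ideal Cfsg.AlgInt}

/-! ### Transport of blocks along isomorphisms -/

section Transport

variable {K : Type v} [Group K] [Finite K] {K' : Type w} [Group K'] [Finite K']

/-- The image of a set of characters under an isomorphism. -/
def imgSet (φ : K' ≃* K) (f : Set (Cfsg.IrrCharacter K)) : Set (Cfsg.IrrCharacter K') :=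
  {η | ∃ ξ ∈ f, (η : K' → ℂ) = fun k => (ξ : K → ℂ) (φ k)}

/-- The transported character. -/
def imgIrr (φ : K' ≃* K) (ξ : Cfsg.IrrCharacter K) : Cfsg.IrrCharacter K' :=
  ⟨fun k => (ξ : K → ℂ) (φ k),
    Char.isIrrCharacter_comp_of_surjective ξ.2 φ.toMonoidHom φ.surjective⟩

theorem imgIrr_apply (φ : K' ≃* K) (ξ : Cfsg.IrrCharacter K) (k : K') :
    (imgIrr φ ξ : K' → ℂ) k = (ξ : K → ℂ) (φ k) := rfl

theorem imgIrr_symm (φ : K' ≃* K) (η : Cfsg.IrrCharacter K') :
    imgIrr φ (imgIrr φ.symm η) = η :=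
  Subtype.ext (funext fun k => by simp [imgIrr_apply])

theorem imgIrr_injective (φ : K' ≃* K) : Function.Injective (imgIrr φ) := fun a b h =>
  Subtype.ext (funext fun k => by
    have := congrArg (fun η : Cfsg.IrrCharacter K' => (η : K' → ℂ) (φ.symm k)) h
    simpa [imgIrr_apply] using this)

theorem imgSet_eq (φ : K' ≃* K) (f : Set (Cfsg.IrrCharacter K)) : imgSet φ f = imgIrr φ '' f := by
  ext η
  exact ⟨fun ⟨ξ, h, h'⟩ => ⟨ξ, h, Subtype.ext h'.symm⟩, fun ⟨ξ, h, h'⟩ => ⟨ξ, h, by rw [← h']; rfl⟩⟩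

theorem centralChar_comp (φ : K' ≃* K) (ξ : K → ℂ) (k : K') :
    Cfsg.centralChar (fun k => ξ (φ k)) k = Cfsg.centralChar ξ (φ k) := by
  have h : (Subgroup.centralizer ({k} : Set K')).map φ.toMonoidHom
      = Subgroup.centralizer ({φ k} : Set K) := by
    ext y
    simp only [Subgroup.mem_map, Subgroup.mem_centralizer_singleton_iff]
    constructor
    · rintro ⟨z, hz, rfl⟩
      show φ z * φ k = φ k * φ z
      rw [← map_mul, hz, map_mul]
    · intro hy
      exact ⟨φ.symm y, φ.injective (by simp [hy]), by simp⟩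
  simp only [Cfsg.centralChar, map_one]
  rw [show (Subgroup.centralizer ({k} : Set K')).index
      = (Subgroup.centralizer ({φ k} : Set K)).index from by
    rw [← h]; exact (Subgroup.index_map_equiv _ φ).symm]

theorem isPBlock_imgSet (φ : K' ≃* K) {f : Set (Cfsg.IrrCharacter K)} (hf : Cfsg.IsPBlock M f) :
    Cfsg.IsPBlock M (imgSet φ f) := by
  obtain ⟨ξ, rfl⟩ := hf
  refine ⟨imgIrr φ ξ, ?_⟩
  ext η
  rw [imgSet_eq]
  constructor
  · rintro ⟨θ, hθ, rfl⟩ k
    show Cfsg.MemLocalIdeal M (Cfsg.centralChar (fun k => (ξ : K → ℂ) (φ k)) k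
      - Cfsg.centralChar (fun k => (θ : K → ℂ) (φ k)) k)
    rw [centralChar_comp, centralChar_comp]
    exact hθ (φ k)
  · intro hη
    refine ⟨imgIrr φ.symm η, fun g => ?_, imgIrr_symm φ η⟩
    have h := hη (φ.symm g)
    show Cfsg.MemLocalIdeal M (Cfsg.centralChar (ξ : K → ℂ) g
      - Cfsg.centralChar (fun k => (η : K' → ℂ) (φ.symm k)) g)
    rw [show (imgIrr φ ξ : K' → ℂ) = fun k => (ξ : K → ℂ) (φ k) from rfl, centralChar_comp,
      φ.apply_symm_apply] at h
    rwa [centralChar_comp φ.symm (η : K' → ℂ) g]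

theorem blockCoeff_imgSet (φ : K' ≃* K) (f : Set (Cfsg.IrrCharacter K)) (k : K') :
    Cfsg.blockCoeff (imgSet φ f) k = Cfsg.blockCoeff f (φ k) := by
  simp only [Cfsg.blockCoeff, Nat.card_congr φ.toEquiv, imgSet_eq]
  rw [finsum_mem_image (imgIrr_injective φ).injOn]
  simp only [imgIrr_apply, map_one]

end Transport

/-! ### Elements attached to pairs -/

variable {G : Type u} [Group G] [Finite G]

local notation "ℂG" => MonoidAlgebra ℂ G

/-- Conjugation of a group algebra element. -/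
noncomputable def cja (x : G) (a : MonoidAlgebra ℂ G) : MonoidAlgebra ℂ G :=
  ga fun g => a.coeff (x⁻¹ * g * x)

theorem cja_coeff (x : G) (a : ℂG) (g : G) : (cja x a).coeff g = a.coeff (x⁻¹ * g * x) := rfl

theorem cja_cja (x y : G) (a : ℂG) : cja x (cja y a) = cja (x * y) a :=
  ext_coeff fun g => by simp [cja_coeff, mul_assoc]

theorem cja_one' (a : ℂG) : cja 1 a = a := ext_coeff fun g => by simp [cja_coeff]

theorem cja_mem (hM : Cfsg.IsPModular p M) (x : G) {a : ℂG} (ha : a ∈ intAlg hM G) :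
    cja x a ∈ intAlg hM G := fun g => ha _

/-- The idempotent of a block of the centralizer, as an element of the whole group algebra. -/
noncomputable def pe (Q : Subgroup G) (f : Set (Cfsg.IrrCharacter (Subgroup.centralizer (Q : Set G)))) :
    MonoidAlgebra ℂ G :=
  emb (Subgroup.centralizer (Q : Set G)) (idem f)

theorem ga_subgroupBlockCoeff (Q : Subgroup G)
    (f : Set (Cfsg.IrrCharacter (Subgroup.centralizer (Q : Set G)))) :
    ga (Cfsg.subgroupBlockCoeff (Subgroup.centralizer (Q : Set G)) f) = pe Q f := by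
  refine ext_coeff fun g => ?_
  rw [coeff_ga, Cfsg.subgroupBlockCoeff, pe]
  by_cases h : g ∈ Subgroup.centralizer (Q : Set G)
  · rw [dif_pos h, emb_of_mem _ _ h]; rfl
  · rw [dif_neg h, emb_of_not_mem _ _ h]

theorem subset_of_idem_eq {K : Type v} [Group K] [Finite K] {A A' : Set (Cfsg.IrrCharacter K)}
    (h : idem A = idem A') : A ⊆ A' := by
  classical
  haveI := Fintype.ofFinite K
  intro χ hχ
  by_contra hn
  have h1 := congrArg (omega (χ : K → ℂ)) h
  rw [omega_idem, omega_idem, if_pos hχ, if_neg hn] at h1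
  exact one_ne_zero h1

theorem pe_injective (Q : Subgroup G) :
    Function.Injective (pe Q : Set (Cfsg.IrrCharacter (Subgroup.centralizer (Q : Set G))) → ℂG) := by
  intro f f' h
  have h1 : idem f = idem f' := ext_coeff fun k => by
    have := congrArg (fun a : ℂG => a.coeff (k : G)) h
    simpa [pe, emb_coe] using this
  exact le_antisymm (subset_of_idem_eq h1) (subset_of_idem_eq h1.symm)

theorem pe_mem (hM : Cfsg.IsPModular p M) (Q : Subgroup G)
    {f : Set (Cfsg.IrrCharacter (Subgroup.centralizer (Q : Set G)))} (hf : Cfsg.IsPBlock M f) :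
    pe Q f ∈ intAlg hM G :=
  emb_mem hM _ (idem_block_mem hM hf)

theorem pe_pInvariant_centralizer (Q : Subgroup G)
    (f : Set (Cfsg.IrrCharacter (Subgroup.centralizer (Q : Set G)))) :
    PInvariant (Subgroup.centralizer (Q : Set G)) (pe Q f) :=
  fun _ hx g => emb_conj_invariant (isCentral_idem f) hx g

theorem pe_mul_self (Q : Subgroup G) (f : Set (Cfsg.IrrCharacter (Subgroup.centralizer (Q : Set G)))) :
    pe Q f * pe Q f = pe Q f := by
  haveI := Fintype.ofFinite (Subgroup.centralizer (Q : Set G))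
  rw [pe, ← emb_mul, ← idem_inter, Set.inter_self]

theorem pe_mul_ne (hM : Cfsg.IsPModular p M) (Q : Subgroup G)
    {f f' : Set (Cfsg.IrrCharacter (Subgroup.centralizer (Q : Set G)))} (hf : Cfsg.IsPBlock M f)
    (hf' : Cfsg.IsPBlock M f') (h : f ≠ f') : pe Q f * pe Q f' = 0 := by
  haveI := Fintype.ofFinite (Subgroup.centralizer (Q : Set G))
  rw [pe, pe, ← emb_mul, ← idem_inter, (disjoint_blocks hM hf hf' h).inter_eq]
  refine ext_coeff fun g => ?_
  have h0 : idem (∅ : Set (Cfsg.IrrCharacter (Subgroup.centralizer (Q : Set G)))) = 0 :=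
    (isCentral_idem _).eq_of_omega isCentral_zero fun ψ => by
      classical simp [omega_idem, omega_zero]
  rw [h0]
  by_cases hg : g ∈ Subgroup.centralizer (Q : Set G)
  · rw [emb_of_mem _ _ hg]; simp
  · rw [emb_of_not_mem _ _ hg]; simp

theorem mem_centralizer_cj {x g : G} {Q : Subgroup G}
    (h : g ∈ Subgroup.centralizer ((cj x Q : Subgroup G) : Set G)) :
    x⁻¹ * g * x ∈ Subgroup.centralizer (Q : Set G) := by
  refine Subgroup.mem_centralizer_iff.2 fun q hq => ?_
  have h1 := Subgroup.mem_centralizer_iff.1 h (x * q * x⁻¹) (mem_cj.2 (by simpa [mul_assoc] using hq))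
  calc q * (x⁻¹ * g * x) = x⁻¹ * ((x * q * x⁻¹) * g) * x := by group
    _ = x⁻¹ * (g * (x * q * x⁻¹)) * x := by rw [h1]
    _ = x⁻¹ * g * x * q := by group

theorem mem_centralizer_cj' {x g : G} {Q : Subgroup G} (h : g ∈ Subgroup.centralizer (Q : Set G)) :
    x * g * x⁻¹ ∈ Subgroup.centralizer ((cj x Q : Subgroup G) : Set G) := by
  have := mem_centralizer_cj (x := x⁻¹) (g := g) (Q := cj x Q) (by rwa [cj_inv_self])
  simpa using this

/-- Conjugation between centralizers. -/
def cjC (x : G) (Q : Subgroup G) :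
    Subgroup.centralizer ((cj x Q : Subgroup G) : Set G) ≃* Subgroup.centralizer (Q : Set G) where
  toFun c := ⟨x⁻¹ * c * x, mem_centralizer_cj c.2⟩
  invFun c := ⟨x * c * x⁻¹, mem_centralizer_cj' c.2⟩
  left_inv c := Subtype.ext (by simp [mul_assoc])
  right_inv c := Subtype.ext (by simp [mul_assoc])
  map_mul' a b := Subtype.ext (by simp [mul_assoc])

theorem conjBlock_eq (x : G) (Q : Subgroup G)
    (f : Set (Cfsg.IrrCharacter (Subgroup.centralizer (Q : Set G)))) :
    Cfsg.conjBlock Q x f = imgSet (cjC x Q) f := by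
  ext η
  constructor
  · rintro ⟨ξ, hξ, h⟩
    refine ⟨ξ, hξ, funext fun c => h (cjC x Q c) c ?_⟩
    show (c : G) = x * (x⁻¹ * c * x) * x⁻¹
    group
  · rintro ⟨ξ, hξ, h⟩
    refine ⟨ξ, hξ, fun c c' hc => ?_⟩
    rw [h]
    refine congrArg ξ.1 (Subtype.ext ?_)
    show x⁻¹ * (c' : G) * x = c
    rw [hc]; group

theorem pe_imgSet (x : G) (Q : Subgroup G)
    (f : Set (Cfsg.IrrCharacter (Subgroup.centralizer (Q : Set G)))) :
    pe (cj x Q) (imgSet (cjC x Q) f) = cja x (pe Q f) := by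
  refine ext_coeff fun g => ?_
  rw [cja_coeff, pe, pe]
  by_cases hg : g ∈ Subgroup.centralizer ((cj x Q : Subgroup G) : Set G)
  · rw [emb_of_mem _ _ hg, emb_of_mem _ _ (mem_centralizer_cj hg)]
    show Cfsg.blockCoeff _ _ = Cfsg.blockCoeff _ _
    rw [blockCoeff_imgSet]
    rfl
  · rw [emb_of_not_mem _ _ hg, emb_of_not_mem _ _]
    intro h
    refine hg ?_
    have := mem_centralizer_cj' (x := x) h
    simpa [mul_assoc] using this

theorem cj_eq_self_of_mem_normalizer {x : G} {Q : Subgroup G}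
    (hx : x ∈ Subgroup.normalizer (Q : Set G)) : cj x Q = Q := by
  ext g
  rw [mem_cj]
  have := (Subgroup.mem_normalizer_iff.1 hx (x⁻¹ * g * x))
  rw [this]
  simp [mul_assoc]

/-- The conjugate of a block by an element of the normalizer, inside the same centralizer. -/
theorem exists_conj_block {x : G} {Q : Subgroup G} (hx : x ∈ Subgroup.normalizer (Q : Set G))
    {f : Set (Cfsg.IrrCharacter (Subgroup.centralizer (Q : Set G)))} (hf : Cfsg.IsPBlock M f) :
    ∃ f' : Set (Cfsg.IrrCharacter (Subgroup.centralizer (Q : Set G))), Cfsg.IsPBlock M f' ∧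
      pe Q f' = cja x (pe Q f) ∧
      ∀ η : Cfsg.IrrCharacter (Subgroup.centralizer (Q : Set G)), η ∈ f' ↔
        ∃ ξ ∈ f, Cfsg.IsConjCharOf (Subgroup.centralizer (Q : Set G)) x ξ.1 η.1 := by
  have key : ∀ (R : Subgroup G), R = cj x Q → ∃ f' : Set (Cfsg.IrrCharacter (Subgroup.centralizer (R : Set G))),
      Cfsg.IsPBlock M f' ∧ pe R f' = cja x (pe Q f) ∧
      ∀ η : Cfsg.IrrCharacter (Subgroup.centralizer (R : Set G)), η ∈ f' ↔
        ∃ ξ ∈ f, ∀ (c : Subgroup.centralizer (Q : Set G)) (c' : Subgroup.centralizer (R : Set G)),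
          (c' : G) = x * (c : G) * x⁻¹ → η.1 c' = ξ.1 c := by
    rintro R rfl
    refine ⟨imgSet (cjC x Q) f, isPBlock_imgSet _ hf, pe_imgSet x Q f, fun η => ?_⟩
    rw [← conjBlock_eq]
    rfl
  exact key Q (cj_eq_self_of_mem_normalizer hx).symm

theorem stabilizesBlock_iff (hM : Cfsg.IsPModular p M) {x : G} {Q : Subgroup G}
    (hx : x ∈ Subgroup.normalizer (Q : Set G))
    {f : Set (Cfsg.IrrCharacter (Subgroup.centralizer (Q : Set G)))} (hf : Cfsg.IsPBlock M f) :
    Cfsg.StabilizesBlock (Subgroup.centralizer (Q : Set G)) f x ↔ cja x (pe Q f) = pe Q f := by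
  obtain ⟨f', hf', hpe, hmem⟩ := exists_conj_block hx hf
  have hn : x ∈ Subgroup.normalizer ((Subgroup.centralizer (Q : Set G)) : Set G) := by
    refine Subgroup.mem_normalizer_iff.2 fun g => ⟨fun hg => ?_, fun hg => ?_⟩
    · have := mem_centralizer_cj' (x := x) hg
      rwa [cj_eq_self_of_mem_normalizer hx] at this
    · have h2 : x * g * x⁻¹ ∈ Subgroup.centralizer ((cj x Q : Subgroup G) : Set G) := by
        rwa [cj_eq_self_of_mem_normalizer hx]
      have := mem_centralizer_cj h2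
      simpa [mul_assoc] using this
  constructor
  · rintro ⟨-, h⟩
    obtain ⟨ξ, hξ⟩ := block_nonempty hM hf
    obtain ⟨χ', hχ', hc⟩ := h ξ hξ
    have : χ' ∈ f' := (hmem χ').2 ⟨ξ, hξ, hc⟩
    rw [← hpe, show f' = f by
      by_contra hne
      exact Set.disjoint_left.1 (disjoint_blocks hM hf' hf hne) this hχ']
  · intro h
    rw [← hpe] at h
    have hff := pe_injective Q h
    refine ⟨hn, fun χ hχ => ?_⟩
    refine ⟨imgIrr (⟨⟨fun c => ⟨x⁻¹ * c * x, by
        have := (Subgroup.mem_normalizer_iff.1 hn (x⁻¹ * c * x)).2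
        exact this (by simpa [mul_assoc] using c.2)⟩,
      fun c => ⟨x * c * x⁻¹, (Subgroup.mem_normalizer_iff.1 hn c).1 c.2⟩,
      fun c => Subtype.ext (by simp [mul_assoc]), fun c => Subtype.ext (by simp [mul_assoc])⟩,
      fun a b => Subtype.ext (by simp [mul_assoc])⟩ :
        Subgroup.centralizer (Q : Set G) ≃* Subgroup.centralizer (Q : Set G)) χ, ?_, ?_⟩
    · rw [← hff, hmem]
      refine ⟨χ, hχ, fun k k' hk => ?_⟩
      show χ.1 _ = χ.1 k
      refine congrArg χ.1 (Subtype.ext ?_)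
      show x⁻¹ * (k' : G) * x = k
      rw [hk]; group
    · refine fun k k' hk => ?_
      show χ.1 _ = χ.1 k
      refine congrArg χ.1 (Subtype.ext ?_)
      show x⁻¹ * (k' : G) * x = k
      rw [hk]; group

/-! ### The functional of a pair -/

/-- The central character at the truncation to `C(P)`. -/
noncomputable def pval (P : Subgroup G) [Fintype ↥(Subgroup.centralizer (P : Set G))]
    (ξ : Subgroup.centralizer (P : Set G) → ℂ) (a : MonoidAlgebra ℂ G) : ℂ :=
  omega ξ (trunc (Subgroup.centralizer (P : Set G)) ((Subgroup.centralizer (P : Set G)) : Set G) a)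

/-- The pair `(P, e)` is hit by `a`. -/
def Hits (M : Ideal Cfsg.AlgInt) (P : Subgroup G)
    (e : Set (Cfsg.IrrCharacter (Subgroup.centralizer (P : Set G)))) (a : MonoidAlgebra ℂ G) : Prop :=
  ∀ ξ ∈ e, Cfsg.MemLocalIdeal M
    (Cfsg.brauerOmega P (fun g => a.coeff g) (ξ : Subgroup.centralizer (P : Set G) → ℂ) - 1)

theorem brauerOmega_eq (P : Subgroup G) [Fintype ↥(Subgroup.centralizer (P : Set G))] (a : ℂG)
    (ξ : Subgroup.centralizer (P : Set G) → ℂ) :
    Cfsg.brauerOmega P (fun g => a.coeff g) ξ = pval P ξ a := by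
  classical
  rw [Cfsg.brauerOmega, finsum_eq_sum_of_fintype, pval, omega, ev, Finset.sum_div]
  refine Finset.sum_congr rfl fun x _ => ?_
  rw [trunc_coeff, if_pos (SetLike.mem_coe.2 x.2)]

theorem isNormalSubpair_iff (hM : Cfsg.IsPModular p M) {Q P : Subgroup G}
    {f : Set (Cfsg.IrrCharacter (Subgroup.centralizer (Q : Set G)))}
    {e : Set (Cfsg.IrrCharacter (Subgroup.centralizer (P : Set G)))} :
    Cfsg.IsNormalSubpair p M Q f P e ↔ Cfsg.IsBrauerPair p M Q f ∧ Cfsg.IsBrauerPair p M P e ∧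
      Q ≤ P ∧ P ≤ Subgroup.normalizer (Q : Set G) ∧ (∀ x ∈ P, cja x (pe Q f) = pe Q f) ∧
      Hits M P e (pe Q f) := by
  have hg : (fun g => (pe Q f).coeff g) = Cfsg.subgroupBlockCoeff (Subgroup.centralizer (Q : Set G)) f := by
    funext g; rw [← ga_subgroupBlockCoeff]; rfl
  constructor
  · rintro ⟨h1, h2, h3, h4, h5, h6⟩
    exact ⟨h1, h2, h3, h4, fun x hx => (stabilizesBlock_iff hM (h4 hx) h1.2).1 (h5 x hx),
      by unfold Hits; rw [hg]; exact h6⟩
  · rintro ⟨h1, h2, h3, h4, h5, h6⟩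
    refine ⟨h1, h2, h3, h4, fun x hx => (stabilizesBlock_iff hM (h4 hx) h1.2).2 (h5 x hx), ?_⟩
    unfold Hits at h6; rwa [hg] at h6

theorem isBrauerPairOf_iff {P : Subgroup G} {B : Set (Cfsg.IrrCharacter G)}
    {e : Set (Cfsg.IrrCharacter (Subgroup.centralizer (P : Set G)))} :
    Cfsg.IsBrauerPairOf p M B P e ↔
      Cfsg.IsBrauerPair p M P e ∧ Cfsg.IsPBlock M B ∧ Hits M P e (idem B) := Iff.rfl

section Value

variable {P : Subgroup G} [Fintype ↥(Subgroup.centralizer (P : Set G))]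

theorem pval_one (ξ : Cfsg.IrrCharacter (Subgroup.centralizer (P : Set G))) :
    pval P ξ.1 (1 : ℂG) = 1 := by
  rw [pval, trunc_one _ (Subgroup.one_mem _), omega_one]

theorem pval_add (ξ : Subgroup.centralizer (P : Set G) → ℂ) (a b : ℂG) :
    pval P ξ (a + b) = pval P ξ a + pval P ξ b := by
  rw [pval, trunc_add, omega_add]; rfl

theorem pval_zero (ξ : Subgroup.centralizer (P : Set G) → ℂ) : pval P ξ (0 : ℂG) = 0 := by
  have := pval_add ξ (0 : ℂG) 0
  rw [add_zero] at this
  linear_combination -this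

theorem pval_sub (ξ : Subgroup.centralizer (P : Set G) → ℂ) (a b : ℂG) :
    pval P ξ (a - b) = pval P ξ a - pval P ξ b := by
  have := pval_add ξ (a - b) b
  rw [sub_add_cancel] at this
  linear_combination -this

theorem pval_sum (ξ : Subgroup.centralizer (P : Set G) → ℂ) {ι : Type*} (s : Finset ι) (a : ι → ℂG) :
    pval P ξ (∑ i ∈ s, a i) = ∑ i ∈ s, pval P ξ (a i) := by
  classical
  induction s using Finset.induction_on with
  | empty => simp [pval_zero]
  | insert i s hi ih => rw [Finset.sum_insert hi, pval_add, ih, Finset.sum_insert hi]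

theorem isCentral_truncC {a : ℂG} (ha : PInvariant (Subgroup.centralizer (P : Set G)) a) :
    IsCentral (trunc (Subgroup.centralizer (P : Set G)) ((Subgroup.centralizer (P : Set G)) : Set G) a) := by
  classical
  intro h x
  rw [trunc_coeff, trunc_coeff, if_pos (SetLike.mem_coe.2 (x * h * x⁻¹).2),
    if_pos (SetLike.mem_coe.2 h.2)]
  exact ha (x : G) x.2 (h : G)

theorem pval_mul (hM : Cfsg.IsPModular p M) (hP : IsPGroup p P)
    (ξ : Cfsg.IrrCharacter (Subgroup.centralizer (P : Set G))) {a b : ℂG}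
    (ha : a ∈ intAlg hM G) (hb : b ∈ intAlg hM G)
    (hPa : PInvariant P a) (hCa : PInvariant (Subgroup.centralizer (P : Set G)) a)
    (hPb : PInvariant P b) (hCb : PInvariant (Subgroup.centralizer (P : Set G)) b)
    (hCab : PInvariant (Subgroup.centralizer (P : Set G)) (a * b)) :
    Cfsg.MemLocalIdeal M (pval P ξ.1 (a * b) - pval P ξ.1 a * pval P ξ.1 b) := by
  unfold pval
  rw [← omega_mul ξ (isCentral_truncC hCa)]
  exact LiEq.omega hM ξ (isCentral_truncC hCab) ((isCentral_truncC hCa).mul (isCentral_truncC hCb))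
    (trunc_mul hM hP le_rfl ha hb hPa hPb)

theorem pval_lr (hM : Cfsg.IsPModular p M) (ξ : Cfsg.IrrCharacter (Subgroup.centralizer (P : Set G)))
    {a : ℂG} (ha : a ∈ intAlg hM G) (hCa : PInvariant (Subgroup.centralizer (P : Set G)) a) :
    Cfsg.MemLocalRing M (pval P ξ.1 a) :=
  omega_lr hM ξ (isCentral_truncC hCa) (trunc_mem hM _ _ ha)

theorem pval_li_of_coeff (hM : Cfsg.IsPModular p M)
    (ξ : Cfsg.IrrCharacter (Subgroup.centralizer (P : Set G))) {a : ℂG}
    (hCa : PInvariant (Subgroup.centralizer (P : Set G)) a)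
    (h : ∀ g ∈ Subgroup.centralizer (P : Set G), Cfsg.MemLocalIdeal M (a.coeff g)) :
    Cfsg.MemLocalIdeal M (pval P ξ.1 a) := by
  classical
  refine li_omega hM ξ (isCentral_truncC hCa) fun k => ?_
  rw [trunc_coeff, if_pos (SetLike.mem_coe.2 k.2)]
  exact h _ k.2

theorem pval_congr (hM : Cfsg.IsPModular p M)
    {ξ η : Cfsg.IrrCharacter (Subgroup.centralizer (P : Set G))}
    (h : Cfsg.SameBlock M ξ.1 η.1) {a : ℂG}
    (ha : a ∈ intAlg hM G) (hCa : PInvariant (Subgroup.centralizer (P : Set G)) a) :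
    Cfsg.MemLocalIdeal M (pval P ξ.1 a - pval P η.1 a) :=
  li_omega_sub hM h (isCentral_truncC hCa) (trunc_mem hM _ _ ha)

theorem hits_of_mem (hM : Cfsg.IsPModular p M)
    {e : Set (Cfsg.IrrCharacter (Subgroup.centralizer (P : Set G)))} (he : Cfsg.IsPBlock M e)
    {a : ℂG} (ha : a ∈ intAlg hM G) (hCa : PInvariant (Subgroup.centralizer (P : Set G)) a)
    {ξ : Cfsg.IrrCharacter (Subgroup.centralizer (P : Set G))} (hξ : ξ ∈ e)
    (h : Cfsg.MemLocalIdeal M (pval P ξ.1 a - 1)) : Hits M P e a := by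
  intro η hη
  rw [brauerOmega_eq]
  have h2 := li_add hM (pval_congr hM (sameBlock_of_mem hM he hη hξ) ha hCa) h
  convert h2 using 1
  ring

theorem Hits.pval {e : Set (Cfsg.IrrCharacter (Subgroup.centralizer (P : Set G)))} {a : ℂG}
    (h : Hits M P e a) {ξ : Cfsg.IrrCharacter (Subgroup.centralizer (P : Set G))} (hξ : ξ ∈ e) :
    Cfsg.MemLocalIdeal M (Blocks.pval P ξ.1 a - 1) := by
  rw [← brauerOmega_eq]; exact h ξ hξ

/-- An idempotent takes the values zero and one. -/
theorem pval_idem (hM : Cfsg.IsPModular p M) (hP : IsPGroup p P)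
    (ξ : Cfsg.IrrCharacter (Subgroup.centralizer (P : Set G))) {a : ℂG}
    (ha : a ∈ intAlg hM G) (ha2 : a * a = a)
    (hPa : PInvariant P a) (hCa : PInvariant (Subgroup.centralizer (P : Set G)) a) :
    Cfsg.MemLocalIdeal M (pval P ξ.1 a) ∨ Cfsg.MemLocalIdeal M (pval P ξ.1 a - 1) := by
  have h := pval_mul hM hP ξ ha ha hPa hCa hPa hCa (by rwa [ha2])
  rw [ha2] at h
  have hl := pval_lr hM ξ ha hCa
  refine li_or_li_of_mul hM hl ((mem_locRing hM).1 (sub_mem ((mem_locRing hM).2 hl) (one_mem _))) ?_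
  have := li_neg h
  convert this using 1
  ring

end Value

/-- Truncated coefficients of an invariant idempotent: nonzero values force nonzero values of some
character. -/
theorem exists_pval_ne (hM : Cfsg.IsPModular p M) {P : Subgroup G}
    [Fintype ↥(Subgroup.centralizer (P : Set G))] (hP : IsPGroup p P) {a : ℂG}
    (ha : a ∈ intAlg hM G) (ha2 : a * a = a)
    (hPa : PInvariant P a) (hCa : PInvariant (Subgroup.centralizer (P : Set G)) a)
    {g : G} (hg : g ∈ Subgroup.centralizer (P : Set G)) (hne : ¬ Cfsg.MemLocalIdeal M (a.coeff g)) :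
    ∃ e : Set (Cfsg.IrrCharacter (Subgroup.centralizer (P : Set G))),
      Cfsg.IsPBlock M e ∧ Hits M P e a := by
  classical
  haveI := Fintype.ofFinite G
  by_contra hcon
  push Not at hcon
  refine hne ?_
  have hall : ∀ ξ : Cfsg.IrrCharacter (Subgroup.centralizer (P : Set G)),
      Cfsg.MemLocalIdeal M (pval P ξ.1 a) := fun ξ =>
    (pval_idem hM hP ξ ha ha2 hPa hCa).resolve_right fun h =>
      hcon (Cfsg.blockOf M ξ.1) ⟨ξ, rfl⟩
        (hits_of_mem hM ⟨ξ, rfl⟩ ha hCa (self_mem_blockOf hM ξ) h)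
  have h2 := trunc_mul hM hP (le_refl (Subgroup.centralizer (P : Set G))) ha ha hPa hPa
  rw [ha2] at h2
  have h3 := li_of_idem hM (isCentral_truncC hCa) (trunc_mem hM _ _ ha) h2.symm hall ⟨g, hg⟩
  rwa [trunc_coeff, if_pos (SetLike.mem_coe.2 hg)] at h3

/-- The normal step: exactly one stable block lies below. -/
theorem existsUnique_step (hM : Cfsg.IsPModular p M) {P Q : Subgroup G}
    {e : Set (Cfsg.IrrCharacter (Subgroup.centralizer (P : Set G)))}
    (hPe : Cfsg.IsBrauerPair p M P e) (hQP : Q ≤ P)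
    (hPN : P ≤ Subgroup.normalizer (Q : Set G)) :
    ∃! f : Set (Cfsg.IrrCharacter (Subgroup.centralizer (Q : Set G))),
      Cfsg.IsNormalSubpair p M Q f P e := by
  classical
  haveI := Fintype.ofFinite G
  haveI := Fintype.ofFinite (Subgroup.centralizer (P : Set G))
  haveI := Fintype.ofFinite (Subgroup.centralizer (Q : Set G))
  have hQ : IsPGroup p Q := hPe.1.to_le hQP
  have hCC : Subgroup.centralizer (P : Set G) ≤ Subgroup.centralizer (Q : Set G) :=
    Subgroup.centralizer_le hQP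
  obtain ⟨ξ, hξ⟩ := block_nonempty hM hPe.2
  -- the finitely many idempotents
  let bl : Cfsg.IrrCharacter (Subgroup.centralizer (Q : Set G)) → Set (Cfsg.IrrCharacter (Subgroup.centralizer (Q : Set G))) :=
    fun η => Cfsg.blockOf M η.1
  let Bs := Finset.univ.image bl
  have hBs : ∀ f ∈ Bs, Cfsg.IsPBlock M f := by
    intro f hf
    obtain ⟨η, -, rfl⟩ := Finset.mem_image.1 hf
    exact ⟨η, rfl⟩
  have hBs' : ∀ f, Cfsg.IsPBlock M f → f ∈ Bs := by
    rintro f ⟨η, rfl⟩
    exact Finset.mem_image_of_mem bl (Finset.mem_univ η)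
  have hone : ∑ f ∈ Bs, pe Q f = (1 : ℂG) := by
    have h1 : (∑ f ∈ Bs, idem f) = (1 : MonoidAlgebra ℂ (Subgroup.centralizer (Q : Set G))) := by
      refine (IsCentral.eq_of_omega (fun g x => ?_) isCentral_one fun η => ?_)
      · simp only [coeff_sum']
        exact Finset.sum_congr rfl fun B _ => isCentral_idem B g x
      · rw [omega_sum, omega_one, Finset.sum_eq_single (bl η)]
        · rw [omega_idem, if_pos (self_mem_blockOf hM η)]
        · intro B hB hne
          obtain ⟨ψ, -, rfl⟩ := Finset.mem_image.1 hB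
          rw [omega_idem, if_neg (show η ∉ bl ψ from fun h => hne (blockOf_eq_of_sameBlock hM h))]
        · exact fun h => absurd (Finset.mem_image_of_mem bl (Finset.mem_univ η)) h
    rw [← emb_one (Subgroup.centralizer (Q : Set G)), ← h1]
    exact (map_sum (AddMonoidHom.mk' (emb (Subgroup.centralizer (Q : Set G))) (emb_add _)) _ _).symm
  let S := {a : ℂG // a ∈ Bs.image (pe Q)}
  have hSmem : ∀ x ∈ P, ∀ a ∈ Bs.image (pe Q), cja x a ∈ Bs.image (pe Q) := by
    intro x hx a ha
    obtain ⟨f, hf, rfl⟩ := Finset.mem_image.1 ha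
    obtain ⟨f', hf', hpe, -⟩ := exists_conj_block (hPN hx) (hBs f hf)
    exact Finset.mem_image.2 ⟨f', hBs' f' hf', hpe⟩
  letI : MulAction P S :=
    { smul := fun x a => ⟨cja (x : G) a.1, hSmem _ x.2 _ a.2⟩
      one_smul := fun a => Subtype.ext (cja_one' a.1)
      mul_smul := fun x y a => Subtype.ext (cja_cja (x : G) y a.1).symm }
  have hCinv : ∀ f : Set (Cfsg.IrrCharacter (Subgroup.centralizer (Q : Set G))),
      PInvariant (Subgroup.centralizer (P : Set G)) (pe Q f) := fun f x hx g =>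
    pe_pInvariant_centralizer Q f x (hCC hx) g
  have hPinv : ∀ f : Set (Cfsg.IrrCharacter (Subgroup.centralizer (Q : Set G))),
      (∀ x ∈ P, cja x (pe Q f) = pe Q f) → PInvariant P (pe Q f) := by
    intro f h x hx g
    conv_lhs => rw [← h x hx, cja_coeff]
    simp [mul_assoc]
  -- coefficients on the centralizer
  have hcoef : ∀ g ∈ Subgroup.centralizer (P : Set G), Cfsg.MemLocalIdeal M
      ((1 : ℂG).coeff g - (∑ f ∈ Bs.filter (fun f => ∀ x ∈ P, cja x (pe Q f) = pe Q f), pe Q f).coeff g) := by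
    intro g hg
    have h1 := li_sum_sub_sum_fixed hM hPe.1 (fun a : S => a.1.coeff g) (fun a => by
      obtain ⟨f, hf, ha⟩ := Finset.mem_image.1 a.2
      rw [← ha]
      exact pe_mem hM Q (hBs f hf) g) (fun x a => by
      show a.1.coeff ((x : G)⁻¹ * g * (x : G)) = a.1.coeff g
      congr 1
      rw [mul_assoc, ← Subgroup.mem_centralizer_iff.1 hg (x : G) x.2, inv_mul_cancel_left])
    have e1 : ∑ a : S, a.1.coeff g = (1 : ℂG).coeff g := by
      rw [Finset.sum_coe_sort (Bs.image (pe Q)) (fun a : ℂG => a.coeff g),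
        Finset.sum_image (pe_injective Q).injOn, ← coeff_sum', hone]
    have e2 : ∑ a ∈ Finset.univ.filter (fun a : S => a ∈ MulAction.fixedPoints P S), a.1.coeff g
        = (∑ f ∈ Bs.filter (fun f => ∀ x ∈ P, cja x (pe Q f) = pe Q f), pe Q f).coeff g := by
      rw [coeff_sum']
      symm
      refine Finset.sum_bij (fun f hf => (⟨pe Q f, Finset.mem_image_of_mem _ (Finset.mem_filter.1 hf).1⟩ : S))
        ?_ ?_ ?_ ?_
      · intro f hf
        exact Finset.mem_filter.2 ⟨Finset.mem_univ _, fun x =>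
          Subtype.ext ((Finset.mem_filter.1 hf).2 _ x.2)⟩
      · intro f _ f' _ h
        exact pe_injective Q (congrArg Subtype.val h)
      · intro a ha
        obtain ⟨f, hf, hfa⟩ := Finset.mem_image.1 a.2
        refine ⟨f, Finset.mem_filter.2 ⟨hf, fun x hx => ?_⟩, Subtype.ext hfa⟩
        rw [hfa]
        exact congrArg Subtype.val ((Finset.mem_filter.1 ha).2 (⟨x, hx⟩ : P))
      · intro f _; rfl
    rwa [e1, e2] at h1
  set Fs := Bs.filter (fun f => ∀ x ∈ P, cja x (pe Q f) = pe Q f) with hFs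
  have hone_inv : PInvariant (Subgroup.centralizer (P : Set G)) (1 : ℂG) :=
    isCentral_one.pInvariant _
  have hsum_inv : PInvariant (Subgroup.centralizer (P : Set G)) (∑ f ∈ Fs, pe Q f) := by
    intro x hx g
    simp only [coeff_sum']
    exact Finset.sum_congr rfl fun f _ => hCinv f x hx g
  have htot : Cfsg.MemLocalIdeal M (1 - ∑ f ∈ Fs, pval P ξ.1 (pe Q f)) := by
    rw [← pval_sum, ← pval_one ξ, ← pval_sub]
    refine pval_li_of_coeff hM ξ (fun x hx g => ?_) fun g hg => ?_
    · simp only [MonoidAlgebra.coeff_sub, Finsupp.sub_apply, hone_inv x hx g, hsum_inv x hx g]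
    · rw [MonoidAlgebra.coeff_sub, Finsupp.sub_apply]; exact hcoef g hg
  obtain ⟨f, hf, hfne⟩ : ∃ f ∈ Fs, ¬ Cfsg.MemLocalIdeal M (pval P ξ.1 (pe Q f)) := by
    by_contra h
    push Not at h
    have := li_add hM htot (li_sum hM Fs h)
    rw [sub_add_cancel] at this
    exact not_li_one hM this
  obtain ⟨hfB, hfs⟩ := Finset.mem_filter.1 hf
  have hf1 := (pval_idem hM hPe.1 ξ (pe_mem hM Q (hBs f hfB)) (pe_mul_self Q f)
    (hPinv f hfs) (hCinv f)).resolve_left hfne
  refine ⟨f, (isNormalSubpair_iff hM).2 ⟨⟨hQ, hBs f hfB⟩, hPe, hQP, hPN, hfs,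
    hits_of_mem hM hPe.2 (pe_mem hM Q (hBs f hfB)) (hCinv f) hξ hf1⟩, ?_⟩
  intro f' hf'
  obtain ⟨h1, -, -, -, hs', hh'⟩ := (isNormalSubpair_iff hM).1 hf'
  by_contra hne
  have h2 := pval_mul hM hPe.1 ξ (pe_mem hM Q (hBs f hfB)) (pe_mem hM Q h1.2) (hPinv f hfs)
    (hCinv f) (hPinv f' hs') (hCinv f') (by
      rw [pe_mul_ne hM Q (hBs f hfB) h1.2 (Ne.symm hne)]; exact fun _ _ _ => rfl)
  rw [pe_mul_ne hM Q (hBs f hfB) h1.2 (Ne.symm hne), pval_zero, zero_sub] at h2
  have h3 := hh'.pval hξ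
  rcases li_or_li_of_mul hM (pval_lr hM ξ (pe_mem hM Q (hBs f hfB)) (hCinv f))
    (pval_lr hM ξ (pe_mem hM Q h1.2) (hCinv f')) (by simpa using li_neg h2) with h | h
  · exact hfne h
  · exact not_li_one hM (by simpa using li_sub hM h h3)

end Cfsg.Agent.Blocks
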