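import Cfsg.Agent.Blocks.ExtFirstMain
import Cfsg.Agent.Blocks.SecondMain
import Cfsg.Prelude.Def_BlockFusion

/-!
# Defect groups of the local blocks of a pair
-/

namespace Cfsg.Agent.Blocks

universe u

variable {p : ℕ} {M : Ideal Cfsg.AlgInt} {G : Type u} [Group G] [Fintype G]

/-- The elements fixing an element of the group algebra. -/
def fixer (a : MonoidAlgebra ℂ G) : Subgroup G where
  carrier := {x | cja x a = a}
  mul_mem' := fun {x y} (hx : cja x a = a) (hy : cja y a = a) =>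
    show cja (x * y) a = a by rw [← cja_cja, hy, hx]
  one_mem' := cja_one' a
  inv_mem' := fun {x} (hx : cja x a = a) => show cja x⁻¹ a = a by
    conv_lhs => rw [← hx]
    rw [cja_cja, inv_mul_cancel, cja_one']

theorem cja_of_pInvariant {S : Subgroup G} {a : MonoidAlgebra ℂ G} (h : PInvariant S a) {x : G}
    (hx : x ∈ S) : cja x a = a := ext_coeff fun g => by
  rw [cja_coeff]
  have := h x⁻¹ (S.inv_mem hx) g
  rwa [inv_inv] at this

theorem isBrauerPair_of_le (hM : Cfsg.IsPModular p M) {Q P : Subgroup G}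
    {f : Set (Cfsg.IrrCharacter (Subgroup.centralizer (Q : Set G)))}
    {e : Set (Cfsg.IrrCharacter (Subgroup.centralizer (P : Set G)))}
    (he : Cfsg.IsBrauerPair p M P e) (h : Cfsg.SubpairLE p M Q f P e) :
    Cfsg.IsBrauerPair p M Q f := by
  have key : ∀ a : Cfsg.BrauerPairIdx G, Relation.ReflTransGen (Cfsg.NormalSubpairRel p M) a ⟨P, e⟩ →
      Cfsg.IsBrauerPair p M a.1 a.2 := by
    intro a ha
    induction ha using Relation.ReflTransGen.head_induction_on with
    | refl => exact he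
    | head hab _ _ => exact ((isNormalSubpair_iff hM).1 hab).1
  exact key ⟨Q, f⟩ h

theorem eq_of_le_of_le (hM : Cfsg.IsPModular p M) {Q P : Subgroup G}
    {f f' : Set (Cfsg.IrrCharacter (Subgroup.centralizer (Q : Set G)))}
    {e : Set (Cfsg.IrrCharacter (Subgroup.centralizer (P : Set G)))}
    (he : Cfsg.IsBrauerPair p M P e) (h : Cfsg.SubpairLE p M Q f P e)
    (h' : Cfsg.SubpairLE p M Q f' P e) : f = f' :=
  (existsUnique_below hM he (le_of_chain hM h)).unique ⟨(isBrauerPair_of_le hM he h).2, h⟩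
    ⟨(isBrauerPair_of_le hM he h').2, h'⟩

/-- The normal step inside a containing pair. -/
theorem exists_above (hM : Cfsg.IsPModular p M) {Q P : Subgroup G}
    {f : Set (Cfsg.IrrCharacter (Subgroup.centralizer (Q : Set G)))}
    {e : Set (Cfsg.IrrCharacter (Subgroup.centralizer (P : Set G)))}
    (he : Cfsg.IsBrauerPair p M P e) (h : Cfsg.SubpairLE p M Q f P e) :
    ∃ g : Set (Cfsg.IrrCharacter (Subgroup.centralizer
        ((P ⊓ Subgroup.normalizer (Q : Set G) : Subgroup G) : Set G))),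
      Cfsg.IsNormalSubpair p M Q f (P ⊓ Subgroup.normalizer (Q : Set G)) g ∧
        Cfsg.SubpairLE p M (P ⊓ Subgroup.normalizer (Q : Set G)) g P e := by
  obtain ⟨g, ⟨hg, hgle⟩, -⟩ := existsUnique_below hM he
    (inf_le_left : P ⊓ Subgroup.normalizer (Q : Set G) ≤ P)
  obtain ⟨f', hf', -⟩ := existsUnique_step hM (isBrauerPair_of_le hM he hgle)
    (le_inf (le_of_chain hM h) Subgroup.le_normalizer : Q ≤ P ⊓ Subgroup.normalizer (Q : Set G))
    inf_le_right
  have : f = f' := eq_of_le_of_le hM he h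
    (Relation.ReflTransGen.head (show Cfsg.NormalSubpairRel p M ⟨Q, f'⟩
      ⟨P ⊓ Subgroup.normalizer (Q : Set G), g⟩ from hf') hgle)
  subst this
  exact ⟨g, hf', hgle⟩

variable {Q : Subgroup G} {f : Set (Cfsg.IrrCharacter (Subgroup.centralizer (Q : Set G)))}
  {H : Subgroup G} [Fintype H] {F : Set (Cfsg.IrrCharacter H)}

/-- A normal step gives a lower bound for the defect group. -/
theorem exists_le_defect (hM : Cfsg.IsPModular p M) (hCH : Subgroup.centralizer (Q : Set G) ≤ H)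
    (hF : Cfsg.IsPBlock M F) (hFe : emb H (idem F) = pe Q f) {R : Subgroup G}
    {g : Set (Cfsg.IrrCharacter (Subgroup.centralizer (R : Set G)))}
    (h : Cfsg.IsNormalSubpair p M Q f R g) :
    ∃ D : Subgroup H, Cfsg.IsDefectGroup p M F D ∧ (R ⊓ H).subgroupOf H ≤ D := by
  classical
  haveI := Fintype.ofFinite (Subgroup.centralizer (R : Set G))
  obtain ⟨h1, h2, h3, -, -, h6⟩ := (isNormalSubpair_iff hM).1 h
  obtain ⟨η, hη⟩ := block_nonempty hM h2.2
  have hRC : Subgroup.centralizer (R : Set G) ≤ Subgroup.centralizer (Q : Set G) :=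
    Subgroup.centralizer_le h3
  obtain ⟨c, hc, hcne⟩ : ∃ c ∈ Subgroup.centralizer (R : Set G),
      ¬ Cfsg.MemLocalIdeal M ((pe Q f).coeff c) := by
    by_contra hcon
    push Not at hcon
    have := li_sub hM (pval_li_of_coeff hM η
      (fun x hx => pe_pInvariant_centralizer Q f x (hRC hx)) hcon) (h6.pval hη)
    rw [sub_sub_cancel] at this
    exact not_li_one hM this
  rw [← hFe, emb_of_mem _ _ (hCH (hRC hc))] at hcne
  obtain ⟨D, hD⟩ := exists_defectGroup hM hF
  obtain ⟨y, hy⟩ := cj_le_defect hM hF hD hcne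
    ((h2.1.to_le inf_le_left : IsPGroup p (R ⊓ H : Subgroup G)).comap_of_injective H.subtype
      (Subgroup.subtype_injective _))
    (fun q hq => Subgroup.mem_centralizer_singleton_iff.2 (Subtype.ext
      (Subgroup.mem_centralizer_iff.1 hc (q : G) hq.1)))
  refine ⟨cj y⁻¹ D, isDefectGroup_cj hD y⁻¹, ?_⟩
  rw [← cj_inv_self y ((R ⊓ H).subgroupOf H)]
  exact cj_mono _ hy

omit [Fintype H] in
theorem normalSubpair_back (hM : Cfsg.IsPModular p M) {P : Subgroup G}
    {e : Set (Cfsg.IrrCharacter (Subgroup.centralizer (P : Set G)))}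
    (he : Cfsg.IsBrauerPair p M P e) {x : G}
    (hx : Cfsg.SubpairLE p M (cj x Q) (imgSet (cjC x Q) f) P e) :
    ∃ g : Set (Cfsg.IrrCharacter (Subgroup.centralizer
        ((cj x⁻¹ (P ⊓ Subgroup.normalizer ((cj x Q : Subgroup G) : Set G)) : Subgroup G) : Set G))),
      Cfsg.IsNormalSubpair p M Q f (cj x⁻¹ (P ⊓ Subgroup.normalizer ((cj x Q : Subgroup G) : Set G))) g := by
  obtain ⟨g, hg, -⟩ := exists_above hM he hx
  have h := normalSubpairRel_cp hM x⁻¹ (a := ⟨cj x Q, imgSet (cjC x Q) f⟩) (b := ⟨_, g⟩) hg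
  have hb : cp x⁻¹ (⟨cj x Q, imgSet (cjC x Q) f⟩ : Cfsg.BrauerPairIdx G) = ⟨Q, f⟩ := by
    show cp x⁻¹ (cp x ⟨Q, f⟩) = _
    rw [cp_cp, inv_mul_cancel, cp_one]
  rw [hb] at h
  exact ⟨_, h⟩

omit [Fintype H] in
/-- The conjugated centralizer part. -/
theorem cj_inv_inf_le (hHN : H ≤ Subgroup.normalizer (Q : Set G)) (P : Subgroup G) (x : G) :
    cj x⁻¹ P ⊓ H ≤ cj x⁻¹ (P ⊓ Subgroup.normalizer ((cj x Q : Subgroup G) : Set G)) := by
  rintro u ⟨hu1, hu2⟩
  rw [mem_cj, inv_inv]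
  refine ⟨by simpa using mem_cj.1 hu1, Subgroup.mem_normalizer_iff.2 fun q => ?_⟩
  show q ∈ cj x Q ↔ _ ∈ cj x Q
  rw [mem_cj, mem_cj, Subgroup.mem_normalizer_iff.1 (hHN hu2) (x⁻¹ * q * x)]
  simp [mul_assoc]

theorem exists_le_defect_conj (hM : Cfsg.IsPModular p M) (hCH : Subgroup.centralizer (Q : Set G) ≤ H)
    (hHN : H ≤ Subgroup.normalizer (Q : Set G))
    (hF : Cfsg.IsPBlock M F) (hFe : emb H (idem F) = pe Q f) {P : Subgroup G}
    {e : Set (Cfsg.IrrCharacter (Subgroup.centralizer (P : Set G)))}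
    (he : Cfsg.IsBrauerPair p M P e) {x : G}
    (hx : Cfsg.SubpairLE p M (cj x Q) (imgSet (cjC x Q) f) P e) :
    ∃ D : Subgroup H, Cfsg.IsDefectGroup p M F D ∧ (cj x⁻¹ P ⊓ H).subgroupOf H ≤ D := by
  obtain ⟨g, hg⟩ := normalSubpair_back hM he hx
  obtain ⟨D, hD, hle⟩ := exists_le_defect hM hCH hF hFe hg
  refine ⟨D, hD, fun u hu => hle ?_⟩
  exact ⟨cj_inv_inf_le hHN P x hu, u.2⟩

theorem exists_conj_of_defect (hM : Cfsg.IsPModular p M) (hCH : Subgroup.centralizer (Q : Set G) ≤ H)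
    (hHN : H ≤ Subgroup.normalizer (Q : Set G)) (hfix : H ≤ fixer (pe Q f))
    (hF : Cfsg.IsPBlock M F) (hFe : emb H (idem F) = pe Q f) {B : Set (Cfsg.IrrCharacter G)}
    {P : Subgroup G} {e : Set (Cfsg.IrrCharacter (Subgroup.centralizer (P : Set G)))}
    (hmax : Cfsg.IsMaximalBrauerPair p M B P e) (hle : Cfsg.SubpairLE p M Q f P e)
    {D : Subgroup H} (hD : Cfsg.IsDefectGroup p M F D) :
    ∃ x : G, Cfsg.SubpairLE p M (cj x Q) (imgSet (cjC x Q) f) P e ∧
      D.map H.subtype ≤ cj x⁻¹ P ⊓ H := by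
  classical
  haveI : Fact p.Prime := ⟨hM.1⟩
  obtain ⟨w, hw, hwD⟩ := isDefectGroup_iff.1 hD
  have hQf := isBrauerPair_of_le hM hmax.1.1 hle
  have hwC : (w : G) ∈ Subgroup.centralizer (Q : Set G) := by
    by_contra hc
    apply hw.2.1
    rw [show Cfsg.blockCoeff F w = (idem F).coeff w from rfl, ← emb_coe H (idem F) w, hFe, pe,
      emb_of_not_mem _ _ hc]
    exact li_zero hM
  have hDp : IsPGroup p (D.map H.subtype) := hwD.2.1.map _
  have hDH : D.map H.subtype ≤ H := Subgroup.map_subtype_le _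
  have hR : IsPGroup p (Q ⊔ D.map H.subtype : Subgroup G) := by
    rw [sup_comm]
    exact hDp.to_sup_of_normal_right' hQf.1 (hDH.trans hHN)
  haveI := Fintype.ofFinite (Subgroup.centralizer ((Q ⊔ D.map H.subtype : Subgroup G) : Set G))
  have hwR : (w : G) ∈ Subgroup.centralizer ((Q ⊔ D.map H.subtype : Subgroup G) : Set G) := by
    refine mem_centralizer_iff_le.2 (sup_le (mem_centralizer_iff_le.1 hwC) ?_)
    rintro g ⟨a, ha, rfl⟩
    exact Subgroup.mem_centralizer_singleton_iff.2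
      (congrArg Subtype.val (Subgroup.mem_centralizer_singleton_iff.1 (hwD.1 ha)))
  have hRfix : Q ⊔ D.map H.subtype ≤ fixer (pe Q f) :=
    sup_le (fun x hx => cja_of_pInvariant (pe_pInvariant_self Q f) hx) (hDH.trans hfix)
  have hne : ¬ Cfsg.MemLocalIdeal M ((pe Q f).coeff (w : G)) := by
    rw [← hFe, emb_coe]; exact hw.2.1
  have hCR : Subgroup.centralizer ((Q ⊔ D.map H.subtype : Subgroup G) : Set G)
      ≤ Subgroup.centralizer (Q : Set G) := Subgroup.centralizer_le (le_sup_left : Q ≤ _)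
  obtain ⟨g, hg, hh⟩ := exists_pval_ne hM hR (pe_mem hM Q hQf.2) (pe_mul_self Q f)
    (pInvariant_of_cja fun x hx => hRfix hx)
    (fun x hx => pe_pInvariant_centralizer Q f x (hCR hx)) hwR hne
  have hsub : Cfsg.IsNormalSubpair p M Q f (Q ⊔ D.map H.subtype) g :=
    (isNormalSubpair_iff hM).2 ⟨hQf, ⟨hR, hg⟩, le_sup_left,
      sup_le Subgroup.le_normalizer (hDH.trans hHN), fun x hx => hRfix hx, hh⟩
  have hRB : Cfsg.IsBrauerPairOf p M B (Q ⊔ D.map H.subtype) g :=
    (isBrauerPairOf_step hM hsub B).2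
      ((isBrauerPairOf_chain hM (a := ⟨Q, f⟩) (b := ⟨P, e⟩) hle B).1 hmax.1)
  obtain ⟨x, hx⟩ := exists_conj_le_maximal hM hmax hRB
  have h1 : Cfsg.SubpairLE p M (cj x Q) (imgSet (cjC x Q) f) (cj x (Q ⊔ D.map H.subtype))
      (imgSet (cjC x (Q ⊔ D.map H.subtype)) g) :=
    subpairLE_cp hM x (Relation.ReflTransGen.single hsub)
  refine ⟨x, Relation.ReflTransGen.trans h1 hx, le_inf ?_ hDH⟩
  rw [← cj_inv_self x (D.map H.subtype)]
  exact cj_mono _ ((cj_mono x le_sup_right).trans (le_of_chain hM hx))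

/-- When the given part is a defect group. -/
theorem isDefectGroup_iff_max (hM : Cfsg.IsPModular p M) (hCH : Subgroup.centralizer (Q : Set G) ≤ H)
    (hHN : H ≤ Subgroup.normalizer (Q : Set G)) (hfix : H ≤ fixer (pe Q f))
    (hF : Cfsg.IsPBlock M F) (hFe : emb H (idem F) = pe Q f) {B : Set (Cfsg.IrrCharacter G)}
    {P : Subgroup G} {e : Set (Cfsg.IrrCharacter (Subgroup.centralizer (P : Set G)))}
    (hmax : Cfsg.IsMaximalBrauerPair p M B P e) (hle : Cfsg.SubpairLE p M Q f P e) :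
    Cfsg.IsDefectGroup p M F ((P ⊓ H).subgroupOf H) ↔
      ∀ x : G, Cfsg.SubpairLE p M (cj x Q) (imgSet (cjC x Q) f) P e →
        Nat.card (cj x⁻¹ P ⊓ H : Subgroup G) ≤ Nat.card (P ⊓ H : Subgroup G) := by
  constructor
  · intro hD x hx
    obtain ⟨D2, hD2, hle2⟩ := exists_le_defect_conj hM hCH hHN hF hFe hmax.1.1 hx
    obtain ⟨y, hy⟩ := defectGroup_conj hM hF hD2 hD
    calc Nat.card (cj x⁻¹ P ⊓ H : Subgroup G)
        = Nat.card ((cj x⁻¹ P ⊓ H).subgroupOf H) :=
          (Nat.card_congr (Subgroup.subgroupOfEquivOfLe inf_le_right).toEquiv).symm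
      _ ≤ Nat.card D2 := Subgroup.card_le_of_le hle2
      _ = Nat.card ((P ⊓ H).subgroupOf H) := by rw [← hy, card_cj]
      _ = _ := Nat.card_congr (Subgroup.subgroupOfEquivOfLe inf_le_right).toEquiv
  · intro h
    obtain ⟨g, hg, -⟩ := exists_above hM hmax.1.1 hle
    obtain ⟨D, hD, hle0⟩ := exists_le_defect hM hCH hF hFe hg
    obtain ⟨x, hx, hDx⟩ := exists_conj_of_defect hM hCH hHN hfix hF hFe hmax hle hD
    have h1 : (P ⊓ H).subgroupOf H ≤ D := fun u hu => hle0 ⟨⟨hu.1, hHN hu.2⟩, hu.2⟩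
    have h2 : Nat.card D ≤ Nat.card ((P ⊓ H).subgroupOf H) := by
      rw [Nat.card_congr (Subgroup.subgroupOfEquivOfLe
          (inf_le_right : P ⊓ H ≤ H)).toEquiv,
        Nat.card_congr (D.equivMapOfInjective H.subtype (Subgroup.subtype_injective H)).toEquiv]
      exact (Subgroup.card_le_of_le hDx).trans (h x hx)
    rwa [eq_of_le_of_card_le' h1 h2]

/-- The local block exists. -/
theorem exists_local_block (hM : Cfsg.IsPModular p M) (hQf : Cfsg.IsBrauerPair p M Q f)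
    (hCH : Subgroup.centralizer (Q : Set G) ≤ H) (hQH : Q ≤ H)
    (hHN : H ≤ Subgroup.normalizer (Q : Set G)) (hfix : H ≤ fixer (pe Q f)) :
    ∃ F : Set (Cfsg.IrrCharacter H), Cfsg.IsPBlock M F ∧ emb H (idem F) = pe Q f := by
  classical
  haveI := Fintype.ofFinite (Subgroup.centralizer (Q : Set G))
  set z : MonoidAlgebra ℂ H := trunc H Set.univ (pe Q f) with hz
  have hez : emb H z = pe Q f := by
    refine ext_coeff fun g => ?_
    by_cases hg : g ∈ H
    · rw [emb_of_mem _ _ hg, hz, trunc_coeff, if_pos (Set.mem_univ _)]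
    · rw [emb_of_not_mem _ _ hg, pe, emb_of_not_mem _ _ fun h => hg (hCH h)]
  have hzc : IsCentral z := by
    intro h y
    rw [hz, trunc_coeff, trunc_coeff, if_pos (Set.mem_univ _), if_pos (Set.mem_univ _)]
    exact pInvariant_of_cja (fun x hx => hfix hx) (y : G) y.2 (h : G)
  have hz2 : z * z = z := by
    have h1 : emb H (z * z) = emb H z := by rw [emb_mul, hez, pe_mul_self]
    have h2 := congrArg (trunc H (H : Set G)) h1
    rwa [trunc_emb_self, trunc_emb_self] at h2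
  let A : Set (Cfsg.IrrCharacter H) := {χ | omega χ.1 z = 1}
  have h01 : ∀ χ : Cfsg.IrrCharacter H, omega χ.1 z = 0 ∨ omega χ.1 z = 1 := by
    intro χ
    have h := omega_mul χ hzc z
    rw [hz2] at h
    rcases eq_or_ne (omega χ.1 z) 0 with h0 | h0
    · exact Or.inl h0
    · exact Or.inr (mul_left_cancel₀ h0 (by rw [mul_one]; exact h.symm))
  have hzA : z = idem A := hzc.eq_of_omega (isCentral_idem A) fun χ => by
    rw [omega_idem]
    split_ifs with hχ
    · exact hχ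
    · exact (h01 χ).resolve_right hχ
  have hAu : IsBlockUnion M A :=
    isBlockUnion_of_mem hM (hzA ▸ trunc_mem hM H _ (pe_mem hM Q hQf.2))
  obtain ⟨η, hη⟩ := block_nonempty hM hQf.2
  have hpv : ∀ η' : Cfsg.IrrCharacter (Subgroup.centralizer (Q : Set G)),
      pval Q η'.1 (pe Q f) = if η' ∈ f then 1 else 0 := fun η' => by
    rw [pval, pe, trunc_emb_self, omega_idem]
  have hinvC : ∀ c : Set (Cfsg.IrrCharacter H), PInvariant H (emb H (idem c)) :=
    fun c x hx g => emb_conj_invariant (isCentral_idem c) hx g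
  have hhit : ∀ c : Set (Cfsg.IrrCharacter H), Cfsg.IsPBlock M c → c ⊆ A →
      Hits M Q f (emb H (idem c)) := by
    intro c hc hcA
    obtain ⟨D, hD⟩ := exists_defectGroup hM hc
    obtain ⟨w, hw, hwD⟩ := isDefectGroup_iff.1 hD
    haveI := subgroupOf_normal_of_le_normalizer hHN
    have hQD : Q.subgroupOf H ≤ D :=
      normal_le_defect hM hc hD (hQf.1.comap_of_injective H.subtype (Subgroup.subtype_injective _))
    have hwC : (w : G) ∈ Subgroup.centralizer (Q : Set G) := Subgroup.mem_centralizer_iff.2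
      fun q hq => congrArg Subtype.val (Subgroup.mem_centralizer_singleton_iff.1
        (hwD.1 (hQD (show (⟨q, hQH hq⟩ : H) ∈ Q.subgroupOf H from hq))))
    have hce : emb H (idem c) * emb H (idem c) = emb H (idem c) := by
      rw [← emb_mul, ← idem_inter, Set.inter_self]
    obtain ⟨e', he', hh⟩ := exists_pval_ne hM hQf.1 (emb_mem hM H (idem_block_mem hM hc)) hce
      (fun x hx => hinvC c x (hQH hx)) (fun x hx => hinvC c x (hCH hx)) hwC
      (by rw [emb_coe]; exact hw.2.1)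
    obtain ⟨η', hη'⟩ := block_nonempty hM he'
    by_cases hfe : e' = f
    · subst hfe; exact hh
    exfalso
    have hn : η' ∉ f := Set.disjoint_left.1 (disjoint_blocks hM he' hQf.2 hfe) hη'
    have hprod : emb H (idem c) * pe Q f = emb H (idem c) := by
      rw [← hez, hzA, ← emb_mul, ← idem_inter, Set.inter_eq_left.2 hcA]
    have h1 := pval_mul hM hQf.1 η' (emb_mem hM H (idem_block_mem hM hc)) (pe_mem hM Q hQf.2)
      (fun x hx => hinvC c x (hQH hx)) (fun x hx => hinvC c x (hCH hx))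
      (pe_pInvariant_self Q f) (pe_pInvariant_centralizer Q f)
      (by rw [hprod]; exact fun x hx => hinvC c x (hCH hx))
    rw [hprod, hpv, if_neg hn, mul_zero, sub_zero] at h1
    have h2 := li_sub hM h1 (hh.pval hη')
    rw [sub_sub_cancel] at h2
    exact not_li_one hM h2
  obtain ⟨F, hF, hφ⟩ := (isModHom_trunc_emb hM hQf.1 hQH hCH η).exists_block
  obtain ⟨ξ, hξ⟩ := block_nonempty hM hF
  have hξA : ξ ∈ A := by
    have h := hφ ξ hξ z hzc (trunc_mem hM H _ (pe_mem hM Q hQf.2))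
    rw [hez, show omega η.1 (trunc _ _ (pe Q f)) = pval Q η.1 (pe Q f) from rfl, hpv, if_pos hη] at h
    refine (h01 ξ).resolve_left fun h0 => ?_
    rw [h0, sub_zero] at h
    exact not_li_one hM h
  have hFA : F ⊆ A := by
    rw [block_eq_blockOf hM hF hξ]; exact hAu ξ hξA
  refine ⟨F, hF, ?_⟩
  rw [← hez, hzA]
  congr 2
  refine Set.Subset.antisymm hFA fun ξ' hξ' => ?_
  have hc : Cfsg.IsPBlock M (Cfsg.blockOf M ξ'.1) := ⟨ξ', rfl⟩
  have := eq_of_hits_common hM hQf.1 hQH hCH hc hF hQf.2 (hhit _ hc (hAu ξ' hξ'))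
    (hhit _ hF hFA)
  rw [← this]
  exact self_mem_blockOf hM ξ'

omit [Fintype H] in
theorem emb_eq_iff (hCH : Subgroup.centralizer (Q : Set G) ≤ H) (F : Set (Cfsg.IrrCharacter H)) :
    (∀ t : H, Cfsg.blockCoeff F t
      = Cfsg.subgroupBlockCoeff (Subgroup.centralizer (Q : Set G)) f (t : G))
      ↔ emb H (idem F) = pe Q f := by
  constructor
  · intro h
    refine ext_coeff fun g => ?_
    by_cases hg : g ∈ H
    · rw [emb_of_mem _ _ hg, ← ga_subgroupBlockCoeff, coeff_ga]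
      exact h ⟨g, hg⟩
    · rw [emb_of_not_mem _ _ hg, pe, emb_of_not_mem _ _ fun h => hg (hCH h)]
  · intro h t
    have := congrArg (fun a : MonoidAlgebra ℂ G => a.coeff (t : G)) h
    simp only [emb_coe, ← ga_subgroupBlockCoeff, coeff_ga] at this
    exact this

/-- The centralizer is a local group. -/
theorem centralizer_local (f : Set (Cfsg.IrrCharacter (Subgroup.centralizer (Q : Set G)))) :
    Subgroup.centralizer (Q : Set G) ≤ fixer (pe Q f) :=
  fun _ hx => cja_of_pInvariant (pe_pInvariant_centralizer Q f) hx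

omit [Fintype H] in
theorem stabilizer_local (hM : Cfsg.IsPModular p M) (hf : Cfsg.IsPBlock M f) {T : Subgroup G}
    (hT : ∀ y : G, y ∈ T ↔ y ∈ Subgroup.normalizer (Q : Set G) ∧
      Cfsg.StabilizesBlock (Subgroup.centralizer (Q : Set G)) f y) :
    Subgroup.centralizer (Q : Set G) ≤ T ∧ Q ≤ T ∧ T ≤ Subgroup.normalizer (Q : Set G) ∧
      T ≤ fixer (pe Q f) ∧ Subgroup.normalizer (Q : Set G) ⊓ fixer (pe Q f) ≤ T := by
  have hiff : ∀ y, y ∈ T ↔ y ∈ Subgroup.normalizer (Q : Set G) ∧ cja y (pe Q f) = pe Q f := fun y =>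
    (hT y).trans ⟨fun h => ⟨h.1, (stabilizesBlock_iff hM h.1 hf).1 h.2⟩,
      fun h => ⟨h.1, (stabilizesBlock_iff hM h.1 hf).2 h.2⟩⟩
  exact ⟨fun y hy => (hiff y).2 ⟨Subgroup.centralizer_le_normalizer _ hy, centralizer_local f hy⟩,
    fun y hy => (hiff y).2 ⟨Subgroup.le_normalizer hy, cja_of_pInvariant (pe_pInvariant_self Q f) hy⟩,
    fun y hy => ((hiff y).1 hy).1, fun y hy => ((hiff y).1 hy).2, fun y hy => (hiff y).2 ⟨hy.1, hy.2⟩⟩

omit [Fintype H] in
theorem card_cent_conj (P : Subgroup G) (x : G) :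
    Nat.card (cj x⁻¹ P ⊓ Subgroup.centralizer (Q : Set G) : Subgroup G)
      = Nat.card (P ⊓ Subgroup.centralizer ((cj x Q : Subgroup G) : Set G) : Subgroup G) := by
  rw [← card_cj x⁻¹ (P ⊓ Subgroup.centralizer ((cj x Q : Subgroup G) : Set G))]
  refine Nat.card_congr (Equiv.subtypeEquivRight fun u => ?_)
  rw [mem_cj, inv_inv, Subgroup.mem_inf, Subgroup.mem_inf, mem_cj, inv_inv]
  refine and_congr_right fun _ => ⟨fun h => mem_centralizer_cj' h, fun h => ?_⟩
  have h2 := mem_centralizer_cj h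
  simpa [mul_assoc] using h2

omit [Fintype H] in
theorem conj_inf_stab (hM : Cfsg.IsPModular p M) {T : Subgroup G}
    (hf : Cfsg.IsPBlock M f)
    (hT : ∀ y : G, y ∈ T ↔ y ∈ Subgroup.normalizer (Q : Set G) ∧
      Cfsg.StabilizesBlock (Subgroup.centralizer (Q : Set G)) f y)
    {P : Subgroup G} {e : Set (Cfsg.IrrCharacter (Subgroup.centralizer (P : Set G)))}
    (he : Cfsg.IsBrauerPair p M P e) {x : G}
    (hx : Cfsg.SubpairLE p M (cj x Q) (imgSet (cjC x Q) f) P e) :
    cj x⁻¹ P ⊓ T = cj x⁻¹ (P ⊓ Subgroup.normalizer ((cj x Q : Subgroup G) : Set G)) := by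
  obtain ⟨-, -, hTN, -, hT'⟩ := stabilizer_local hM hf hT
  obtain ⟨g, hg⟩ := normalSubpair_back hM he hx
  obtain ⟨-, -, -, h4, h5, -⟩ := (isNormalSubpair_iff hM).1 hg
  refine le_antisymm (cj_inv_inf_le hTN P x) (le_inf (cj_mono _ inf_le_left) fun u hu => ?_)
  exact hT' ⟨h4 hu, h5 u hu⟩

omit [Fintype H] in
theorem inf_stab (hM : Cfsg.IsPModular p M) {T : Subgroup G}
    (hf : Cfsg.IsPBlock M f)
    (hT : ∀ y : G, y ∈ T ↔ y ∈ Subgroup.normalizer (Q : Set G) ∧
      Cfsg.StabilizesBlock (Subgroup.centralizer (Q : Set G)) f y)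
    {P : Subgroup G} {e : Set (Cfsg.IrrCharacter (Subgroup.centralizer (P : Set G)))}
    (he : Cfsg.IsBrauerPair p M P e) (hle : Cfsg.SubpairLE p M Q f P e) :
    P ⊓ T = P ⊓ Subgroup.normalizer (Q : Set G) := by
  obtain ⟨-, -, hTN, -, hT'⟩ := stabilizer_local hM hf hT
  obtain ⟨g, hg, -⟩ := exists_above hM he hle
  obtain ⟨-, -, -, -, h5, -⟩ := (isNormalSubpair_iff hM).1 hg
  exact le_antisymm (inf_le_inf_left P hTN) (le_inf inf_le_left fun u hu => hT' ⟨hu.2, h5 u hu⟩)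

/-! ### Conjugates in the fusion system -/

omit [Fintype H] in
theorem isConj_iff_conj (hM : Cfsg.IsPModular p M) {B : Set (Cfsg.IrrCharacter G)}
    {P : Subgroup G} {e : Set (Cfsg.IrrCharacter (Subgroup.centralizer (P : Set G)))}
    {S : Cfsg.FusionSystem P} (hS : Cfsg.IsBlockFusionSystemOn p M B P e S)
    (hQP : Q ≤ P) (hle : Cfsg.SubpairLE p M Q f P e) {Q' : Subgroup G} :
    S.IsConj Q Q' ↔ ∃ x : G, cj x Q = Q' ∧
      Cfsg.SubpairLE p M (cj x Q) (imgSet (cjC x Q) f) P e := by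
  constructor
  · rintro ⟨φ, hφ, hr⟩
    obtain ⟨-, x, hx, -, f', hf', hf''⟩ := (hS.2 Q φ).1 hφ
    refine ⟨x, ?_, ?_⟩
    · rw [← hr]
      ext u
      rw [mem_cj, MonoidHom.mem_range]
      refine ⟨fun hu => ⟨⟨_, hu⟩, by rw [hx]; simp [mul_assoc]⟩, ?_⟩
      rintro ⟨v, rfl⟩
      rw [hx]
      simp [mul_assoc]
    · rw [eq_of_le_of_le hM hS.1.1.1 hle hf', ← conjBlock_eq]
      exact hf''
  · rintro ⟨x, rfl, hx⟩
    refine ⟨(MulAut.conj x).toMonoidHom.comp Q.subtype,
      (hS.2 Q _).2 ⟨hQP, x, fun u => rfl, le_of_chain hM hx, f, hle, ?_⟩, ?_⟩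
    · rw [conjBlock_eq]; exact hx
    · rw [MonoidHom.range_comp, Subgroup.range_subtype]; rfl

end Cfsg.Agent.Blocks
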