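import Cfsg.Agent.Blocks.PairBasic
import Cfsg.Agent.Blocks.SecondMain
import Mathlib.GroupTheory.Nilpotent

/-!
# Brauer pairs: uniqueness of subpairs and maximal pairs
-/

namespace Cfsg.Agent.Blocks

universe u

variable {p : ℕ} {M : Ideal Cfsg.AlgInt} {G : Type u} [Group G] [Finite G]

local notation "ℂG" => MonoidAlgebra ℂ G

/-! ### Conjugation of pairs -/

/-- Conjugation on the index type of pairs. -/
def cp (x : G) (a : Cfsg.BrauerPairIdx G) : Cfsg.BrauerPairIdx G :=
  ⟨cj x a.1, imgSet (cjC x a.1) a.2⟩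

theorem idx_eq {a b : Cfsg.BrauerPairIdx G} (h : a.1 = b.1) (h' : pe a.1 a.2 = pe b.1 b.2) : a = b := by
  obtain ⟨Q, f⟩ := a
  obtain ⟨Q', f'⟩ := b
  dsimp only at h h'
  subst h
  rw [pe_injective Q h']

theorem cp_cp (x y : G) (a : Cfsg.BrauerPairIdx G) : cp x (cp y a) = cp (x * y) a := by
  refine idx_eq (cj_cj x y a.1) ?_
  show pe (cj x (cj y a.1)) _ = pe (cj (x * y) a.1) _
  simp only [cp]
  rw [pe_imgSet, pe_imgSet, pe_imgSet, cja_cja]

theorem cp_one (a : Cfsg.BrauerPairIdx G) : cp 1 a = a := by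
  refine idx_eq (cj_one a.1) ?_
  show pe (cj 1 a.1) _ = _
  simp only [cp]
  rw [pe_imgSet, cja_one']

theorem hits_cj (x : G) {P : Subgroup G}
    {e : Set (Cfsg.IrrCharacter (Subgroup.centralizer (P : Set G)))} {a : ℂG}
    (h : Hits M P e a) : Hits M (cj x P) (imgSet (cjC x P) e) (cja x a) := by
  classical
  haveI := Fintype.ofFinite (Subgroup.centralizer (P : Set G))
  haveI := Fintype.ofFinite (Subgroup.centralizer ((cj x P : Subgroup G) : Set G))
  rintro η ⟨ξ, hξ, hη⟩
  have h1 := h ξ hξ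
  convert h1 using 2
  simp only [Cfsg.brauerOmega, finsum_eq_sum_of_fintype, hη, map_one]
  exact Fintype.sum_equiv (cjC x P).toEquiv _ _ fun c => rfl

theorem isBrauerPair_cp (x : G) {Q : Subgroup G}
    {f : Set (Cfsg.IrrCharacter (Subgroup.centralizer (Q : Set G)))}
    (h : Cfsg.IsBrauerPair p M Q f) : Cfsg.IsBrauerPair p M (cj x Q) (imgSet (cjC x Q) f) :=
  ⟨isPGroup_cj h.1 x, isPBlock_imgSet _ h.2⟩

theorem normalSubpairRel_cp (hM : Cfsg.IsPModular p M) (x : G) {a b : Cfsg.BrauerPairIdx G}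
    (h : Cfsg.NormalSubpairRel p M a b) : Cfsg.NormalSubpairRel p M (cp x a) (cp x b) := by
  obtain ⟨h1, h2, h3, h4, h5, h6⟩ := (isNormalSubpair_iff hM).1 h
  refine (isNormalSubpair_iff hM).2 ⟨isBrauerPair_cp x h1, isBrauerPair_cp x h2, cj_mono x h3, ?_, ?_, ?_⟩
  · intro y hy
    have hu := Subgroup.mem_normalizer_iff.1 (h4 (mem_cj.1 hy))
    refine Subgroup.mem_normalizer_iff.2 fun g => ?_
    show g ∈ cj x a.1 ↔ _ ∈ cj x a.1
    rw [mem_cj, mem_cj, hu (x⁻¹ * g * x)]
    simp [mul_assoc]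
  · intro y hy
    show cja y (pe (cj x a.1) (imgSet (cjC x a.1) a.2)) = pe (cj x a.1) (imgSet (cjC x a.1) a.2)
    rw [pe_imgSet, cja_cja, show y * x = x * (x⁻¹ * y * x) by group, ← cja_cja,
      h5 _ (mem_cj.1 hy)]
  · show Hits M (cj x b.1) (imgSet (cjC x b.1) b.2) (pe (cj x a.1) (imgSet (cjC x a.1) a.2))
    rw [pe_imgSet]
    exact hits_cj x h6

theorem subpairLE_cp (hM : Cfsg.IsPModular p M) (x : G) {Q P : Subgroup G}
    {f : Set (Cfsg.IrrCharacter (Subgroup.centralizer (Q : Set G)))}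
    {e : Set (Cfsg.IrrCharacter (Subgroup.centralizer (P : Set G)))}
    (h : Cfsg.SubpairLE p M Q f P e) :
    Cfsg.SubpairLE p M (cj x Q) (imgSet (cjC x Q) f) (cj x P) (imgSet (cjC x P) e) :=
  Relation.ReflTransGen.lift (cp x) (fun _ _ hab => normalSubpairRel_cp hM x hab) _ _ h

theorem cja_idem (x : G) (B : Set (Cfsg.IrrCharacter G)) : cja x (idem B) = idem B :=
  ext_coeff fun g => by
    rw [cja_coeff]
    have := isCentral_idem B g x⁻¹
    simpa using this

theorem isBrauerPairOf_cp (x : G) {B : Set (Cfsg.IrrCharacter G)} {P : Subgroup G}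
    {e : Set (Cfsg.IrrCharacter (Subgroup.centralizer (P : Set G)))}
    (h : Cfsg.IsBrauerPairOf p M B P e) :
    Cfsg.IsBrauerPairOf p M B (cj x P) (imgSet (cjC x P) e) := by
  obtain ⟨h1, h2, h3⟩ := isBrauerPairOf_iff.1 h
  have h4 := hits_cj x h3
  rw [cja_idem] at h4
  exact isBrauerPairOf_iff.2 ⟨isBrauerPair_cp x h1, h2, h4⟩

/-! ### Invariance -/

theorem pe_pInvariant_self (Q : Subgroup G)
    (f : Set (Cfsg.IrrCharacter (Subgroup.centralizer (Q : Set G)))) : PInvariant Q (pe Q f) := by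
  intro x hx g
  by_cases hg : g ∈ Subgroup.centralizer (Q : Set G)
  · rw [Subgroup.mem_centralizer_iff.1 hg x hx, mul_inv_cancel_right]
  · rw [pe, emb_of_not_mem _ _ hg, emb_of_not_mem _ _]
    intro h
    refine hg ?_
    have h1 : cj x Q = Q := cj_eq_self_of_mem_normalizer (Subgroup.le_normalizer hx)
    have h2 : x * g * x⁻¹ ∈ Subgroup.centralizer ((cj x Q : Subgroup G) : Set G) := by rwa [h1]
    have := mem_centralizer_cj h2
    simpa [mul_assoc] using this

theorem pInvariant_of_cja {S : Subgroup G} {a : ℂG} (h : ∀ x ∈ S, cja x a = a) : PInvariant S a := by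
  intro x hx g
  conv_lhs => rw [← h x hx, cja_coeff]
  simp [mul_assoc]

theorem pInvariant_one_sub {S : Subgroup G} {a : ℂG} (h : PInvariant S a) :
    PInvariant S (1 - a) := by
  intro x hx g
  simp only [MonoidAlgebra.coeff_sub, Finsupp.sub_apply, isCentral_one.pInvariant S x hx g, h x hx g]

theorem pInvariant_mul {S : Subgroup G} {a b : ℂG} (ha : PInvariant S a) (hb : PInvariant S b) :
    PInvariant S (a * b) := by
  haveI := Fintype.ofFinite G
  intro x hx g
  have h1 : Commute a (MonoidAlgebra.single x (1 : ℂ)) := commute_single_iff.2 (ha x hx)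
  have h2 : Commute b (MonoidAlgebra.single x (1 : ℂ)) := commute_single_iff.2 (hb x hx)
  exact commute_single_iff.1 (h1.mul_left h2) g

/-- Either a pair is hit, or the product vanishes on the centralizer. -/
theorem hits_or_li_mul (hM : Cfsg.IsPModular p M) {R : Subgroup G} (hR : IsPGroup p R)
    {g : Set (Cfsg.IrrCharacter (Subgroup.centralizer (R : Set G)))} (hg : Cfsg.IsPBlock M g)
    {a : ℂG} (ha : a ∈ intAlg hM G) (ha2 : a * a = a) (hRa : PInvariant R a)
    (hCa : PInvariant (Subgroup.centralizer (R : Set G)) a) :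
    Hits M R g a ∨ ∀ y ∈ Subgroup.centralizer (R : Set G),
      Cfsg.MemLocalIdeal M ((a * pe R g).coeff y) := by
  classical
  haveI := Fintype.ofFinite G
  haveI := Fintype.ofFinite (Subgroup.centralizer (R : Set G))
  by_cases hh : Hits M R g a
  · exact Or.inl hh
  refine Or.inr fun y hy => ?_
  set T := trunc (Subgroup.centralizer (R : Set G)) ((Subgroup.centralizer (R : Set G)) : Set G) a with hT
  have hTc : IsCentral T := isCentral_truncC hCa
  have hF := isCentral_idem g
  have hTi : T ∈ intAlg hM (Subgroup.centralizer (R : Set G)) := trunc_mem hM _ _ ha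
  have hzero : ∀ η : Cfsg.IrrCharacter (Subgroup.centralizer (R : Set G)), η ∈ g → Cfsg.MemLocalIdeal M (omega η.1 T) := fun η hη =>
    (pval_idem hM hR η ha ha2 hRa hCa).resolve_right fun h => hh (hits_of_mem hM hg ha hCa hη h)
  have hTT : LiEq M (T * T) T := by
    have := trunc_mul hM hR (le_refl (Subgroup.centralizer (R : Set G))) ha ha hRa hRa
    rw [ha2] at this
    exact this.symm
  have hz2 : LiEq M (T * idem g * (T * idem g)) (T * idem g) := by
    have e : T * idem g * (T * idem g) = T * T * idem g := by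
      rw [mul_assoc, ← mul_assoc (idem g), hF.comm T, mul_assoc T (idem g), ← idem_inter, Set.inter_self,
        ← mul_assoc]
    rw [e]
    exact LiEq.mul hM hTT (LiEq.refl hM _) (mul_mem hTi hTi) (idem_block_mem hM hg)
  have h1 := li_of_idem hM (hTc.mul hF) (mul_mem hTi (idem_block_mem hM hg)) hz2 (fun η => by
    rw [omega_mul η hTc, omega_idem]
    split_ifs with h
    · rw [mul_one]; exact hzero η h
    · rw [mul_zero]; exact li_zero hM) ⟨y, hy⟩
  have h2 := trunc_mul hM hR (le_refl (Subgroup.centralizer (R : Set G))) ha (pe_mem hM R hg) hRa (pe_pInvariant_self R g) ⟨y, hy⟩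
  rw [trunc_coeff, if_pos (SetLike.mem_coe.2 hy)] at h2
  have h3 : trunc (Subgroup.centralizer (R : Set G)) ((Subgroup.centralizer (R : Set G)) : Set G) (pe R g) = idem g := trunc_emb_self (Subgroup.centralizer (R : Set G)) (idem g)
  rw [h3] at h2
  have := li_add hM h2 h1
  rwa [sub_add_cancel] at this

section Step

variable (hM : Cfsg.IsPModular p M) {Q P : Subgroup G}
  {f : Set (Cfsg.IrrCharacter (Subgroup.centralizer (Q : Set G)))}
  {e : Set (Cfsg.IrrCharacter (Subgroup.centralizer (P : Set G)))}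

include hM

theorem hits_down (h : Cfsg.IsNormalSubpair p M Q f P e) {a : ℂG}
    (ha : a ∈ intAlg hM G) (ha2 : a * a = a) (hQa : PInvariant Q a)
    (hPa : PInvariant P a) (hCa : PInvariant (Subgroup.centralizer (Q : Set G)) a)
    (hh : Hits M P e a) : Hits M Q f a := by
  classical
  haveI := Fintype.ofFinite (Subgroup.centralizer (P : Set G))
  obtain ⟨h1, h2, h3, h4, h5, h6⟩ := (isNormalSubpair_iff hM).1 h
  refine (hits_or_li_mul hM h1.1 h1.2 ha ha2 hQa hCa).resolve_right fun hl => ?_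
  obtain ⟨ξ, hξ⟩ := block_nonempty hM h2.2
  have hCC : Subgroup.centralizer (P : Set G) ≤ Subgroup.centralizer (Q : Set G) :=
    Subgroup.centralizer_le h3
  have hCPa : PInvariant (Subgroup.centralizer (P : Set G)) a := fun x hx => hCa x (hCC hx)
  have hCPf : PInvariant (Subgroup.centralizer (P : Set G)) (pe Q f) := fun x hx =>
    pe_pInvariant_centralizer Q f x (hCC hx)
  have hprod := pInvariant_mul hCPa hCPf
  have h7 := pval_mul hM h2.1 ξ ha (pe_mem hM Q h1.2) hPa hCPa (pInvariant_of_cja h5) hCPf hprod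
  have h8 := pval_li_of_coeff hM ξ hprod fun g hg => hl g (hCC hg)
  have h9 := li_sub hM h8 h7
  rw [sub_sub_cancel] at h9
  rcases li_or_li_of_mul hM (pval_lr hM ξ ha hCPa) (pval_lr hM ξ (pe_mem hM Q h1.2) hCPf) h9 with hc | hc
  · exact not_li_one hM (by simpa using li_sub hM hc (hh.pval hξ))
  · exact not_li_one hM (by simpa using li_sub hM hc (h6.pval hξ))

theorem hits_up (h : Cfsg.IsNormalSubpair p M Q f P e) {a : ℂG}
    (ha : a ∈ intAlg hM G) (ha2 : a * a = a) (hQa : PInvariant Q a)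
    (hPa : PInvariant P a) (hCa : PInvariant (Subgroup.centralizer (Q : Set G)) a)
    (hh : Hits M Q f a) : Hits M P e a := by
  classical
  haveI := Fintype.ofFinite (Subgroup.centralizer (P : Set G))
  haveI := Fintype.ofFinite (Subgroup.centralizer (Q : Set G))
  obtain ⟨h1, h2, h3, -, -, -⟩ := (isNormalSubpair_iff hM).1 h
  have hCPa : PInvariant (Subgroup.centralizer (P : Set G)) a := fun x hx =>
    hCa x (Subgroup.centralizer_le h3 hx)
  obtain ⟨ξ, hξ⟩ := block_nonempty hM h2.2
  refine hits_of_mem hM h2.2 ha hCPa hξ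
    ((pval_idem hM h2.1 ξ ha ha2 hPa hCPa).resolve_left fun hl => ?_)
  have hb2 : (1 - a) * (1 - a) = 1 - a := by
    rw [sub_mul, mul_sub, mul_sub, one_mul, mul_one, one_mul, ha2]; abel
  have hb1 : Cfsg.MemLocalIdeal M (pval P ξ.1 (1 - a) - 1) := by
    rw [pval_sub, pval_one]
    have := li_neg hl
    simpa using this
  have hbQ := hits_down hM h (sub_mem (one_mem _) ha) hb2 (pInvariant_one_sub hQa)
    (pInvariant_one_sub hPa) (pInvariant_one_sub hCa)
    (hits_of_mem hM h2.2 (sub_mem (one_mem _) ha) (pInvariant_one_sub hCPa) hξ hb1)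
  obtain ⟨η, hη⟩ := block_nonempty hM h1.2
  have e1 := hbQ.pval hη
  rw [pval_sub, pval_one] at e1
  have e2 := li_add hM e1 (hh.pval hη)
  exact not_li_one hM (by simpa using li_neg e2)

end Step

theorem eq_of_step_self (hM : Cfsg.IsPModular p M) {Q : Subgroup G}
    {f g : Set (Cfsg.IrrCharacter (Subgroup.centralizer (Q : Set G)))}
    (h : Cfsg.IsNormalSubpair p M Q f Q g) : f = g := by
  classical
  haveI := Fintype.ofFinite (Subgroup.centralizer (Q : Set G))
  obtain ⟨h1, h2, -, -, -, h6⟩ := (isNormalSubpair_iff hM).1 h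
  by_contra hne
  obtain ⟨η, hη⟩ := block_nonempty hM h2.2
  have h3 := h6.pval hη
  rw [pval, pe, trunc_emb_self, omega_idem,
    if_neg (Set.disjoint_right.1 (disjoint_blocks hM h1.2 h2.2 hne) hη), zero_sub] at h3
  exact not_li_one hM (by simpa using li_neg h3)

theorem le_of_chain (hM : Cfsg.IsPModular p M) {a b : Cfsg.BrauerPairIdx G}
    (h : Relation.ReflTransGen (Cfsg.NormalSubpairRel p M) a b) : a.1 ≤ b.1 := by
  induction h with
  | refl => exact le_rfl
  | tail _ hbc ih => exact ih.trans hbc.2.2.1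

theorem lt_normalizer_inf {P Q : Subgroup G} [Fact p.Prime] (hP : IsPGroup p P) (h : Q < P) :
    Q < P ⊓ Subgroup.normalizer (Q : Set G) := by
  refine lt_of_le_of_ne (le_inf h.le Subgroup.le_normalizer) fun heq => ?_
  haveI : Group.IsNilpotent P := hP.isNilpotent
  have hne : Q.subgroupOf P < ⊤ :=
    lt_top_iff_ne_top.2 fun htop => h.ne (le_antisymm h.le (Subgroup.subgroupOf_eq_top.1 htop))
  obtain ⟨u, hu, hu'⟩ := SetLike.exists_of_lt (Group.normalizerCondition_of_isNilpotent _ hne)
  refine hu' ?_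
  show (u : G) ∈ Q
  rw [heq]
  refine ⟨u.2, Subgroup.mem_normalizer_iff.2 fun g => ⟨fun hg => ?_, fun hg => ?_⟩⟩
  · exact (Subgroup.mem_normalizer_iff.1 hu ⟨g, h.le hg⟩).1 hg
  · have hgP : g ∈ P := by
      have := P.mul_mem (P.mul_mem (P.inv_mem u.2) (h.le hg)) u.2
      simpa [mul_assoc] using this
    exact (Subgroup.mem_normalizer_iff.1 hu ⟨g, hgP⟩).2 hg

/-- Exactly one subpair on each subgroup. -/
theorem existsUnique_below (hM : Cfsg.IsPModular p M) {P : Subgroup G}
    {e : Set (Cfsg.IrrCharacter (Subgroup.centralizer (P : Set G)))}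
    (hPe : Cfsg.IsBrauerPair p M P e) {Q : Subgroup G} (hQP : Q ≤ P) :
    ∃! f : Set (Cfsg.IrrCharacter (Subgroup.centralizer (Q : Set G))),
      Cfsg.IsPBlock M f ∧ Cfsg.SubpairLE p M Q f P e := by
  classical
  haveI : Fact p.Prime := ⟨hM.1⟩
  induction hn : Nat.card P - Nat.card Q using Nat.strong_induction_on generalizing Q with
  | _ n ih =>
  by_cases hQP' : Q = P
  · subst hQP'
    refine ⟨e, ⟨hPe.2, Relation.ReflTransGen.refl⟩, fun f hf => ?_⟩
    have key : ∀ a : Cfsg.BrauerPairIdx G, Relation.ReflTransGen (Cfsg.NormalSubpairRel p M) a ⟨Q, e⟩ →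
        ∀ f, a = ⟨Q, f⟩ → f = e := by
      intro a ha
      induction ha using Relation.ReflTransGen.head_induction_on with
      | refl => intro f h; exact (eq_of_heq (Sigma.mk.inj_iff.1 h).2).symm
      | @head a b hab hbc ih =>
        intro f h
        subst h
        obtain ⟨R, g⟩ := b
        have hR : R = Q := le_antisymm (le_of_chain hM hbc) hab.2.2.1
        subst hR
        rw [show f = g from eq_of_step_self hM hab]
        exact ih g rfl
    exact key _ hf.2 f rfl
  have hlt : Q < P := lt_of_le_of_ne hQP hQP'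
  set R' := P ⊓ Subgroup.normalizer (Q : Set G) with hR'
  have hQR' : Q < R' := lt_normalizer_inf hPe.1 hlt
  -- the induction hypothesis for bigger subgroups
  have IH : ∀ R : Subgroup G, Q < R → R ≤ P → ∃! f : Set (Cfsg.IrrCharacter (Subgroup.centralizer (R : Set G))),
      Cfsg.IsPBlock M f ∧ Cfsg.SubpairLE p M R f P e := by
    intro R hR hRP
    refine ih (Nat.card P - Nat.card R) ?_ hRP rfl
    have h1 : Nat.card Q < Nat.card R := by
      refine lt_of_le_of_ne (Subgroup.card_le_of_le hR.le) fun h => hR.ne ?_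
      exact Subgroup.eq_of_le_of_card_ge hR.le h.ge
    have h2 := Subgroup.card_le_of_le hRP
    omega
  obtain ⟨g', ⟨hg', hg'c⟩, -⟩ := IH R' hQR' inf_le_left
  have hR'e : Cfsg.IsBrauerPair p M R' g' := ⟨hPe.1.to_le inf_le_left, hg'⟩
  obtain ⟨f0, hf0, -⟩ := existsUnique_step hM hR'e hQR'.le inf_le_right
  -- every intermediate subpair lies above `f0`
  have hL : ∀ m : ℕ, ∀ R : Subgroup G, Q < R → R ≤ R' → Nat.card R' - Nat.card R = m →
      ∀ g, Cfsg.IsPBlock M g → Cfsg.SubpairLE p M R g P e → Cfsg.IsNormalSubpair p M Q f0 R g := by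
    intro m
    induction m using Nat.strong_induction_on with
    | _ m ihm =>
    intro R hQR hRR' hm g hg hgc
    by_cases hRe : R = R'
    · revert g
      rw [hRe]
      intro g hg hgc
      have := (IH R' hQR' inf_le_left).unique ⟨hg, hgc⟩ ⟨hg', hg'c⟩
      rw [this]; exact hf0
    have hR'p : IsPGroup p R' := hPe.1.to_le inf_le_left
    have hlt' : R < R' := lt_of_le_of_ne hRR' hRe
    set R2 := R' ⊓ Subgroup.normalizer (R : Set G) with hR2
    have hRR2 : R < R2 := lt_normalizer_inf hR'p hlt'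
    have hR2P : R2 ≤ P := inf_le_left.trans inf_le_left
    obtain ⟨g2, ⟨hg2, hg2c⟩, -⟩ := IH R2 (hQR.trans hRR2) hR2P
    have hsub := ihm (Nat.card R' - Nat.card R2) (by
      have h1 : Nat.card R < Nat.card R2 := by
        refine lt_of_le_of_ne (Subgroup.card_le_of_le hRR2.le) fun h => hRR2.ne ?_
        exact Subgroup.eq_of_le_of_card_ge hRR2.le h.ge
      have h2 : Nat.card R2 ≤ Nat.card R' := Subgroup.card_le_of_le inf_le_left
      omega) R2 (hQR.trans hRR2) inf_le_left rfl g2 hg2 hg2c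
    obtain ⟨h1, h2, h3, h4, h5, h6⟩ := (isNormalSubpair_iff hM).1 hsub
    obtain ⟨g1, hg1, -⟩ := existsUnique_step hM h2 hRR2.le inf_le_right
    have hgg : g = g1 := (IH R hQR (hRR'.trans inf_le_left)).unique ⟨hg, hgc⟩
      ⟨hg1.1.2, Relation.ReflTransGen.head (show Cfsg.NormalSubpairRel p M ⟨R, g1⟩ ⟨R2, g2⟩ from hg1) hg2c⟩
    subst hgg
    have hRn : R ≤ Subgroup.normalizer (Q : Set G) := hRR'.trans inf_le_right
    refine (isNormalSubpair_iff hM).2 ⟨h1, hg1.1, hQR.le, hRn,
      fun x hx => h5 x (hRR2.le hx), ?_⟩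
    exact hits_down hM hg1 (pe_mem hM Q h1.2) (pe_mul_self Q f0)
      (pInvariant_of_cja fun x hx => h5 x (hRR2.le hx)) (pInvariant_of_cja h5)
      (fun x hx => pe_pInvariant_centralizer Q f0 x (Subgroup.centralizer_le hQR.le hx)) h6
  refine ⟨f0, ⟨hf0.1.2, Relation.ReflTransGen.head (show Cfsg.NormalSubpairRel p M ⟨Q, f0⟩ ⟨R', g'⟩ from hf0) hg'c⟩, fun f hf => ?_⟩
  have key : ∀ a : Cfsg.BrauerPairIdx G, Relation.ReflTransGen (Cfsg.NormalSubpairRel p M) a ⟨P, e⟩ →
      ∀ f, a = ⟨Q, f⟩ → f = f0 := by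
    intro a ha
    induction ha using Relation.ReflTransGen.head_induction_on with
    | refl => intro f h; exact absurd (congrArg Sigma.fst h).symm hQP'
    | @head a b hab hbc ih' =>
      intro f h
      subst h
      obtain ⟨R, g⟩ := b
      by_cases hR : R = Q
      · subst hR
        rw [show f = g from eq_of_step_self hM hab]
        exact ih' g rfl
      · have hQR : Q < R := lt_of_le_of_ne hab.2.2.1 (Ne.symm hR)
        have hRP : R ≤ P := le_of_chain hM hbc
        have hgb : Cfsg.IsBrauerPair p M R g := hab.2.1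
        have h0 := hL _ R hQR (le_inf hRP hab.2.2.2.1) rfl g hgb.2 hbc
        exact (existsUnique_step hM hgb hQR.le hab.2.2.2.1).unique hab h0
  exact key _ hf.2 f rfl

/-! ### Pairs of a block -/

theorem isBrauerPairOf_step (hM : Cfsg.IsPModular p M) {Q P : Subgroup G}
    {f : Set (Cfsg.IrrCharacter (Subgroup.centralizer (Q : Set G)))}
    {e : Set (Cfsg.IrrCharacter (Subgroup.centralizer (P : Set G)))}
    (h : Cfsg.IsNormalSubpair p M Q f P e) (B : Set (Cfsg.IrrCharacter G)) :
    Cfsg.IsBrauerPairOf p M B P e ↔ Cfsg.IsBrauerPairOf p M B Q f := by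
  haveI := Fintype.ofFinite G
  have hc := isCentral_idem B
  have hid : idem B * idem B = idem B := by rw [← idem_inter, Set.inter_self]
  simp only [isBrauerPairOf_iff]
  constructor <;> rintro ⟨-, hB, hh⟩
  · exact ⟨h.1, hB, hits_down hM h (idem_block_mem hM hB) hid (hc.pInvariant _) (hc.pInvariant _)
      (hc.pInvariant _) hh⟩
  · exact ⟨h.2.1, hB, hits_up hM h (idem_block_mem hM hB) hid (hc.pInvariant _) (hc.pInvariant _)
      (hc.pInvariant _) hh⟩

theorem isBrauerPairOf_chain (hM : Cfsg.IsPModular p M) {a b : Cfsg.BrauerPairIdx G}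
    (h : Relation.ReflTransGen (Cfsg.NormalSubpairRel p M) a b) (B : Set (Cfsg.IrrCharacter G)) :
    Cfsg.IsBrauerPairOf p M B b.1 b.2 ↔ Cfsg.IsBrauerPairOf p M B a.1 a.2 := by
  induction h with
  | refl => exact Iff.rfl
  | tail _ hbc ih => exact (isBrauerPairOf_step hM hbc B).trans ih

/-- Two pairs over the same normalizer block are conjugate. -/
theorem conj_of_hits (hM : Cfsg.IsPModular p M) {P : Subgroup G} (hP : IsPGroup p P)
    {b : Set (Cfsg.IrrCharacter (Subgroup.normalizer (P : Set G)))} (hb : Cfsg.IsPBlock M b)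
    {e f : Set (Cfsg.IrrCharacter (Subgroup.centralizer (P : Set G)))}
    (he : Cfsg.IsPBlock M e) (hf : Cfsg.IsPBlock M f)
    (hhe : Hits M P e (emb (Subgroup.normalizer (P : Set G)) (idem b)))
    (hhf : Hits M P f (emb (Subgroup.normalizer (P : Set G)) (idem b))) :
    ∃ x ∈ Subgroup.normalizer (P : Set G), pe P f = cja x (pe P e) := by
  classical
  haveI := Fintype.ofFinite G
  haveI := Fintype.ofFinite (Subgroup.normalizer (P : Set G))
  haveI := Fintype.ofFinite (Subgroup.centralizer (P : Set G))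
  have hCH : Subgroup.centralizer (P : Set G) ≤ (Subgroup.normalizer (P : Set G)) := Subgroup.centralizer_le_normalizer _
  set O := (Finset.univ : Finset (Subgroup.normalizer (P : Set G))).image (fun x : (Subgroup.normalizer (P : Set G)) => cja (x : G) (pe P e)) with hO
  by_contra hne
  have hOblock : ∀ a ∈ O, ∃ f', Cfsg.IsPBlock M f' ∧ a = pe P f' := by
    intro a ha
    obtain ⟨x, -, rfl⟩ := Finset.mem_image.1 ha
    obtain ⟨f', h1, h2, -⟩ := exists_conj_block x.2 he
    exact ⟨f', h1, h2.symm⟩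
  have hOf : pe P f ∉ O := fun h => by
    obtain ⟨x, -, hx⟩ := Finset.mem_image.1 h
    exact hne ⟨x, x.2, hx.symm⟩
  have hOe : pe P e ∈ O := Finset.mem_image.2 ⟨1, Finset.mem_univ _, cja_one' _⟩
  set s : ℂG := ∑ a ∈ O, a with hs
  have hsinv : PInvariant (Subgroup.normalizer (P : Set G)) s := pInvariant_of_cja fun x hx => by
    refine ext_coeff fun g => ?_
    rw [cja_coeff, hs, coeff_sum', coeff_sum']
    refine Finset.sum_bij (fun a _ => cja x a) (fun a ha => ?_) (fun a _ a' _ h => ?_)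
      (fun a ha => ?_) (fun a _ => rfl)
    · obtain ⟨y, -, rfl⟩ := Finset.mem_image.1 ha
      exact Finset.mem_image.2 ⟨⟨x, hx⟩ * y, Finset.mem_univ _, (cja_cja x (y : G) _).symm⟩
    · have := congrArg (cja x⁻¹) h
      simpa [cja_cja, cja_one'] using this
    · obtain ⟨y, -, rfl⟩ := Finset.mem_image.1 ha
      exact ⟨cja ((⟨x, hx⟩⁻¹ * y : (Subgroup.normalizer (P : Set G))) : G) (pe P e), Finset.mem_image_of_mem _ (Finset.mem_univ _),
        by rw [cja_cja]; simp [mul_assoc]⟩
  have hs2 : s * s = s := by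
    rw [hs, Finset.sum_mul]
    refine Finset.sum_congr rfl fun a ha => ?_
    rw [Finset.mul_sum, Finset.sum_eq_single a]
    · obtain ⟨f', -, rfl⟩ := hOblock a ha
      exact pe_mul_self P f'
    · intro a' ha' hne'
      obtain ⟨f', h1, rfl⟩ := hOblock a ha
      obtain ⟨f'', h2, rfl⟩ := hOblock a' ha'
      exact pe_mul_ne hM P h1 h2 fun h => hne' (by rw [h])
    · exact fun h => absurd ha h
  have hsi : s ∈ intAlg hM G := Subalgebra.sum_mem _ fun a ha => by
    obtain ⟨f', h1, rfl⟩ := hOblock a ha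
    exact pe_mem hM P h1
  have hsupp : ∀ g, g ∉ (Subgroup.normalizer (P : Set G)) → s.coeff g = 0 := by
    intro g hg
    rw [hs, coeff_sum']
    refine Finset.sum_eq_zero fun a ha => ?_
    obtain ⟨f', -, rfl⟩ := hOblock a ha
    rw [pe, emb_of_not_mem _ _ fun h => hg (hCH h)]
  set sH := trunc (Subgroup.normalizer (P : Set G)) Set.univ s with hsH
  have hemb : emb (Subgroup.normalizer (P : Set G)) sH = s := by
    refine ext_coeff fun g => ?_
    by_cases hg : g ∈ (Subgroup.normalizer (P : Set G))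
    · rw [emb_of_mem _ _ hg, hsH, trunc_coeff, if_pos (Set.mem_univ _)]
    · rw [emb_of_not_mem _ _ hg, hsupp g hg]
  have hsc : IsCentral sH := fun h x => by
    rw [hsH, trunc_coeff, trunc_coeff, if_pos (Set.mem_univ _), if_pos (Set.mem_univ _)]
    exact hsinv (x : G) x.2 (h : G)
  have hsH2 : sH * sH = sH := by
    refine ext_coeff fun h => ?_
    have := congrArg (fun a : ℂG => a.coeff (h : G)) (show emb (Subgroup.normalizer (P : Set G)) (sH * sH) = emb (Subgroup.normalizer (P : Set G)) sH by rw [emb_mul, hemb, hs2])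
    simpa [emb_coe] using this
  have h01 : ∀ η : Cfsg.IrrCharacter (Subgroup.normalizer (P : Set G)), omega η.1 sH = 0 ∨ omega η.1 sH = 1 := by
    intro η
    have := omega_mul η hsc sH
    rw [hsH2] at this
    have h2 : omega η.1 sH * (omega η.1 sH - 1) = 0 := by linear_combination -this
    rcases mul_eq_zero.1 h2 with h | h
    · exact Or.inl h
    · exact Or.inr (sub_eq_zero.1 h)
  obtain ⟨η₀, hη₀⟩ := block_nonempty hM hb
  have hconst : ∀ η ∈ b, omega η.1 sH = omega η₀.1 sH := by
    intro η hη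
    have h := li_omega_sub hM (sameBlock_of_mem hM hb hη hη₀) hsc (trunc_mem hM _ _ hsi)
    rcases h01 η with h1 | h1 <;> rcases h01 η₀ with h2 | h2 <;> rw [h1, h2] at h ⊢
    · exact absurd (by simpa using li_neg h) (not_li_one hM)
    · exact absurd (by simpa using h) (not_li_one hM)
  have hprod : idem b * sH = omega η₀.1 sH • idem b := by
    refine ((isCentral_idem b).mul hsc).eq_of_omega ((isCentral_idem b).smul _) fun η => ?_
    rw [omega_mul η (isCentral_idem b), omega_smul, omega_idem]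
    split_ifs with h
    · rw [one_mul, mul_one, hconst η h]
    · rw [zero_mul, mul_zero]
  -- evaluation
  set β := emb (Subgroup.normalizer (P : Set G)) (idem b) with hβ
  have hβi : β ∈ intAlg hM G := emb_mem hM _ (idem_block_mem hM hb)
  have hβinv : PInvariant (Subgroup.normalizer (P : Set G)) β := fun x hx g => emb_conj_invariant (isCentral_idem b) hx g
  have hPH : P ≤ (Subgroup.normalizer (P : Set G)) := Subgroup.le_normalizer
  have hCP : PInvariant (Subgroup.centralizer (P : Set G)) β := fun x hx => hβinv x (hCH hx)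
  have hCs : PInvariant (Subgroup.centralizer (P : Set G)) s := fun x hx => hsinv x (hCH hx)
  have hmulinv := pInvariant_mul hCP hCs
  have hval : ∀ η : Cfsg.IrrCharacter (Subgroup.centralizer (P : Set G)),
      pval P η.1 s = ∑ a ∈ O, pval P η.1 a := fun η => pval_sum _ _ _
  obtain ⟨ξ, hξ⟩ := block_nonempty hM he
  obtain ⟨ζ, hζ⟩ := block_nonempty hM hf
  have hse : pval P ξ.1 s = 1 := by
    rw [hval, Finset.sum_eq_single (pe P e)]
    · rw [pval, pe, trunc_emb_self, omega_idem, if_pos hξ]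
    · intro a ha hne'
      obtain ⟨f', h1, rfl⟩ := hOblock a ha
      rw [pval, pe, trunc_emb_self, omega_idem, if_neg fun h => hne' ?_]
      rw [show f' = e by
        by_contra hn
        exact Set.disjoint_left.1 (disjoint_blocks hM h1 he hn) h hξ]
    · exact fun h => absurd hOe h
  have hsf : pval P ζ.1 s = 0 := by
    rw [hval]
    refine Finset.sum_eq_zero fun a ha => ?_
    obtain ⟨f', h1, rfl⟩ := hOblock a ha
    rw [pval, pe, trunc_emb_self, omega_idem, if_neg fun h => hOf ?_]
    rw [show f = f' by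
      by_contra hn
      exact Set.disjoint_left.1 (disjoint_blocks hM h1 hf (Ne.symm hn)) h hζ]
    exact ha
  have hβs : β * s = emb (Subgroup.normalizer (P : Set G)) (idem b * sH) := by rw [emb_mul, hemb]
  rw [hprod, emb_smul] at hβs
  rcases h01 η₀ with h0 | h0
  · have h7 := pval_mul hM hP ξ hβi hsi (fun x hx => hβinv x (hPH hx)) hCP
      (fun x hx => hsinv x (hPH hx)) hCs hmulinv
    rw [hβs, h0, zero_smul, pval_zero, hse, mul_one, zero_sub] at h7
    exact not_li_one hM (by simpa using li_sub hM (li_neg h7) (hhe.pval hξ))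
  · have h7 := pval_mul hM hP ζ hβi hsi (fun x hx => hβinv x (hPH hx)) hCP
      (fun x hx => hsinv x (hPH hx)) hCs hmulinv
    rw [hβs, h0, one_smul, ← hβ, hsf, mul_zero, sub_zero] at h7
    exact not_li_one hM (by simpa using li_sub hM h7 (hhf.pval hζ))

/-- The block of the normalizer of a pair, and either a bigger pair or a defect group. -/
theorem normalizer_alternative (hM : Cfsg.IsPModular p M) {P : Subgroup G}
    {B : Set (Cfsg.IrrCharacter G)}
    {e : Set (Cfsg.IrrCharacter (Subgroup.centralizer (P : Set G)))}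
    (hPe : Cfsg.IsBrauerPairOf p M B P e) :
    (∃ b : Set (Cfsg.IrrCharacter (Subgroup.normalizer (P : Set G))), Cfsg.IsPBlock M b ∧
        Hits M P e (emb (Subgroup.normalizer (P : Set G)) (idem b)) ∧
        Cfsg.IsDefectGroup p M b (P.subgroupOf (Subgroup.normalizer (P : Set G))) ∧
        Cfsg.IsInducedBlock M (Subgroup.normalizer (P : Set G)) b B ∧
        Cfsg.IsDefectGroup p M B P) ∨
      ∃ (R : Subgroup G) (g : Set (Cfsg.IrrCharacter (Subgroup.centralizer (R : Set G)))),
        P < R ∧ Cfsg.IsNormalSubpair p M P e R g ∧ Cfsg.IsBrauerPairOf p M B R g := by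
  classical
  haveI := Fintype.ofFinite G
  haveI : Fact p.Prime := ⟨hM.1⟩
  obtain ⟨⟨hP, he⟩, hB, hhB⟩ := isBrauerPairOf_iff.1 hPe
  set H := Subgroup.normalizer (P : Set G) with hH
  haveI := Fintype.ofFinite H
  haveI := Fintype.ofFinite (Subgroup.centralizer (P : Set G))
  have hCH : Subgroup.centralizer (P : Set G) ≤ H := Subgroup.centralizer_le_normalizer _
  have hPH : P ≤ H := Subgroup.le_normalizer
  obtain ⟨ξ, hξ⟩ := block_nonempty hM he
  have hinvH : ∀ b : Set (Cfsg.IrrCharacter H), PInvariant H (emb H (idem b)) := fun b x hx g =>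
    emb_conj_invariant (isCentral_idem b) hx g
  have hinvC : ∀ b : Set (Cfsg.IrrCharacter H),
      PInvariant (Subgroup.centralizer (P : Set G)) (emb H (idem b)) := fun b x hx =>
    hinvH b x (hCH hx)
  have hid2 : ∀ b : Set (Cfsg.IrrCharacter H), emb H (idem b) * emb H (idem b) = emb H (idem b) :=
    fun b => by rw [← emb_mul, ← idem_inter, Set.inter_self]
  -- the block of the normalizer
  obtain ⟨b, hb, hbe⟩ : ∃ b : Set (Cfsg.IrrCharacter H), Cfsg.IsPBlock M b ∧
      Hits M P e (emb H (idem b)) := by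
    let bl : Cfsg.IrrCharacter H → Set (Cfsg.IrrCharacter H) := fun η => Cfsg.blockOf M η.1
    let Bs := Finset.univ.image bl
    have h1 : (∑ b ∈ Bs, idem b) = (1 : MonoidAlgebra ℂ H) := by
      refine (IsCentral.eq_of_omega (fun g x => ?_) isCentral_one fun η => ?_)
      · simp only [coeff_sum']
        exact Finset.sum_congr rfl fun B _ => isCentral_idem B g x
      · rw [omega_sum, omega_one, Finset.sum_eq_single (bl η)]
        · rw [omega_idem, if_pos (self_mem_blockOf hM η)]
        · intro B hB hne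
          obtain ⟨ψ, -, rfl⟩ := Finset.mem_image.1 hB
          rw [omega_idem, if_neg (show η ∉ bl ψ from fun h => hne (blockOf_eq_of_sameBlock hM h))]
        · exact fun h => absurd (Finset.mem_image_of_mem bl (Finset.mem_univ η)) h
    have h2 : ∑ b ∈ Bs, emb H (idem b) = (1 : ℂG) := by
      rw [← emb_one H, ← h1]
      exact (map_sum (AddMonoidHom.mk' (emb H) (emb_add _)) _ _).symm
    by_contra hcon
    push Not at hcon
    refine not_li_one hM ?_
    rw [← pval_one (P := P) ξ, ← h2, pval_sum]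
    refine li_sum hM _ fun b hb => ?_
    obtain ⟨η, -, rfl⟩ := Finset.mem_image.1 hb
    exact (pval_idem hM hP ξ (emb_mem hM _ (idem_block_mem hM ⟨η, rfl⟩)) (hid2 _)
      (fun x hx => hinvH _ x (hPH hx)) (hinvC _)).resolve_right
      fun h => hcon _ ⟨η, rfl⟩ (hits_of_mem hM he (emb_mem hM _ (idem_block_mem hM ⟨η, rfl⟩))
        (hinvC _) hξ h)
  set β := emb H (idem b) with hβ
  have hβi : β ∈ intAlg hM G := emb_mem hM _ (idem_block_mem hM hb)
  obtain ⟨η₀, hη₀⟩ := block_nonempty hM hb
  obtain ⟨B1, hind, hφ⟩ := exists_induced hM hP hPH hCH le_rfl hb hη₀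
  have hcH := centralizer_conj_of_le_normalizer (le_refl H)
  have hB1 : B1 = B := by
    by_contra hne
    obtain ⟨χ, hχ⟩ := block_nonempty hM hind.2.1
    set c := trunc H (Subgroup.centralizer (P : Set G) : Set G) (idem B) with hc
    have hcc : IsCentral c := isCentral_trunc hcH (isCentral_idem B)
    have hci : c ∈ intAlg hM H := trunc_mem hM _ _ (idem_block_mem hM hB)
    have hc0 : ∀ η ∈ b, Cfsg.MemLocalIdeal M (omega η.1 c) := by
      intro η hη
      have h1 := hφ χ hχ _ (isCentral_idem B) (idem_block_mem hM hB)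
      rw [omega_idem, if_neg (Set.disjoint_left.1 (disjoint_blocks hM hind.2.1 hB hne) hχ), sub_zero] at h1
      have h2 := li_add hM (li_omega_sub hM (sameBlock_of_mem hM hb hη hη₀) hcc hci) h1
      rwa [sub_add_cancel] at h2
    set b' := trunc H (Subgroup.centralizer (P : Set G) : Set G) β with hb'
    have hb'c : IsCentral b' := by
      intro h x
      rw [hb', trunc_coeff, trunc_coeff]
      have hiff : ((x * h * x⁻¹ : H) : G) ∈ (Subgroup.centralizer (P : Set G) : Set G) ↔
          (h : G) ∈ (Subgroup.centralizer (P : Set G) : Set G) := by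
        refine ⟨fun h' => ?_, hcH _ x.2 _⟩
        have := hcH _ (H.inv_mem x.2) _ h'
        simpa [mul_assoc] using this
      by_cases hh : (h : G) ∈ (Subgroup.centralizer (P : Set G) : Set G)
      · rw [if_pos hh, if_pos (hiff.2 hh)]
        exact hinvH b (x : G) x.2 (h : G)
      · rw [if_neg hh, if_neg (mt hiff.1 hh)]
    have hb'i : b' ∈ intAlg hM H := trunc_mem hM _ _ hβi
    have hBB : idem B * idem B = idem B := by rw [← idem_inter, Set.inter_self]
    have hcc2 : LiEq M (c * c) c := by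
      have := trunc_mul hM hP hCH (idem_block_mem hM hB) (idem_block_mem hM hB)
        ((isCentral_idem B).pInvariant P) ((isCentral_idem B).pInvariant P)
      rw [hBB] at this
      exact this.symm
    have hbb2 : LiEq M (b' * b') b' := by
      have := trunc_mul hM hP hCH hβi hβi (fun x hx => hinvH b x (hPH hx))
        (fun x hx => hinvH b x (hPH hx))
      rw [hid2] at this
      exact this.symm
    haveI := subgroupOf_normal_of_le_normalizer (le_refl H)
    have hb'ω : ∀ η : Cfsg.IrrCharacter H, η ∉ b → Cfsg.MemLocalIdeal M (omega η.1 b') := by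
      intro η hη
      have h1 := li_omega_of_vanish hM (P := P.subgroupOf H)
        (hP.comap_of_injective H.subtype (Subgroup.subtype_injective _)) η
        ((isCentral_idem b).sub hb'c) (sub_mem (idem_block_mem hM hb) hb'i) fun g hg => by
          have hgc : (g : G) ∈ Subgroup.centralizer (P : Set G) := Subgroup.mem_centralizer_iff.2
            fun q hq => congrArg Subtype.val (Subgroup.mem_centralizer_iff.1 hg ⟨q, hPH hq⟩ hq)
          rw [MonoidAlgebra.coeff_sub, Finsupp.sub_apply, hb', trunc_coeff,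
            if_pos (SetLike.mem_coe.2 hgc), hβ, emb_coe, sub_self]
          exact li_zero hM
      rw [omega_sub, omega_idem, if_neg hη, zero_sub] at h1
      simpa using li_neg h1
    have hz2 : LiEq M (c * b' * (c * b')) (c * b') := by
      rw [show c * b' * (c * b') = c * c * (b' * b') by
        rw [mul_assoc, ← mul_assoc b', hb'c.comm c, mul_assoc c b', ← mul_assoc]]
      exact LiEq.mul hM hcc2 hbb2 (mul_mem hci hci) hb'i
    have hz := li_of_idem hM (hcc.mul hb'c) (mul_mem hci hb'i) hz2 fun η => by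
      rw [omega_mul η hcc]
      by_cases hη : η ∈ b
      · exact li_mul hM (hc0 η hη) (omega_lr hM η hb'c hb'i)
      · exact li_mul_left hM (omega_lr hM η hcc hci) (hb'ω η hη)
    have hcoef : ∀ g ∈ Subgroup.centralizer (P : Set G),
        Cfsg.MemLocalIdeal M ((idem B * β).coeff g) := by
      intro g hg
      have h1 := trunc_mul hM hP hCH (idem_block_mem hM hB) hβi
        ((isCentral_idem B).pInvariant P) (fun x hx => hinvH b x (hPH hx)) ⟨g, hCH hg⟩
      rw [trunc_coeff, if_pos (SetLike.mem_coe.2 hg)] at h1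
      have := li_add hM h1 (hz ⟨g, hCH hg⟩)
      rwa [sub_add_cancel] at this
    have hCB := (isCentral_idem B).pInvariant (Subgroup.centralizer (P : Set G))
    have hCp := pInvariant_mul hCB (hinvC b)
    have h7 := pval_mul hM hP ξ (idem_block_mem hM hB) hβi ((isCentral_idem B).pInvariant P) hCB
      (fun x hx => hinvH b x (hPH hx)) (hinvC b) hCp
    have h8 := li_sub hM (pval_li_of_coeff hM ξ hCp hcoef) h7
    rw [sub_sub_cancel] at h8
    rcases li_or_li_of_mul hM (pval_lr hM ξ (idem_block_mem hM hB) hCB)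
      (pval_lr hM ξ hβi (hinvC b)) h8 with hc' | hc'
    · exact not_li_one hM (by simpa using li_sub hM hc' (hhB.pval hξ))
    · exact not_li_one hM (by simpa using li_sub hM hc' (hbe.pval hξ))
  obtain ⟨D, hD⟩ := exists_defectGroup hM hb
  haveI hnor : (P.subgroupOf H).Normal := subgroupOf_normal_of_le_normalizer le_rfl
  have hPD : P.subgroupOf H ≤ D := normal_le_defect hM hb hD
    (hP.comap_of_injective H.subtype (Subgroup.subtype_injective _))
  by_cases hDP : D = P.subgroupOf H
  · left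
    rw [hDP] at hD
    obtain ⟨B2, hB2, hB2D, hB2i⟩ := first_main_one hM hP hb hD
    have hBB : B2 = B := (induced_unique hM hB2i hind).trans hB1
    subst hBB
    exact ⟨b, hb, hbe, hD, hB2i, hB2D⟩
  right
  obtain ⟨u, hu, huD⟩ := isDefectGroup_iff.1 hD
  set R := D.map H.subtype with hR
  have hPR : P < R := by
    refine lt_of_le_of_ne (fun x hx => ⟨⟨x, hPH hx⟩, hPD hx, rfl⟩) fun heq => hDP ?_
    refine (le_antisymm hPD fun x hx => ?_).symm
    show (x : G) ∈ P
    rw [heq]
    exact ⟨x, hx, rfl⟩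
  have hRH : R ≤ H := Subgroup.map_subtype_le D
  have hRp : IsPGroup p R := (defectGroup_isPGroup hD).map _
  have hCR : Subgroup.centralizer (R : Set G) ≤ H :=
    (Subgroup.centralizer_le hPR.le).trans hCH
  haveI := Fintype.ofFinite (Subgroup.centralizer (R : Set G))
  have huR : (u : G) ∈ Subgroup.centralizer (R : Set G) := by
    refine Subgroup.mem_centralizer_iff.2 ?_
    rintro _ ⟨d, hd, rfl⟩
    exact congrArg Subtype.val (Subgroup.mem_centralizer_singleton_iff.1 (huD.1 hd))
  obtain ⟨g, hg, hgh⟩ := exists_pval_ne hM hRp hβi (hid2 b) (fun x hx => hinvH b x (hRH hx))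
    (fun x hx => hinvH b x (hCR hx)) huR (by rw [hβ, emb_coe]; exact hu.2.1)
  obtain ⟨f, hf, -⟩ := existsUnique_step hM (show Cfsg.IsBrauerPair p M R g from ⟨hRp, hg⟩) hPR.le hRH
  have hfh : Hits M P f β := hits_down hM hf hβi (hid2 b) (fun x hx => hinvH b x (hPH hx))
    (fun x hx => hinvH b x (hRH hx)) (hinvC b) hgh
  obtain ⟨x, hx, hfe⟩ := conj_of_hits hM hP hb he hf.1.2 hbe hfh
  have hcp : cp x⁻¹ ⟨P, f⟩ = (⟨P, e⟩ : Cfsg.BrauerPairIdx G) := by
    refine idx_eq (cj_eq_self_of_mem_normalizer (H.inv_mem hx)) ?_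
    show pe (cj x⁻¹ P) _ = pe P e
    simp only [cp]
    rw [pe_imgSet, hfe, cja_cja, inv_mul_cancel, cja_one']
  have hrel : Cfsg.NormalSubpairRel p M ⟨P, e⟩ (cp x⁻¹ ⟨R, g⟩) := by
    rw [← hcp]
    exact normalSubpairRel_cp hM x⁻¹ (a := ⟨P, f⟩) (b := ⟨R, g⟩) hf
  refine ⟨(cp x⁻¹ ⟨R, g⟩).1, (cp x⁻¹ ⟨R, g⟩).2, ?_, hrel, ?_⟩
  · refine lt_of_le_of_ne hrel.2.2.1 fun heq => hPR.ne (Subgroup.eq_of_le_of_card_ge hPR.le ?_)
    have : Nat.card P = Nat.card (cj x⁻¹ R) := by rw [show P = cj x⁻¹ R from heq]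
    rw [this, card_cj]
  · exact (isBrauerPairOf_step hM hrel B).2 hPe

theorem maximal_defect (hM : Cfsg.IsPModular p M) {P : Subgroup G} {B : Set (Cfsg.IrrCharacter G)}
    {e : Set (Cfsg.IrrCharacter (Subgroup.centralizer (P : Set G)))}
    (hmax : Cfsg.IsMaximalBrauerPair p M B P e) :
    ∃ b : Set (Cfsg.IrrCharacter (Subgroup.normalizer (P : Set G))), Cfsg.IsPBlock M b ∧
        Hits M P e (emb (Subgroup.normalizer (P : Set G)) (idem b)) ∧
        Cfsg.IsDefectGroup p M b (P.subgroupOf (Subgroup.normalizer (P : Set G))) ∧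
        Cfsg.IsInducedBlock M (Subgroup.normalizer (P : Set G)) b B ∧
        Cfsg.IsDefectGroup p M B P := by
  refine (normalizer_alternative hM hmax.1).resolve_right ?_
  rintro ⟨R, g, hlt, hrel, hof⟩
  exact hlt.ne (hmax.2 R g hof (Relation.ReflTransGen.single hrel)).symm

theorem exists_maximal (hM : Cfsg.IsPModular p M) {B : Set (Cfsg.IrrCharacter G)} {Q : Subgroup G}
    {f : Set (Cfsg.IrrCharacter (Subgroup.centralizer (Q : Set G)))}
    (hQ : Cfsg.IsBrauerPairOf p M B Q f) :
    ∃ (P : Subgroup G) (e : Set (Cfsg.IrrCharacter (Subgroup.centralizer (P : Set G)))),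
      Cfsg.IsMaximalBrauerPair p M B P e ∧ Cfsg.SubpairLE p M Q f P e := by
  induction hn : Nat.card G - Nat.card Q using Nat.strong_induction_on generalizing Q with
  | _ n ih =>
  by_cases hmax : Cfsg.IsMaximalBrauerPair p M B Q f
  · exact ⟨Q, f, hmax, Relation.ReflTransGen.refl⟩
  obtain ⟨R, g, h1, h2, hne⟩ : ∃ R g, Cfsg.IsBrauerPairOf p M B R g ∧
      Cfsg.SubpairLE p M Q f R g ∧ R ≠ Q := by
    by_contra hcon
    push Not at hcon
    exact hmax ⟨hQ, fun R g a b => hcon R g a b⟩
  have hlt : Q < R := lt_of_le_of_ne (le_of_chain hM h2) (Ne.symm hne)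
  obtain ⟨P, e, hP, hc⟩ := ih (Nat.card G - Nat.card R) (by
    have a1 : Nat.card Q < Nat.card R := by
      refine lt_of_le_of_ne (Subgroup.card_le_of_le hlt.le) fun h => hlt.ne ?_
      exact Subgroup.eq_of_le_of_card_ge hlt.le h.ge
    have a2 := Subgroup.card_le_card_group R
    omega) h1 rfl
  exact ⟨P, e, hP, h2.trans hc⟩

/-- All pairs of a block conjugate into a given maximal pair. -/
theorem exists_conj_le_maximal (hM : Cfsg.IsPModular p M) {B : Set (Cfsg.IrrCharacter G)}
    {P Q : Subgroup G} {e : Set (Cfsg.IrrCharacter (Subgroup.centralizer (P : Set G)))}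
    {f : Set (Cfsg.IrrCharacter (Subgroup.centralizer (Q : Set G)))}
    (hmax : Cfsg.IsMaximalBrauerPair p M B P e) (hQf : Cfsg.IsBrauerPairOf p M B Q f) :
    ∃ x : G, Cfsg.SubpairLE p M (cj x Q) (imgSet (cjC x Q) f) P e := by
  classical
  haveI := Fintype.ofFinite G
  haveI : Fact p.Prime := ⟨hM.1⟩
  obtain ⟨P1, e1, hmax1, hc⟩ := exists_maximal hM hQf
  obtain ⟨b, hb, hbe, hbD, hbi, hBD⟩ := maximal_defect hM hmax
  obtain ⟨-, -, -, -, -, hBD1⟩ := maximal_defect hM hmax1
  obtain ⟨y, hy⟩ := defectGroup_conj hM hmax.1.2.1 hBD1 hBD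
  -- the conjugate pair at `P`
  obtain ⟨e2, he2⟩ : ∃ e2 : Set (Cfsg.IrrCharacter (Subgroup.centralizer (P : Set G))),
      cp y ⟨P1, e1⟩ = (⟨P, e2⟩ : Cfsg.BrauerPairIdx G) := by
    subst hy
    exact ⟨_, rfl⟩
  have hof2 : Cfsg.IsBrauerPairOf p M B P e2 := by
    have h := isBrauerPairOf_cp y hmax1.1
    have h' : Cfsg.IsBrauerPairOf p M B (cp y ⟨P1, e1⟩).1 (cp y ⟨P1, e1⟩).2 := h
    rwa [he2] at h'
  obtain ⟨b', hb', hbe', hbD', hbi', -⟩ :=
    (normalizer_alternative hM hof2).resolve_right (by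
      rintro ⟨R, g, hlt, hrel, hof⟩
      have hcard : Nat.card R ≤ Nat.card P := by
        obtain ⟨P3, e3, hmax3, hc3⟩ := exists_maximal hM hof
        obtain ⟨-, -, -, -, -, hBD3⟩ := maximal_defect hM hmax3
        obtain ⟨z, hz⟩ := defectGroup_conj hM hmax.1.2.1 hBD3 hBD
        rw [← hz, card_cj]
        exact Subgroup.card_le_of_le (le_of_chain hM hc3)
      exact hlt.ne (Subgroup.eq_of_le_of_card_ge hlt.le hcard))
  have hbb : b' = b := (first_main_two hM hmax.1.1.1 hmax.1.2.1 hBD).unique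
    ⟨hb', hbD', hbi'⟩ ⟨hb, hbD, hbi⟩
  subst hbb
  obtain ⟨z, hz, hez⟩ := conj_of_hits hM hmax.1.1.1 hb hof2.1.2 hmax.1.1.2 hbe' hbe
  have hcp : cp (z * y) ⟨P1, e1⟩ = (⟨P, e⟩ : Cfsg.BrauerPairIdx G) := by
    rw [← cp_cp, he2]
    refine idx_eq (cj_eq_self_of_mem_normalizer hz) ?_
    show pe (cj z P) _ = pe P e
    simp only [cp]
    rw [pe_imgSet, hez]
  refine ⟨z * y, ?_⟩
  have h := subpairLE_cp hM (z * y) hc
  unfold Cfsg.SubpairLE at h ⊢
  exact hcp ▸ h

end Cfsg.Agent.Blocks
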