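import Cfsg.Agent.Blocks.BrauerFeit
import Cfsg.Prelude.Def_BlockRank
import Mathlib.LinearAlgebra.Trace

/-!
# The `p`-regular rank of a block
-/

namespace Cfsg.Agent.Blocks

universe u

variable {p : ℕ} {M : Ideal Cfsg.AlgInt} {G : Type u} [Group G] [Fintype G]

theorem pRegularPart_apply (p : ℕ) (χ : G → ℂ) (g : G) :
    Cfsg.pRegularPart p χ g = if p ∣ orderOf g then 0 else χ g := by
  simp only [Cfsg.pRegularPart, Cfsg.IsPRegular]
  by_cases h : p ∣ orderOf g <;> simp [h]

theorem pow_mul_pRegularPart (p : ℕ) (χ : G → ℂ) (g : G) :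
    ((p ^ (Nat.card G).factorization p : ℕ) : ℂ) * Cfsg.pRegularPart p χ g = regFun p χ g := by
  simp only [pRegularPart_apply, regFun]
  split_ifs <;> simp

theorem classInner_pRegularPart (hp : p.Prime) (χ ψ : Cfsg.IrrCharacter G) :
    ((p ^ (Nat.card G).factorization p : ℕ) : ℂ)
      * Cfsg.classInner (Cfsg.pRegularPart p (χ : G → ℂ)) (ψ : G → ℂ) = (regVal p χ ψ : ℂ) := by
  rw [← regVal_spec hp, ← Char.classInner_smul_left]
  congr 1
  funext g
  exact pow_mul_pRegularPart p _ g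

/-- The expansion inside the block. -/
theorem regFun_expand_block (hM : Cfsg.IsPModular p M) {B : Set (Cfsg.IrrCharacter G)}
    (hB : Cfsg.IsPBlock M B) {χ : Cfsg.IrrCharacter G} (hχ : χ ∈ B) (g : G) :
    regFun p (χ : G → ℂ) g
      = ∑ ψ ∈ B.toFinite.toFinset, (regVal p χ ψ : ℂ) * (ψ : G → ℂ) g := by
  classical
  rw [regFun_expand hM.1 χ, Finset.sum_apply]
  symm
  refine Finset.sum_subset (Finset.subset_univ _) fun ψ _ hψ => ?_
  rw [regVal_eq_zero hM fun h => hψ (B.toFinite.mem_toFinset.2 ?_), Int.cast_zero, zero_mul]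
  rw [block_eq_blockOf hM hB hχ]
  exact h

theorem pRegularPart_expand_block (hM : Cfsg.IsPModular p M) {B : Set (Cfsg.IrrCharacter G)}
    (hB : Cfsg.IsPBlock M B) {χ : Cfsg.IrrCharacter G} (hχ : χ ∈ B) (g : G) :
    Cfsg.pRegularPart p (χ : G → ℂ) g = ∑ ψ ∈ B.toFinite.toFinset,
      Cfsg.classInner (Cfsg.pRegularPart p (χ : G → ℂ)) (ψ : G → ℂ) * (ψ : G → ℂ) g := by
  have hp0 : ((p ^ (Nat.card G).factorization p : ℕ) : ℂ) ≠ 0 := by
    exact_mod_cast pow_ne_zero _ hM.1.ne_zero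
  refine mul_left_cancel₀ hp0 ?_
  rw [pow_mul_pRegularPart, regFun_expand_block hM hB hχ, Finset.mul_sum]
  refine Finset.sum_congr rfl fun ψ _ => ?_
  rw [← mul_assoc, classInner_pRegularPart hM.1]

/-- The rank as a trace. -/
theorem blockRank_eq (hM : Cfsg.IsPModular p M) {B : Set (Cfsg.IrrCharacter G)}
    (hB : Cfsg.IsPBlock M B) :
    (Cfsg.blockRank p B : ℂ) = ∑ χ ∈ B.toFinite.toFinset,
      Cfsg.classInner (Cfsg.pRegularPart p (χ : G → ℂ)) (χ : G → ℂ) := by
  classical
  set F := B.toFinite.toFinset with hF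
  let T : (G → ℂ) →ₗ[ℂ] (G → ℂ) := ∑ χ ∈ F,
    (Char.innerLeft (χ : G → ℂ)).smulRight (Cfsg.pRegularPart p (χ : G → ℂ))
  set V := Submodule.span ℂ
    ((fun χ : Cfsg.IrrCharacter G => Cfsg.pRegularPart p (χ : G → ℂ)) '' B) with hV
  have hT : LinearMap.IsProj V T := by
    refine ⟨fun f => ?_, fun f hf => ?_⟩
    · simp only [T, LinearMap.sum_apply, LinearMap.smulRight_apply]
      exact V.sum_mem fun χ hχ => V.smul_mem _
        (Submodule.subset_span ⟨χ, B.toFinite.mem_toFinset.1 hχ, rfl⟩)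
    · induction hf using Submodule.span_induction with
      | mem v hv =>
        obtain ⟨χ, hχ, rfl⟩ := hv
        funext g
        simp only [T, LinearMap.sum_apply, LinearMap.smulRight_apply, Finset.sum_apply,
          Pi.smul_apply, smul_eq_mul, pRegularPart_apply]
        show ∑ ψ ∈ F, Cfsg.classInner (Cfsg.pRegularPart p (χ : G → ℂ)) (ψ : G → ℂ) * _ = _
        split_ifs with hg
        · simp
        · rw [← pRegularPart_expand_block hM hB hχ g, pRegularPart_apply, if_neg hg]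
      | zero => exact map_zero T
      | add a b _ _ ha hb => rw [map_add, ha, hb]
      | smul c a _ ha => rw [map_smul, ha]
  rw [Cfsg.blockRank, ← hT.trace]
  simp only [T, map_sum, LinearMap.trace_smulRight]
  rfl

end Cfsg.Agent.Blocks
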