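import Cfsg.Agent.Blocks.AbelianDefect
import Cfsg.Agent.Blocks.SectionApp
import Cfsg.Agent.Blocks.BlockKernel
import Cfsg.Agent.Blocks.RegSpan
import Cfsg.Agent.S4663
import Cfsg.Agent.S0939
import Cfsg.Agent.Transfer.Frobenius

/-!
# Nilpotency of the principal block
-/

namespace Cfsg.Agent.Blocks

universe u

variable {p : ℕ} {M : Ideal Cfsg.AlgInt} {G : Type u} [Group G] [Fintype G]

theorem principal_stable (hM : Cfsg.IsPModular p M) {Q : Subgroup G} (hQ : IsPGroup p Q) {y : G}
    (hy : y ∈ Subgroup.normalizer (Q : Set G)) :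
    Cfsg.StabilizesBlock (Subgroup.centralizer (Q : Set G))
      (Cfsg.principalBlock M (Subgroup.centralizer (Q : Set G))) y := by
  haveI : Fact p.Prime := ⟨hM.1⟩
  have he := principal_isPBlock (G := Subgroup.centralizer (Q : Set G)) M
  have hof : Cfsg.IsBrauerPairOf p M (Cfsg.principalBlock M G) Q
      (Cfsg.principalBlock M (Subgroup.centralizer (Q : Set G))) :=
    (Cfsg.Agent.S4663.result p M hM Q hQ _ he).2 rfl
  obtain ⟨e2, he2, hpe, -⟩ := exists_conj_block hy he
  have hidx : cp y (⟨Q, Cfsg.principalBlock M (Subgroup.centralizer (Q : Set G))⟩ : Cfsg.BrauerPairIdx G)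
      = ⟨Q, e2⟩ := idx_eq (cj_eq_self_of_mem_normalizer hy) ((pe_cp y _).trans hpe.symm)
  have h2 := isBrauerPairOf_cp y hof
  have key : ∀ a : Cfsg.BrauerPairIdx G, a = ⟨Q, e2⟩ →
      Cfsg.IsBrauerPairOf p M (Cfsg.principalBlock M G) a.1 a.2 →
      Cfsg.IsBrauerPairOf p M (Cfsg.principalBlock M G) Q e2 := by
    rintro a rfl h; exact h
  have h3 := (Cfsg.Agent.S4663.result p M hM Q hQ e2 he2).1 (key _ hidx h2)
  rw [h3] at hidx
  exact (stabilizesBlock_iff hM hy he).2 ((cp_fix_iff hy).1 hidx)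

theorem principal_nilpotent_iff (hM : Cfsg.IsPModular p M) :
    Cfsg.HasNormalPComplement p G ↔ Cfsg.IsNilpotentBlock p M (Cfsg.principalBlock M G) := by
  haveI : Fact p.Prime := ⟨hM.1⟩
  rw [Transfer.hasNPC_iff_frobCond]
  constructor
  · intro h
    exact ⟨principal_isPBlock M, fun Q e he x hx _ hreg =>
      h Q he.1.1 x hx (hM.1.coprime_iff_not_dvd.2 hreg).symm⟩
  · intro h Q hQ g hg hco
    refine h.2 Q _ ((Cfsg.Agent.S4663.result p M hM Q hQ _ (principal_isPBlock M)).2 rfl) g hg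
      (principal_stable hM hQ hg) ?_
    exact hM.1.coprime_iff_not_dvd.1 hco.symm

theorem regular_mem_of_index {N : Subgroup G} [N.Normal] {k : ℕ} (hk : N.index = p ^ k) (hp : p.Prime)
    {g : G} (hg : Cfsg.IsPRegular p g) : g ∈ N := by
  have h1 := Subgroup.pow_index_mem N g
  rw [hk] at h1
  have hcop : Nat.Coprime (orderOf g) (p ^ k) :=
    Nat.Coprime.pow_right k (hp.coprime_iff_not_dvd.2 hg).symm
  obtain ⟨m, hm⟩ := exists_pow_eq_self_of_coprime hcop.symm
  rw [← hm]
  exact N.pow_mem h1 m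

theorem principal_rank_one_iff (hM : Cfsg.IsPModular p M) :
    Cfsg.HasNormalPComplement p G ↔ Cfsg.blockRank p (Cfsg.principalBlock M G) = 1 := by
  classical
  haveI : Fact p.Prime := ⟨hM.1⟩
  set v : G → ℂ := Cfsg.pRegularPart p (fun _ => (1 : ℂ)) with hv
  have hv1 : v 1 = 1 := by
    rw [hv, pRegularPart_apply, if_neg]
    rw [orderOf_one]; exact hM.1.not_dvd_one
  have hv0 : v ≠ 0 := fun h => by
    have := congrFun h 1
    rw [hv1] at this
    exact one_ne_zero this
  set W := Submodule.span ℂ ((fun χ : Cfsg.IrrCharacter G => Cfsg.pRegularPart p (χ : G → ℂ)) ''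
    Cfsg.principalBlock M G) with hW
  have hvW : v ∈ W := Submodule.subset_span ⟨Char.oneIrr G, one_mem_principal hM, by
    show Cfsg.pRegularPart p (Char.oneIrr G : G → ℂ) = v
    rw [hv, show (Char.oneIrr G : G → ℂ) = fun _ => (1 : ℂ) from funext fun g => Char.oneIrr_apply g]⟩
  haveI hKn : (Cfsg.pPrimeCore p G).Normal := (Solv.pPrimeCore_mem p).1
  constructor
  · rintro ⟨P, N, hN, hc⟩
    obtain ⟨a, ha⟩ := IsPGroup.iff_card.1 P.2
    have hidx : N.index = p ^ a := by
      rw [hc.symm.index_eq_card]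
      exact ha
    have hNcop : (Nat.card N).Coprime p := by
      have hi := P.not_dvd_index
      rw [hc.index_eq_card] at hi
      exact (hM.1.coprime_iff_not_dvd.2 hi).symm
    have hle : N ≤ Cfsg.pPrimeCore p G := Solv.le_pPrimeCore hN hNcop
    have hKk : ∃ k, (Cfsg.pPrimeCore p G).index = p ^ k := by
      obtain ⟨k, -, hk⟩ := (Nat.dvd_prime_pow hM.1).1 (hidx ▸ Subgroup.index_dvd_of_le hle)
      exact ⟨k, hk⟩
    have hWv : W = ℂ ∙ v := by
      refine le_antisymm (Submodule.span_le.2 ?_) ((Submodule.span_singleton_le_iff_mem _ _).2 hvW)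
      rintro _ ⟨χ, hχ, rfl⟩
      refine Submodule.mem_span_singleton.2 ⟨(χ : G → ℂ) 1, funext fun g => ?_⟩
      rw [Cfsg.Agent.S0939.result p M hM hKk] at hχ
      rw [Pi.smul_apply, hv]
      show (χ : G → ℂ) 1 • Cfsg.pRegularPart p (fun _ => (1 : ℂ)) g = Cfsg.pRegularPart p (χ : G → ℂ) g
      rw [pRegularPart_apply, pRegularPart_apply, smul_eq_mul]
      split_ifs with hg
      · rw [mul_zero]
      · rw [mul_one, hχ g (hle (regular_mem_of_index hidx hM.1 hg))]
    show Module.finrank ℂ W = 1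
    rw [hWv, finrank_span_singleton hv0]
  · intro h
    have h1 : Module.finrank ℂ W = 1 := h
    obtain ⟨K, hK, hKker, hKp⟩ := exists_blockKer hM (principal_isPBlock (G := G) M)
    haveI := hK
    have hWv : W = ℂ ∙ v := by
      haveI : FiniteDimensional ℂ W := inferInstance
      refine (Submodule.eq_of_le_of_finrank_le ((Submodule.span_singleton_le_iff_mem _ _).2 hvW) ?_).symm
      rw [h1, finrank_span_singleton hv0]
    have hreg : ∀ g : G, Cfsg.IsPRegular p g → g ∈ K := by
      intro g hg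
      show g ∈ (K : Set G)
      rw [hKker]
      intro χ hχ
      obtain ⟨c, hc⟩ := Submodule.mem_span_singleton.1
        (hWv ▸ Submodule.subset_span ⟨χ, hχ, rfl⟩ : Cfsg.pRegularPart p (χ : G → ℂ) ∈ ℂ ∙ v)
      have h2 := congrFun hc g
      have h3 := congrFun hc 1
      have h1r : Cfsg.IsPRegular p (1 : G) := by
        show ¬ p ∣ orderOf (1 : G)
        rw [orderOf_one]; exact hM.1.not_dvd_one
      rw [Pi.smul_apply, hv, pRegularPart_apply, pRegularPart_apply, if_neg (show ¬ p ∣ orderOf g from hg), if_neg (show ¬ p ∣ orderOf g from hg)] at h2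
      rw [Pi.smul_apply, hv, pRegularPart_apply, pRegularPart_apply, if_neg (show ¬ p ∣ orderOf (1 : G) from h1r), if_neg (show ¬ p ∣ orderOf (1 : G) from h1r)] at h3
      rw [← h2, ← h3]
    obtain ⟨P⟩ : Nonempty (Sylow p G) := inferInstance
    refine ⟨P, K, hK, ?_⟩
    have hq : IsPGroup p (G ⧸ K) := by
      intro q
      obtain ⟨g, rfl⟩ := QuotientGroup.mk'_surjective K q
      obtain ⟨x, y, hxy, hcomm, ⟨k, hk⟩, hy, -, -⟩ := exists_pPart hM.1 g
      refine ⟨k, ?_⟩
      rw [← hxy, map_mul, show QuotientGroup.mk' K y = 1 from (QuotientGroup.eq_one_iff y).2 (hreg y hy),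
        mul_one, ← map_pow, ← hk, pow_orderOf_eq_one, map_one]
    obtain ⟨k, hk⟩ := IsPGroup.iff_card.1 hq
    obtain ⟨a, ha⟩ := IsPGroup.iff_card.1 P.2
    have hcop : (Nat.card K).Coprime (Nat.card P) := by
      rw [ha]; exact Nat.Coprime.pow_right a (hM.1.coprime_iff_not_dvd.2 hKp).symm
    have hGK : Nat.card G = p ^ k * Nat.card K := by
      rw [← hk]; exact Subgroup.card_eq_card_quotient_mul_card_subgroup K
    refine Subgroup.isComplement'_of_coprime ?_ hcop
    have hPk : Nat.card P = p ^ k := by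
      rw [P.card_eq_multiplicity, hGK, Nat.factorization_mul (pow_pos hM.1.pos k).ne' Nat.card_pos.ne',
        Finsupp.add_apply, Nat.Prime.factorization_pow hM.1, Finsupp.single_eq_same,
        Nat.factorization_eq_zero_of_not_dvd hKp, add_zero]
    rw [hPk, hGK, mul_comm]

end Cfsg.Agent.Blocks
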