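import Cfsg.Agent.Blocks.HeightZero
import Cfsg.Agent.Char.Brauer

/-!
# The integer matrix of a block on `p`-regular elements

`regVal p χ ψ` is the multiplicity of `ψ` in `|G|_p` times the restriction of `χ` to the
`p`-regular elements.
-/

namespace Cfsg.Agent.Blocks

universe u

variable {p : ℕ} {M : Ideal Cfsg.AlgInt} {G : Type u} [Group G]

/-- `|G|_p` times the `p`-regular part of a function. -/
noncomputable def regFun (p : ℕ) (χ : G → ℂ) : G → ℂ :=
  fun g => if p ∣ orderOf g then 0 else ((p ^ (Nat.card G).factorization p : ℕ) : ℂ) * χ g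

variable [Fintype G]

theorem isGeneralized_regFun (hp : p.Prime) {χ : G → ℂ} (hχ : Cfsg.IsCharacter G χ) :
    Cfsg.IsGeneralizedCharacter G (regFun p χ) := by
  obtain ⟨a, b, ha, hb, hab⟩ := Char.isGeneralizedCharacter_regular (G := G) hp
  refine ⟨a * χ, b * χ, Char.isCharacter_mul ha hχ, Char.isCharacter_mul hb hχ, ?_⟩
  rw [← sub_mul, ← hab]
  funext g
  simp only [regFun, Pi.mul_apply, Nat.cast_pow]
  split_ifs <;> simp

theorem exists_regVal (hp : p.Prime) (χ ψ : Cfsg.IrrCharacter G) :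
    ∃ n : ℤ, Cfsg.classInner (regFun p (χ : G → ℂ)) (ψ : G → ℂ) = n :=
  (Char.isGeneralizedCharacter_iff_inner_int.1
    (isGeneralized_regFun hp (Char.isCharacter_of_isIrrCharacter χ.2))).2 ψ

/-- The multiplicity of `ψ` in `|G|_p` times the `p`-regular restriction of `χ`. -/
noncomputable def regVal (p : ℕ) (χ ψ : Cfsg.IrrCharacter G) : ℤ :=
  open Classical in
  if h : ∃ n : ℤ, Cfsg.classInner (regFun p (χ : G → ℂ)) (ψ : G → ℂ) = n then h.choose else 0

theorem regVal_spec (hp : p.Prime) (χ ψ : Cfsg.IrrCharacter G) :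
    Cfsg.classInner (regFun p (χ : G → ℂ)) (ψ : G → ℂ) = (regVal p χ ψ : ℂ) := by
  have h := exists_regVal hp χ ψ
  rw [regVal, dif_pos h]
  exact h.choose_spec

theorem regFun_expand (hp : p.Prime) (χ : Cfsg.IrrCharacter G) :
    regFun p (χ : G → ℂ) = ∑ ψ : Cfsg.IrrCharacter G, (regVal p χ ψ : ℂ) • (ψ : G → ℂ) := by
  have h := Char.classFunction_expand (Char.isGeneralizedCharacter_iff_inner_int.1
    (isGeneralized_regFun hp (Char.isCharacter_of_isIrrCharacter χ.2))).1
  simpa only [regVal_spec hp] using h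

theorem classInner_regFun_comm (χ ψ : G → ℂ) :
    Cfsg.classInner (regFun p χ) ψ = starRingEnd ℂ (Cfsg.classInner (regFun p ψ) χ) := by
  unfold Cfsg.classInner regFun
  rw [map_mul, map_inv₀, Complex.conj_natCast, map_sum]
  congr 1
  refine Finset.sum_congr rfl fun g _ => ?_
  split_ifs
  · simp
  · simp only [map_mul, Complex.conj_natCast, Complex.conj_conj]; ring

theorem regVal_comm (hp : p.Prime) (χ ψ : Cfsg.IrrCharacter G) :
    regVal p χ ψ = regVal p ψ χ := by
  have h := classInner_regFun_comm (p := p) (χ : G → ℂ) (ψ : G → ℂ)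
  rw [regVal_spec hp, regVal_spec hp, map_intCast] at h
  exact_mod_cast h

theorem regVal_ev (hp : p.Prime) (χ ψ : Cfsg.IrrCharacter G) :
    (regVal p χ ψ : ℂ) = (Nat.card G : ℂ)⁻¹ * ((p ^ (Nat.card G).factorization p : ℕ) : ℂ)
      * ev (χ : G → ℂ) (regElt p (ψ : G → ℂ)) := by
  rw [← regVal_spec hp, Cfsg.classInner, mul_assoc, ev, Finset.mul_sum _ _ (((p ^ _ : ℕ) : ℂ))]
  congr 1
  refine Finset.sum_congr rfl fun g _ => ?_
  simp only [regElt, regFun, ga, MonoidAlgebra.coeff_ofCoeff, Finsupp.coe_equivFunOnFinite_symm,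
    Char.irr_apply_inv]
  split_ifs <;> ring

theorem regVal_eq_omega (hp : p.Prime) (χ ψ : Cfsg.IrrCharacter G) :
    (regVal p χ ψ : ℂ) * ((Nat.card G / p ^ (Nat.card G).factorization p : ℕ) : ℂ)
      = (χ : G → ℂ) 1 * omega (χ : G → ℂ) (regElt p (ψ : G → ℂ)) := by
  rw [regVal_ev hp, omega]
  have hp0 : ((p ^ (Nat.card G).factorization p : ℕ) : ℂ) ≠ 0 := by
    exact_mod_cast pow_ne_zero _ hp.ne_zero
  have hq : ((Nat.card G / p ^ (Nat.card G).factorization p : ℕ) : ℂ) ≠ 0 := by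
    exact_mod_cast (Nat.ordCompl_pos p Nat.card_pos.ne').ne'
  have hG : (Nat.card G : ℂ) = ((p ^ (Nat.card G).factorization p : ℕ) : ℂ)
      * ((Nat.card G / p ^ (Nat.card G).factorization p : ℕ) : ℂ) := by
    exact_mod_cast (Nat.ordProj_mul_ordCompl_eq_self (Nat.card G) p).symm
  rw [hG]
  field_simp [Char.irr_one_ne_zero χ]

theorem regVal_eq_zero (hM : Cfsg.IsPModular p M) {χ ψ : Cfsg.IrrCharacter G}
    (h : ¬ Cfsg.SameBlock M (χ : G → ℂ) (ψ : G → ℂ)) : regVal p χ ψ = 0 := by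
  have h1 := regVal_eq_omega hM.1 χ ψ
  rw [omega_regElt_eq_zero hM fun h' => h (sameBlock_symm h'), mul_zero] at h1
  have hq : ((Nat.card G / p ^ (Nat.card G).factorization p : ℕ) : ℂ) ≠ 0 := by
    exact_mod_cast (Nat.ordCompl_pos p Nat.card_pos.ne').ne'
  exact_mod_cast (mul_eq_zero.1 h1).resolve_right hq

/-- The `p`-part of the degree divides every entry, and strictly if the partner has positive height. -/
theorem pow_dvd_regVal (hM : Cfsg.IsPModular p M) (χ ψ : Cfsg.IrrCharacter G) :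
    (p : ℤ) ^ (Cfsg.charDegree (χ : G → ℂ)).factorization p ∣ regVal p χ ψ := by
  set v := (Cfsg.charDegree (χ : G → ℂ)).factorization p
  set q := Nat.card G / p ^ (Nat.card G).factorization p
  have h1 := regVal_eq_omega hM.1 χ ψ
  have hlr := omega_lr hM χ (isCentral_regElt p (Char.irr_isClassFunction ψ))
    (regElt_mem hM (Char.isCharacter_of_isIrrCharacter ψ.2))
  have hm : ¬ p ∣ q := Nat.not_dvd_ordCompl hM.1 Nat.card_pos.ne'
  have hd : (χ : G → ℂ) 1 = (p : ℂ) ^ v * ((Cfsg.charDegree (χ : G → ℂ) / p ^ v : ℕ) : ℂ) := by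
    rw [(irr_charDegree χ).1]
    exact_mod_cast (Nat.ordProj_mul_ordCompl_eq_self _ p).symm
  have hz : Cfsg.MemLocalRing M (((Cfsg.charDegree (χ : G → ℂ) / p ^ v : ℕ) : ℂ)
      * omega (χ : G → ℂ) (regElt p (ψ : G → ℂ))) :=
    lr_mul hM ((mem_locRing hM).1 (natCast_mem _ _)) hlr
  have hcop : IsCoprime ((p : ℤ) ^ v) (q : ℤ) := by
    rw [← Nat.cast_pow, Int.isCoprime_iff_nat_coprime, Int.natAbs_natCast, Int.natAbs_natCast]
    exact (hM.1.coprime_iff_not_dvd.2 hm).pow_left v
  refine hcop.dvd_of_dvd_mul_right ?_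
  have key : ∀ n : ℤ, (n : ℂ) = (p : ℂ) ^ v * (((Cfsg.charDegree (χ : G → ℂ) / p ^ v : ℕ) : ℂ)
      * omega (χ : G → ℂ) (regElt p (ψ : G → ℂ))) → (p : ℤ) ^ v ∣ n := by
    intro n hn
    obtain ⟨m, rfl | rfl⟩ := Int.eq_nat_or_neg n
    · exact_mod_cast dvd_of_natCast_eq_pow_mul hM hz (by exact_mod_cast hn)
    · rw [dvd_neg]
      refine mod_cast dvd_of_natCast_eq_pow_mul hM (lr_neg hz) ?_
      rw [Int.cast_neg, Int.cast_natCast, neg_eq_iff_eq_neg, ← mul_neg] at hn
      exact hn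
  refine key _ ?_
  push_cast
  rw [h1, hd]; ring

theorem pow_succ_dvd_regVal (hM : Cfsg.IsPModular p M) {B : Set (Cfsg.IrrCharacter G)}
    (hB : Cfsg.IsPBlock M B) {χ ψ : Cfsg.IrrCharacter G} (hχ : χ ∈ B) (hψ : ψ ∈ B)
    (h0 : Cfsg.blockHeight p B (ψ : G → ℂ) ≠ 0) :
    (p : ℤ) ^ ((Cfsg.charDegree (χ : G → ℂ)).factorization p + 1) ∣ regVal p χ ψ := by
  obtain ⟨c, hc⟩ := pow_dvd_regVal hM χ ψ
  set v := (Cfsg.charDegree (χ : G → ℂ)).factorization p
  set q := Nat.card G / p ^ (Nat.card G).factorization p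
  have h1 := regVal_eq_omega hM.1 χ ψ
  have hd : (χ : G → ℂ) 1 = (p : ℂ) ^ v * ((Cfsg.charDegree (χ : G → ℂ) / p ^ v : ℕ) : ℂ) := by
    rw [(irr_charDegree χ).1]
    exact_mod_cast (Nat.ordProj_mul_ordCompl_eq_self _ p).symm
  rw [hc, hd, Int.cast_mul, Int.cast_pow, Int.cast_natCast, mul_assoc, mul_assoc] at h1
  have h2 := mul_left_cancel₀ (pow_ne_zero v (by exact_mod_cast hM.1.ne_zero)) h1
  have h3 : Cfsg.MemLocalIdeal M ((c * (q : ℤ) : ℤ) : ℂ) := by
    push_cast
    rw [h2]
    exact li_mul_left hM ((mem_locRing hM).1 (natCast_mem _ _))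
      (li_omega_regElt_of_height hM hB hψ h0 hχ)
  have h4 := (li_intCast_iff hM _).1 h3
  have h5 : (p : ℤ) ∣ c := ((Nat.prime_iff_prime_int.1 hM.1).dvd_or_dvd h4).resolve_right
    fun h => Nat.not_dvd_ordCompl hM.1 Nat.card_pos.ne' (Int.natCast_dvd_natCast.1 h)
  rw [hc, pow_succ]
  exact mul_dvd_mul_left _ h5

/-- Parseval for the matrix. -/
theorem sum_regVal_sq (hp : p.Prime) (χ : Cfsg.IrrCharacter G) :
    ∑ ψ : Cfsg.IrrCharacter G, regVal p χ ψ ^ 2
      = (p : ℤ) ^ (Nat.card G).factorization p * regVal p χ χ := by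
  have h1 : Cfsg.classInner (regFun p (χ : G → ℂ)) (regFun p (χ : G → ℂ))
      = ((p ^ (Nat.card G).factorization p : ℕ) : ℂ) * (regVal p χ χ : ℂ) := by
    rw [← regVal_spec hp]
    unfold Cfsg.classInner
    simp only [Finset.mul_sum]
    refine Finset.sum_congr rfl fun g _ => ?_
    simp only [regFun]
    split_ifs
    · simp
    · simp only [map_mul, Complex.conj_natCast]; ring
  conv_lhs at h1 => arg 2; rw [regFun_expand hp χ]
  rw [Char.classInner_sum_right] at h1
  simp only [Char.classInner_smul_right, regVal_spec hp, map_intCast] at h1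
  have h2 : ((∑ ψ : Cfsg.IrrCharacter G, regVal p χ ψ ^ 2 : ℤ) : ℂ)
      = (((p : ℤ) ^ (Nat.card G).factorization p * regVal p χ χ : ℤ) : ℂ) := by
    push_cast at h1 ⊢
    rw [← h1]
    exact Finset.sum_congr rfl fun ψ _ => by ring
  exact_mod_cast h2

theorem regVal_self_re (hp : p.Prime) (χ : Cfsg.IrrCharacter G) :
    ((regVal p χ χ : ℤ) : ℝ) * (Nat.card G : ℝ) = ((p ^ (Nat.card G).factorization p : ℕ) : ℝ) *
      ∑ g : G, (if p ∣ orderOf g then 0 else Complex.normSq ((χ : G → ℂ) g)) := by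
  have h := regVal_spec hp χ χ
  have h2 : ((regVal p χ χ : ℤ) : ℂ) * (Nat.card G : ℂ)
      = (((p ^ (Nat.card G).factorization p : ℕ) : ℝ) *
      ∑ g : G, (if p ∣ orderOf g then 0 else Complex.normSq ((χ : G → ℂ) g)) : ℝ) := by
    rw [← h, Cfsg.classInner, mul_comm, ← mul_assoc, mul_inv_cancel₀
      (by exact_mod_cast Nat.card_pos.ne'), one_mul, Complex.ofReal_mul, Complex.ofReal_natCast,
      Complex.ofReal_sum, Finset.mul_sum]
    refine Finset.sum_congr rfl fun g _ => ?_
    simp only [regFun]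
    split_ifs
    · simp
    · rw [mul_assoc, Complex.mul_conj]
  exact_mod_cast h2

theorem regVal_self_pos (hp : p.Prime) (χ : Cfsg.IrrCharacter G) : 0 < regVal p χ χ := by
  have h := regVal_self_re hp χ
  have hpos : 0 < ∑ g : G, (if p ∣ orderOf g then 0 else Complex.normSq ((χ : G → ℂ) g)) := by
    refine Finset.sum_pos' (fun g _ => ?_) ⟨1, Finset.mem_univ _, ?_⟩
    · split_ifs
      · exact le_rfl
      · exact Complex.normSq_nonneg _
    · rw [orderOf_one, if_neg hp.not_dvd_one]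
      exact Complex.normSq_pos.2 (Char.irr_one_ne_zero χ)
  have h1 : 0 < ((regVal p χ χ : ℤ) : ℝ) * (Nat.card G : ℝ) := by
    rw [h]; exact mul_pos (by exact_mod_cast pow_pos hp.pos _) hpos
  exact_mod_cast pos_of_mul_pos_left h1 (Nat.cast_nonneg _)

theorem regVal_self_le (hp : p.Prime) (χ : Cfsg.IrrCharacter G) :
    regVal p χ χ ≤ (p : ℤ) ^ (Nat.card G).factorization p ∧
      (regVal p χ χ = (p : ℤ) ^ (Nat.card G).factorization p →
        ∀ g : G, p ∣ orderOf g → (χ : G → ℂ) g = 0) := by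
  have h := regVal_self_re hp χ
  have htot : ∑ g : G, Complex.normSq ((χ : G → ℂ) g) = (Nat.card G : ℝ) := by
    have h1 := Char.classInner_irr_self χ
    rw [Cfsg.classInner, inv_mul_eq_div, div_eq_iff (by exact_mod_cast Nat.card_pos.ne'),
      one_mul] at h1
    simp only [Complex.mul_conj] at h1
    exact_mod_cast h1
  have hG : (0 : ℝ) < Nat.card G := by exact_mod_cast Nat.card_pos
  have hpp : (0 : ℝ) < ((p ^ (Nat.card G).factorization p : ℕ) : ℝ) := by
    exact_mod_cast pow_pos hp.pos _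
  have hterm : ∀ g : G, (if p ∣ orderOf g then 0 else Complex.normSq ((χ : G → ℂ) g))
      ≤ Complex.normSq ((χ : G → ℂ) g) := fun g => by
    split_ifs
    · exact Complex.normSq_nonneg _
    · exact le_rfl
  constructor
  · have hle := Finset.sum_le_sum (s := (Finset.univ : Finset G)) fun g _ => hterm g
    rw [htot] at hle
    have : ((regVal p χ χ : ℤ) : ℝ) ≤ ((p ^ (Nat.card G).factorization p : ℕ) : ℝ) := by
      refine le_of_mul_le_mul_right ?_ hG
      rw [h]
      exact mul_le_mul_of_nonneg_left hle hpp.le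
    exact_mod_cast this
  · intro heq g hg
    rw [heq, Int.cast_pow, Int.cast_natCast, ← Nat.cast_pow] at h
    have h2 : ∑ g : G, (if p ∣ orderOf g then 0 else Complex.normSq ((χ : G → ℂ) g))
        = ∑ g : G, Complex.normSq ((χ : G → ℂ) g) := by
      rw [htot]; exact (mul_left_cancel₀ hpp.ne' h).symm
    have h3 := (Finset.sum_eq_sum_iff_of_le fun g _ => hterm g).1 h2 g (Finset.mem_univ g)
    rw [if_pos hg] at h3
    exact Complex.normSq_eq_zero.1 h3.symm

omit [Fintype G] in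
/-- A character vanishing on `p`-singular elements has degree divisible by the full `p`-part. -/
theorem degree_full_of_vanish [Finite G] (hp : p.Prime) (χ : Cfsg.IrrCharacter G)
    (h : ∀ g : G, p ∣ orderOf g → (χ : G → ℂ) g = 0) :
    (Cfsg.charDegree (χ : G → ℂ)).factorization p = (Nat.card G).factorization p := by
  classical
  haveI : Fact p.Prime := ⟨hp⟩
  refine le_antisymm (degree_factorization_le χ p) ?_
  obtain ⟨P⟩ : Nonempty (Sylow p G) := inferInstance
  haveI := Fintype.ofFinite (P : Subgroup G)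
  obtain ⟨k, hk⟩ := Char.exists_nat_inner
    (Char.isCharacter_comp (Char.isCharacter_of_isIrrCharacter χ.2) (P : Subgroup G).subtype)
    (Char.isCharacter_of_isIrrCharacter (Char.isIrrCharacter_one (G := (P : Subgroup G))))
  rw [Cfsg.classInner, Finset.sum_eq_single (1 : (P : Subgroup G))] at hk
  · simp only [map_one, mul_one, Subgroup.coe_subtype, OneMemClass.coe_one,
      (irr_charDegree χ).1] at hk
    rw [inv_mul_eq_div, div_eq_iff (by exact_mod_cast Nat.card_pos.ne')] at hk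
    have h2 : Cfsg.charDegree (χ : G → ℂ) = k * Nat.card (P : Subgroup G) := by exact_mod_cast hk
    refine (hp.pow_dvd_iff_le_factorization (irr_charDegree χ).2).1 ?_
    rw [h2, P.card_eq_multiplicity]
    exact dvd_mul_left _ _
  · intro b _ hb
    have hd : p ∣ orderOf (b : G) := by
      obtain ⟨j, hj⟩ := IsPGroup.iff_orderOf.1 P.2 b
      rw [Subgroup.orderOf_coe, hj]
      refine dvd_pow_self p ?_
      rintro rfl
      exact hb (orderOf_eq_one_iff.1 (by simpa using hj))
    simp [h _ hd]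
  · intro hno; exact absurd (Finset.mem_univ _) hno

theorem regVal_self_lt (hp : p.Prime) (χ : Cfsg.IrrCharacter G)
    (h : (Cfsg.charDegree (χ : G → ℂ)).factorization p < (Nat.card G).factorization p) :
    regVal p χ χ < (p : ℤ) ^ (Nat.card G).factorization p :=
  lt_of_le_of_ne (regVal_self_le hp χ).1 fun he =>
    h.ne (degree_full_of_vanish hp χ ((regVal_self_le hp χ).2 he))

/-- A character of positive height has degree at most `a - 2` in `p`-valuation. -/
theorem add_two_le_of_height (hM : Cfsg.IsPModular p M) {B : Set (Cfsg.IrrCharacter G)}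
    (hB : Cfsg.IsPBlock M B) {χ : Cfsg.IrrCharacter G} (hχ : χ ∈ B)
    (h0 : Cfsg.blockHeight p B (χ : G → ℂ) ≠ 0)
    (hlt : (Cfsg.charDegree (χ : G → ℂ)).factorization p < (Nat.card G).factorization p) :
    (Cfsg.charDegree (χ : G → ℂ)).factorization p + 2 ≤ (Nat.card G).factorization p := by
  by_contra hne
  have h1 := pow_succ_dvd_regVal hM hB hχ hχ h0
  rw [show (Cfsg.charDegree (χ : G → ℂ)).factorization p + 1 = (Nat.card G).factorization p by omega]
    at h1
  exact absurd (Int.le_of_dvd (regVal_self_pos hM.1 χ) h1) (not_le.2 (regVal_self_lt hM.1 χ hlt))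

end Cfsg.Agent.Blocks
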