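import Cfsg.Agent.Blocks.Section
import Cfsg.Agent.Blocks.SectionApp
import Cfsg.Agent.Blocks.RegSpan

/-!
# Subsections
-/

namespace Cfsg.Agent.Blocks

universe u

variable {p : ℕ} {M : Ideal Cfsg.AlgInt} {G : Type u} [Group G] [Fintype G]

/-- The characters of the blocks of a subgroup inducing a block. -/
def indSet (M : Ideal Cfsg.AlgInt) (K : Subgroup G) (B : Set (Cfsg.IrrCharacter G)) :
    Set (Cfsg.IrrCharacter K) :=
  {η | Cfsg.IsInducedBlock M K (Cfsg.blockOf M η.1) B}

theorem isBlockUnion_indSet (hM : Cfsg.IsPModular p M) (K : Subgroup G)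
    (B : Set (Cfsg.IrrCharacter G)) : IsBlockUnion M (indSet M K B) := fun η hη η' hη' => by
  show Cfsg.IsInducedBlock M K _ B
  rw [← blockOf_eq_of_sameBlock hM hη']
  exact hη

theorem isClassFunction_section {θ : G → ℂ} (hθ : Cfsg.IsClassFunction G θ) (x : G) :
    Cfsg.IsClassFunction (Subgroup.centralizer ({x} : Set G))
      (fun c : Subgroup.centralizer ({x} : Set G) => θ (x * (c : G))) := by
  intro g h
  have hx : (h : G) * x = x * h := Subgroup.mem_centralizer_singleton_iff.1 h.2
  show θ (x * ((h : G) * g * (h : G)⁻¹)) = θ (x * g)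
  rw [← hθ (x * g) (h : G)]
  congr 1
  calc x * ((h : G) * g * (h : G)⁻¹) = (x * h) * g * (h : G)⁻¹ := by group
    _ = ((h : G) * x) * g * (h : G)⁻¹ := by rw [hx]
    _ = _ := by group

theorem ev_idem_section' (hM : Cfsg.IsPModular p M) {B : Set (Cfsg.IrrCharacter G)}
    (hB : Cfsg.IsPBlock M B) {θ : G → ℂ} (hθ : Cfsg.IsClassFunction G θ) {x : G} {k : ℕ}
    (hx : orderOf x = p ^ k) [Fintype (Subgroup.centralizer ({x} : Set G))]
    {s : Subgroup.centralizer ({x} : Set G)} (hs : ¬ p ∣ orderOf s) :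
    ev θ (idem B * MonoidAlgebra.single (x * (s : G)) (1 : ℂ))
      = ev (fun c : Subgroup.centralizer ({x} : Set G) => θ (x * (c : G)))
          (idem (indSet M (Subgroup.centralizer ({x} : Set G)) B) * MonoidAlgebra.single s (1 : ℂ)) := by
  rw [ev_idem_section hM hB hθ hx (by rwa [Subgroup.orderOf_coe])
    (Subgroup.mem_centralizer_singleton_iff.1 s.2).symm,
    ev_mul_comm (isClassFunction_section hθ x) _ (MonoidAlgebra.single s (1 : ℂ)),
    ev_single_mul, ev_single_mul]
  simp only [Subgroup.coe_mul, ← mul_assoc]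
  exact sum_emb_mul _ _ (fun g => θ (x * (s : G) * g))

theorem eq_of_conj_section (hp : p.Prime) {x a : G} {k : ℕ} (hx : orderOf x = p ^ k)
    {c z : Subgroup.centralizer ({x} : Set G)} (hc : ¬ p ∣ orderOf c) (hz : ¬ p ∣ orderOf z)
    (h : a * (x * (c : G)) * a⁻¹ = x * (z : G)) :
    a ∈ Subgroup.centralizer ({x} : Set G) := by
  have h1 : Cfsg.IsPPart p (x * (c : G)) x :=
    ⟨c, rfl, (Subgroup.mem_centralizer_singleton_iff.1 c.2).symm, ⟨k, hx⟩,
      by rwa [Subgroup.orderOf_coe]⟩
  have h2 : Cfsg.IsPPart p (x * (z : G)) x :=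
    ⟨z, rfl, (Subgroup.mem_centralizer_singleton_iff.1 z.2).symm, ⟨k, hx⟩,
      by rwa [Subgroup.orderOf_coe]⟩
  have h3 := eq_of_isPPart hp (h ▸ isPPart_conj h1 a) h2
  exact Subgroup.mem_centralizer_singleton_iff.2 (mul_inv_eq_iff_eq_mul.1 h3)

/-- Orthogonality inside a section. -/
theorem sum_pair (hM : Cfsg.IsPModular p M) {B : Set (Cfsg.IrrCharacter G)}
    (hB : Cfsg.IsPBlock M B) {x : G} {k : ℕ} (hx : orderOf x = p ^ k)
    {y z : Subgroup.centralizer ({x} : Set G)} (hy : ¬ p ∣ orderOf y) (hz : ¬ p ∣ orderOf z) :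
    ∑ χ ∈ B.toFinite.toFinset,
        (χ : G → ℂ) (x * (y : G)) * starRingEnd ℂ ((χ : G → ℂ) (x * (z : G)))
      = ∑ η ∈ (indSet M (Subgroup.centralizer ({x} : Set G)) B).toFinite.toFinset,
          η.1 y * starRingEnd ℂ (η.1 z) := by
  classical
  haveI := Fintype.ofFinite (Subgroup.centralizer ({x} : Set G))
  let θ : G → ℂ := ∑ χ : Cfsg.IrrCharacter G,
    starRingEnd ℂ ((χ : G → ℂ) (x * (z : G))) • (χ : G → ℂ)
  let φ : Subgroup.centralizer ({x} : Set G) → ℂ := ∑ η : Cfsg.IrrCharacter _,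
    starRingEnd ℂ (η.1 z) • η.1
  have lin : ∀ {H : Type u} [Group H] [Fintype H] (A : Set (Cfsg.IrrCharacter H)) (u : H)
      (w : Cfsg.IrrCharacter H → ℂ),
      ev (∑ η : Cfsg.IrrCharacter H, w η • η.1) (idem A * MonoidAlgebra.single u (1 : ℂ))
        = ∑ η ∈ A.toFinite.toFinset, η.1 u * w η := by
    intro H _ _ A u w
    have : ev (∑ η : Cfsg.IrrCharacter H, w η • η.1) (idem A * MonoidAlgebra.single u (1 : ℂ))
        = ∑ η : Cfsg.IrrCharacter H, w η * ev η.1 (idem A * MonoidAlgebra.single u (1 : ℂ)) := by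
      simp only [ev, Finset.sum_apply, Pi.smul_apply, smul_eq_mul, Finset.mul_sum]
      rw [Finset.sum_comm]
      exact Finset.sum_congr rfl fun η _ => Finset.sum_congr rfl fun g _ => by ring
    rw [this]
    simp only [ev_idem_mul, mul_ite, mul_zero, ← Finset.sum_filter]
    refine Finset.sum_congr ?_ fun η _ => mul_comm _ _
    ext η; simp
  have hθ : Cfsg.IsClassFunction G θ := fun g h => by
    simp only [θ, Finset.sum_apply, Pi.smul_apply, Char.irr_isClassFunction _ g h]
  have hφ : Cfsg.IsClassFunction (Subgroup.centralizer ({x} : Set G)) φ := fun g h => by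
    simp only [φ, Finset.sum_apply, Pi.smul_apply, Char.irr_isClassFunction _ g h]
  have hreg : ∀ c : Subgroup.centralizer ({x} : Set G), ¬ p ∣ orderOf c → θ (x * (c : G)) = φ c := by
    intro c hc
    have e1 : θ (x * (c : G)) = ∑ χ : Cfsg.IrrCharacter G,
        (χ : G → ℂ) (x * (c : G)) * starRingEnd ℂ ((χ : G → ℂ) (x * (z : G))) := by
      simp only [θ, Finset.sum_apply, Pi.smul_apply, smul_eq_mul, mul_comm]
    have e2 : φ c = ∑ η : Cfsg.IrrCharacter _, η.1 c * starRingEnd ℂ (η.1 z) := by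
      simp only [φ, Finset.sum_apply, Pi.smul_apply, smul_eq_mul, mul_comm]
    rw [e1, e2, Char.sum_irr_mul_conj, Char.sum_irr_mul_conj]
    have hiff : IsConj (x * (c : G)) (x * (z : G)) ↔ IsConj c z := by
      constructor
      · intro h
        obtain ⟨a, ha⟩ := isConj_iff.1 h
        have hm := eq_of_conj_section hM.1 hx hc hz ha
        refine isConj_iff.2 ⟨⟨a, hm⟩, Subtype.ext ?_⟩
        have hax : a * x = x * a := Subgroup.mem_centralizer_singleton_iff.1 hm
        show a * (c : G) * a⁻¹ = z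
        refine mul_left_cancel (a := x) ?_
        rw [← ha]
        calc x * (a * (c : G) * a⁻¹) = (x * a) * c * a⁻¹ := by group
          _ = (a * x) * c * a⁻¹ := by rw [hax]
          _ = _ := by group
      · intro h
        obtain ⟨a, ha⟩ := isConj_iff.1 h
        refine isConj_iff.2 ⟨(a : G), ?_⟩
        have hax : (a : G) * x = x * a := Subgroup.mem_centralizer_singleton_iff.1 a.2
        rw [← ha]
        simp only [Subgroup.coe_mul, Subgroup.coe_inv]
        calc (a : G) * (x * c) * (a : G)⁻¹ = ((a : G) * x) * c * (a : G)⁻¹ := by group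
          _ = (x * a) * c * (a : G)⁻¹ := by rw [hax]
          _ = _ := by group
    by_cases h : IsConj c z
    · rw [if_pos h, if_pos (hiff.2 h)]
      congr 1
      refine Nat.card_congr ⟨fun a => ⟨⟨a, eq_of_conj_section hM.1 hx hc hc
        (mul_inv_eq_iff_eq_mul.2 (Subgroup.mem_centralizer_singleton_iff.1 a.2))⟩, ?_⟩,
        fun a => ⟨((a : Subgroup.centralizer ({x} : Set G)) : G), ?_⟩, fun _ => rfl, fun _ => rfl⟩
      · have hm := eq_of_conj_section hM.1 hx hc hc
          (mul_inv_eq_iff_eq_mul.2 (Subgroup.mem_centralizer_singleton_iff.1 a.2))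
        have hax : (a : G) * x = x * a := Subgroup.mem_centralizer_singleton_iff.1 hm
        refine Subgroup.mem_centralizer_singleton_iff.2 (Subtype.ext ?_)
        show (a : G) * c = c * a
        refine mul_left_cancel (a := x) ?_
        rw [← mul_assoc, ← hax, mul_assoc, Subgroup.mem_centralizer_singleton_iff.1 a.2]
        group
      · have h1 : ((a : Subgroup.centralizer ({x} : Set G)) : G) * x = x * a :=
          Subgroup.mem_centralizer_singleton_iff.1 a.1.2
        have h2 : ((a : Subgroup.centralizer ({x} : Set G)) : G) * c = c * a :=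
          congrArg Subtype.val (Subgroup.mem_centralizer_singleton_iff.1 a.2)
        refine Subgroup.mem_centralizer_singleton_iff.2 ?_
        rw [← mul_assoc, h1, mul_assoc, h2, mul_assoc]
    · rw [if_neg h, if_neg (mt hiff.1 h)]
  have h1 := ev_idem_section' hM hB hθ hx hy
  rw [lin] at h1
  rw [h1, ← lin]
  have h2 := ev_eq_zero_of_regular hM
    (idem_union_mem hM (isBlockUnion_indSet hM (Subgroup.centralizer ({x} : Set G)) B))
    (θ := fun c : Subgroup.centralizer ({x} : Set G) => θ (x * (c : G)) - φ c)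
    (fun g h => by
      show θ (x * ((h * g * h⁻¹ : Subgroup.centralizer ({x} : Set G)) : G)) - _ = _
      rw [hφ g h]
      exact congrArg (fun t => t - φ g) (isClassFunction_section hθ x g h))
    (fun c hc => sub_eq_zero.2 (hreg c hc)) hy
  simp only [ev, sub_mul, mul_sub, Finset.sum_sub_distrib] at h2
  exact sub_eq_zero.1 h2

/-- Summing a class function section by section. -/
theorem sum_sections (hp : p.Prime) (X : Finset G) (hX : ∀ x ∈ X, ∃ k : ℕ, orderOf x = p ^ k)
    (hXrep : ∀ g : G, (∃ k : ℕ, orderOf g = p ^ k) → ∃! x, x ∈ X ∧ IsConj g x)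
    {F : G → ℂ} (hF : Cfsg.IsClassFunction G F)
    [∀ x : G, Fintype (Subgroup.centralizer ({x} : Set G))] :
    ∑ g : G, F g = ∑ x ∈ X, ((Subgroup.centralizer ({x} : Set G)).index : ℂ) *
      ∑ s : Subgroup.centralizer ({x} : Set G), if p ∣ orderOf s then 0 else F (x * (s : G)) := by
  classical
  let S : G → ℂ := fun y =>
    ∑ s : Subgroup.centralizer ({y} : Set G), if p ∣ orderOf s then 0 else F (y * (s : G))
  let π : G → G := fun g => Classical.choose (exists_isPPart hp g)
  have hπ : ∀ g, Cfsg.IsPPart p g (π g) := fun g => Classical.choose_spec (exists_isPPart hp g)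
  let PE := Finset.univ.filter fun y : G => ∃ k, orderOf y = p ^ k
  have h1 : ∑ g : G, F g = ∑ y ∈ PE, S y := by
    rw [← Finset.sum_fiberwise_of_maps_to (g := π) (t := PE) fun g _ => by
      obtain ⟨w, -, -, hk, -⟩ := hπ g
      exact Finset.mem_filter.2 ⟨Finset.mem_univ _, hk⟩]
    refine Finset.sum_congr rfl fun y hy => ?_
    obtain ⟨k, hk⟩ := (Finset.mem_filter.1 hy).2
    simp only [S]
    rw [← Finset.sum_filter_add_sum_filter_not Finset.univ
      (fun s : Subgroup.centralizer ({y} : Set G) => p ∣ orderOf s) (fun s => if p ∣ orderOf s then 0 else F (y * (s : G))),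
      Finset.sum_eq_zero (s := Finset.univ.filter fun s : Subgroup.centralizer ({y} : Set G) => p ∣ orderOf s)
        (fun s hs => if_pos (Finset.mem_filter.1 hs).2), zero_add]
    symm
    refine Finset.sum_bij (fun (s : Subgroup.centralizer ({y} : Set G)) _ => y * (s : G)) ?_ ?_ ?_ ?_
    · intro s hs
      refine Finset.mem_filter.2 ⟨Finset.mem_univ _, eq_of_isPPart hp (hπ _) ⟨s, rfl,
        (Subgroup.mem_centralizer_singleton_iff.1 s.2).symm, ⟨k, hk⟩, ?_⟩⟩
      rw [Subgroup.orderOf_coe]; exact (Finset.mem_filter.1 hs).2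
    · intro a _ b _ hab
      exact Subtype.ext (mul_left_cancel hab)
    · intro g hg
      obtain ⟨w, hw1, hw2, -, hw4⟩ := hπ g
      rw [(Finset.mem_filter.1 hg).2] at hw1 hw2
      refine ⟨⟨w, Subgroup.mem_centralizer_singleton_iff.2 hw2.symm.eq⟩,
        Finset.mem_filter.2 ⟨Finset.mem_univ _, ?_⟩, hw1⟩
      rwa [← Subgroup.orderOf_coe]
    · intro s hs
      rw [if_neg (Finset.mem_filter.1 hs).2]
  have hS : ∀ a y, S (a * y * a⁻¹) = S y := by
    intro a y
    simp only [S]
    have m1 : ∀ s : Subgroup.centralizer ({a * y * a⁻¹} : Set G),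
        a⁻¹ * (s : G) * a ∈ Subgroup.centralizer ({y} : Set G) := fun s => by
      refine Subgroup.mem_centralizer_singleton_iff.2 ?_
      have h := Subgroup.mem_centralizer_singleton_iff.1 s.2
      calc a⁻¹ * (s : G) * a * y = a⁻¹ * ((s : G) * (a * y * a⁻¹)) * a := by group
        _ = a⁻¹ * ((a * y * a⁻¹) * s) * a := by rw [h]
        _ = _ := by group
    have m2 : ∀ s : Subgroup.centralizer ({y} : Set G),
        a * (s : G) * a⁻¹ ∈ Subgroup.centralizer ({a * y * a⁻¹} : Set G) := fun s => by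
      refine Subgroup.mem_centralizer_singleton_iff.2 ?_
      have h := Subgroup.mem_centralizer_singleton_iff.1 s.2
      calc a * (s : G) * a⁻¹ * (a * y * a⁻¹) = a * ((s : G) * y) * a⁻¹ := by group
        _ = a * (y * s) * a⁻¹ := by rw [h]
        _ = _ := by group
    refine Fintype.sum_equiv ⟨fun s => ⟨_, m1 s⟩, fun s => ⟨_, m2 s⟩,
      fun s => Subtype.ext (by simp [mul_assoc]), fun s => Subtype.ext (by simp [mul_assoc])⟩ _ _
      fun s => ?_
    have ho : orderOf (⟨_, m1 s⟩ : Subgroup.centralizer ({y} : Set G)) = orderOf s := by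
      rw [Subgroup.orderOf_mk, ← Subgroup.orderOf_coe s]
      have := MulEquiv.orderOf_eq (MulAut.conj a⁻¹) (s : G)
      simpa using this
    show _ = if p ∣ orderOf (⟨_, m1 s⟩ : Subgroup.centralizer ({y} : Set G)) then 0
      else F (y * (a⁻¹ * (s : G) * a))
    rw [ho]
    split_ifs
    · rfl
    · rw [← hF (y * _) a]
      congr 1
      group
  have hcover : PE = X.biUnion fun x => Finset.univ.filter fun y => IsConj x y := by
    ext y
    simp only [PE, Finset.mem_filter, Finset.mem_univ, true_and, Finset.mem_biUnion]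
    constructor
    · intro hy
      obtain ⟨x, ⟨hx, hxy⟩, -⟩ := hXrep y hy
      exact ⟨x, hx, hxy.symm⟩
    · rintro ⟨x, hx, hxy⟩
      obtain ⟨a, rfl⟩ := isConj_iff.1 hxy
      obtain ⟨k, hk⟩ := hX x hx
      exact ⟨k, by rw [← MulAut.conj_apply, MulEquiv.orderOf_eq, hk]⟩
  rw [h1, hcover, Finset.sum_biUnion]
  · refine Finset.sum_congr rfl fun x hx => ?_
    have : ∀ y ∈ Finset.univ.filter (fun y => IsConj x y), S y = S x := by
      intro y hy
      obtain ⟨a, rfl⟩ := isConj_iff.1 (Finset.mem_filter.1 hy).2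
      exact hS a x
    rw [Finset.sum_congr rfl this, Finset.sum_const, nsmul_eq_mul, Char.card_conj_set]
  · intro x hx x' hx' hne
    rw [Function.onFun, Finset.disjoint_left]
    intro y hy hy'
    refine hne ((hXrep x (hX x hx)).unique ⟨hx, IsConj.refl x⟩ ⟨hx', ?_⟩)
    exact (Finset.mem_filter.1 hy).2.trans (Finset.mem_filter.1 hy').2.symm

/-- The rank of the blocks inducing a given block as a sum over the section. -/
theorem sum_blockRank (hM : Cfsg.IsPModular p M) (K : Subgroup G) [Fintype K]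
    (B : Set (Cfsg.IrrCharacter G)) :
    ((∑ᶠ b ∈ {b : Set (Cfsg.IrrCharacter K) | Cfsg.IsInducedBlock M K b B}, Cfsg.blockRank p b : ℕ) : ℂ)
      = (Nat.card K : ℂ)⁻¹ * ∑ s : K, if p ∣ orderOf s then 0 else
          ∑ η ∈ (indSet M K B).toFinite.toFinset, η.1 s * starRingEnd ℂ (η.1 s) := by
  classical
  have hsplit : (∑ η ∈ (indSet M K B).toFinite.toFinset,
      Cfsg.classInner (Cfsg.pRegularPart p η.1) η.1)
      = ∑ b ∈ (Set.toFinite {b : Set (Cfsg.IrrCharacter K) | Cfsg.IsInducedBlock M K b B}).toFinset,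
          (Cfsg.blockRank p b : ℂ) := by
    rw [← Finset.sum_fiberwise_of_maps_to
      (g := fun η : Cfsg.IrrCharacter K => Cfsg.blockOf M η.1)
      (t := (Set.toFinite {b : Set (Cfsg.IrrCharacter K) | Cfsg.IsInducedBlock M K b B}).toFinset)
      (fun η hη => by simpa [indSet] using hη)]
    refine Finset.sum_congr rfl fun b hb => ?_
    have hb' : Cfsg.IsInducedBlock M K b B := by simpa using hb
    rw [blockRank_eq hM hb'.1]
    refine Finset.sum_congr ?_ fun _ _ => rfl
    ext η
    simp only [Finset.mem_filter, Set.Finite.mem_toFinset]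
    constructor
    · rintro ⟨-, h⟩
      rw [← h]; exact self_mem_blockOf hM η
    · intro h
      have := (block_eq_blockOf hM hb'.1 h).symm
      refine ⟨?_, this⟩
      show Cfsg.IsInducedBlock M K _ B
      rw [this]; exact hb'
  rw [finsum_mem_eq_finite_toFinset_sum _ (Set.toFinite _), Nat.cast_sum, ← hsplit]
  simp only [Cfsg.classInner, pRegularPart_apply, ite_mul, zero_mul]
  rw [← Finset.mul_sum, Finset.sum_comm]
  congr 1
  refine Finset.sum_congr rfl fun s _ => ?_
  split_ifs <;> simp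

/-- The number of characters of a block by subsections. -/
theorem card_block_eq (hM : Cfsg.IsPModular p M) {B : Set (Cfsg.IrrCharacter G)}
    (hB : Cfsg.IsPBlock M B) (X : Finset G) (hX : ∀ x ∈ X, ∃ k : ℕ, orderOf x = p ^ k)
    (hXrep : ∀ g : G, (∃ k : ℕ, orderOf g = p ^ k) → ∃! x, x ∈ X ∧ IsConj g x) :
    Nat.card B = ∑ x ∈ X, ∑ᶠ b ∈ {b : Set (Cfsg.IrrCharacter ↥(Subgroup.centralizer ({x} : Set G))) |
      Cfsg.IsInducedBlock M (Subgroup.centralizer ({x} : Set G)) b B}, Cfsg.blockRank p b := by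
  classical
  have hG : (Nat.card G : ℂ) ≠ 0 := by exact_mod_cast Nat.card_pos.ne'
  have h1 : (Nat.card G : ℂ) * (Nat.card B : ℂ)
      = ∑ g : G, ∑ χ ∈ B.toFinite.toFinset, (χ : G → ℂ) g * starRingEnd ℂ ((χ : G → ℂ) g) := by
    rw [Finset.sum_comm]
    have : ∀ χ : Cfsg.IrrCharacter G,
        ∑ g : G, (χ : G → ℂ) g * starRingEnd ℂ ((χ : G → ℂ) g) = (Nat.card G : ℂ) := by
      intro χ
      have h := Char.classInner_irr_self χ
      rw [Cfsg.classInner, inv_mul_eq_div, div_eq_iff hG, one_mul] at h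
      exact h
    rw [Finset.sum_congr rfl fun χ _ => this χ, Finset.sum_const, nsmul_eq_mul, mul_comm,
      Nat.card_coe_set_eq, Set.ncard_eq_toFinset_card]
  rw [sum_sections hM.1 X hX hXrep (fun g h => by
    simp only [Char.irr_isClassFunction _ g h])] at h1
  have h2 : (Nat.card G : ℂ) * (Nat.card B : ℂ) = (Nat.card G : ℂ) * ((∑ x ∈ X,
      ∑ᶠ b ∈ {b : Set (Cfsg.IrrCharacter ↥(Subgroup.centralizer ({x} : Set G))) |
        Cfsg.IsInducedBlock M (Subgroup.centralizer ({x} : Set G)) b B}, Cfsg.blockRank p b : ℕ) : ℂ) := by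
    rw [h1, Nat.cast_sum, Finset.mul_sum]
    refine Finset.sum_congr rfl fun x hx => ?_
    obtain ⟨k, hk⟩ := hX x hx
    rw [sum_blockRank hM]
    rw [← mul_assoc, show (Nat.card G : ℂ) * (Nat.card (Subgroup.centralizer ({x} : Set G)) : ℂ)⁻¹
        = ((Subgroup.centralizer ({x} : Set G)).index : ℂ) by
      rw [← Subgroup.card_mul_index (Subgroup.centralizer ({x} : Set G))]
      have : (Nat.card (Subgroup.centralizer ({x} : Set G)) : ℂ) ≠ 0 := by
        exact_mod_cast Nat.card_pos.ne'
      push_cast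
      field_simp]
    congr 1
    refine Finset.sum_congr rfl fun s _ => ?_
    split_ifs with hs
    · rfl
    · exact sum_pair hM hB hk hs hs
  exact_mod_cast mul_left_cancel₀ hG h2

/-- Pairs of a cyclic subgroup induce. -/
theorem isInducedBlock_of_hits (hM : Cfsg.IsPModular p M) {B : Set (Cfsg.IrrCharacter G)}
    (hB : Cfsg.IsPBlock M B) {P K : Subgroup G} [Fintype K] (hP : IsPGroup p P)
    (hK : K = Subgroup.centralizer (P : Set G)) (hPK : P ≤ K)
    {e : Set (Cfsg.IrrCharacter K)} (he : Cfsg.IsPBlock M e) {ξ : Cfsg.IrrCharacter K} (hξ : ξ ∈ e)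
    (h : ¬ Cfsg.MemLocalIdeal M (omega ξ.1 (trunc K (K : Set G) (idem B)))) :
    Cfsg.IsInducedBlock M K e B := by
  classical
  subst hK
  obtain ⟨B'', hB'', hBφ⟩ := (isModHom_trunc hM hP
    (H := Subgroup.centralizer (P : Set G)) le_rfl (centralizer_conj_mem _) ξ).exists_block
  obtain ⟨χ'', hχ''⟩ := block_nonempty hM hB''
  by_cases he' : B'' = B
  · subst he'
    refine isInducedBlock_of_hom hM he hB'' hξ hχ'' fun g => ?_
    rw [← trunc_coe_eq_univ]
    exact hBφ χ'' hχ'' _ (isCentral_classSum g) (classSum_mem hM g)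
  · have hh := hBφ χ'' hχ'' (idem B) (isCentral_idem B) (idem_block_mem hM hB)
    rw [omega_idem, if_neg (Set.disjoint_left.1 (disjoint_blocks hM hB'' hB he') hχ''), sub_zero] at hh
    exact absurd hh h

/-- A height zero character does not vanish on the subsections of its block. -/
theorem exists_subsection_ne (hM : Cfsg.IsPModular p M) {B : Set (Cfsg.IrrCharacter G)}
    (hB : Cfsg.IsPBlock M B) {χ : Cfsg.IrrCharacter G} (hχ : χ ∈ B)
    (h0 : Cfsg.blockHeight p B (χ : G → ℂ) = 0) {x : G} {k : ℕ} (hx : orderOf x = p ^ k)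
    [Fintype (Subgroup.centralizer ({x} : Set G))]
    {b : Set (Cfsg.IrrCharacter (Subgroup.centralizer ({x} : Set G)))}
    (hb : Cfsg.IsInducedBlock M (Subgroup.centralizer ({x} : Set G)) b B) :
    ∃ y : Subgroup.centralizer ({x} : Set G), ¬ p ∣ orderOf y ∧
      Cfsg.blockPart b (fun c : Subgroup.centralizer ({x} : Set G) => (χ : G → ℂ) (x * (c : G))) y ≠ 0 := by
  classical
  let f : Subgroup.centralizer ({x} : Set G) → ℂ := fun c => (χ : G → ℂ) c
  let g : Subgroup.centralizer ({x} : Set G) → ℂ := fun c => (χ : G → ℂ) (x * (c : G))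
  have hf : Cfsg.IsClassFunction _ f := fun a c => Char.irr_isClassFunction χ (a : G) (c : G)
  have hg : Cfsg.IsClassFunction _ g := isClassFunction_section (Char.irr_isClassFunction χ) x
  have hχc := Char.isCharacter_of_isIrrCharacter χ.2
  by_contra hcon
  push Not at hcon
  have hbi := idem_block_mem hM hb.1
  -- congruence of the two restrictions
  have hfg : ∀ c, Cfsg.MemLocalIdeal M (g c - f c) := by
    intro c
    obtain ⟨u, v, huv, hcuv, ⟨i, hi⟩, hv, hug, hvg⟩ := exists_pPart hM.1 (c : G)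
    have hxc : Commute x (c : G) := (Subgroup.mem_centralizer_singleton_iff.1 c.2).symm
    obtain ⟨a, ha⟩ := hug
    obtain ⟨d, hd⟩ := hvg
    have hxu : Commute x u := by rw [← ha]; exact hxc.zpow_right a
    have hxv : Commute x v := by rw [← hd]; exact hxc.zpow_right d
    obtain ⟨j, -, hj⟩ := (Nat.dvd_prime_pow hM.1).1 (show orderOf (x * u) ∣ p ^ (k + i) from
      (hxu.orderOf_mul_dvd_lcm).trans (Nat.lcm_dvd (hx ▸ pow_dvd_pow _ (Nat.le_add_right _ _))
        (hi ▸ pow_dvd_pow _ (Nat.le_add_left _ _))))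
    have h1 := li_char_pPart_sub hM hχc hj hv (hxv.mul_left hcuv)
    have h2 := li_char_pPart_sub hM hχc hi hv hcuv
    have h3 := li_sub hM h1 h2
    simp only [g, f]
    rw [← huv, ← mul_assoc]
    convert h3 using 1
    ring
  set E := regElt p f * idem b with hE
  have hfc : Cfsg.IsCharacter (Subgroup.centralizer ({x} : Set G)) f :=
    Char.isCharacter_comp hχc (Subgroup.centralizer ({x} : Set G)).subtype
  have hEc : IsCentral E := (isCentral_regElt p hf).mul (isCentral_idem b)
  obtain ⟨η, hη⟩ := block_nonempty hM hb.1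
  have h1 : ¬ Cfsg.MemLocalIdeal M (omega η.1 E) := by
    rw [hE, omega_mul η (isCentral_regElt p hf), omega_idem, if_pos hη, mul_one]
    intro hl
    have h2 := li_induced_sub hM hb hη hχ (isCentral_regElt p (Char.irr_isClassFunction χ))
      (regElt_mem hM hχc)
    rw [trunc_regElt] at h2
    have h3 := li_sub hM hl h2
    rw [sub_sub_cancel] at h3
    exact not_li_omega_regElt hM hB hχ h0 hχ h3
  refine h1 (li_omega hM η hEc fun c => ?_)
  let fr : Subgroup.centralizer ({x} : Set G) → ℂ := fun u => if p ∣ orderOf u then 0 else f u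
  have hfr : Cfsg.IsClassFunction _ fr := by
    intro a d
    simp only [fr]
    rw [hf a d, ← MulAut.conj_apply, MulEquiv.orderOf_eq]
  have hcoef : E.coeff c = ev fr (idem b * MonoidAlgebra.single c⁻¹ (1 : ℂ)) := by
    rw [hE, (isCentral_regElt p hf).comm, coeff_mul_sum, ev_mul_single]
    refine Finset.sum_congr rfl fun u _ => ?_
    simp only [regElt, coeff_ga, fr]
    rw [show (u⁻¹ * c)⁻¹ = c⁻¹ * u by group]
    have ho : orderOf (u⁻¹ * c) = orderOf (u * c⁻¹) := by
      rw [← orderOf_inv (u * c⁻¹)]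
      rw [show (u * c⁻¹)⁻¹ = c * u⁻¹ by group, ← MulEquiv.orderOf_eq (MulAut.conj u) (u⁻¹ * c)]
      simp
    rw [ho]
    split_ifs
    · rfl
    · congr 1
      have := hf (c⁻¹ * u) u
      rw [show u * (c⁻¹ * u) * u⁻¹ = u * c⁻¹ by group] at this
      exact this.symm
  rw [hcoef]
  by_cases hc : p ∣ orderOf c⁻¹
  · rw [← blockPart_eq hfr, Cfsg.blockPart, finsum_mem_eq_finite_toFinset_sum _ b.toFinite]
    simp only [Cfsg.classInner, mul_assoc, ← Finset.mul_sum, Finset.sum_mul]
    rw [Finset.sum_comm, Finset.sum_eq_zero, mul_zero]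
    · exact li_zero hM
    intro u _
    by_cases hu : p ∣ orderOf u
    · simp [fr, hu]
    · have h := sum_eq_zero_of_singular hM hbi hc hu
      simp only [mul_comm (starRingEnd ℂ _)]
      rw [← Finset.mul_sum, h, mul_zero]
  · have e1 : ev fr (idem b * MonoidAlgebra.single c⁻¹ (1 : ℂ))
        = ev f (idem b * MonoidAlgebra.single c⁻¹ (1 : ℂ)) := by
      have h2 := ev_eq_zero_of_regular hM hbi (θ := fun u => f u - fr u) (fun a d => by
        show f (d * a * d⁻¹) - fr (d * a * d⁻¹) = f a - fr a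
        rw [hf a d, hfr a d]) (fun u hu => by simp [fr, hu]) hc
      simp only [ev, mul_sub, Finset.sum_sub_distrib] at h2
      exact (sub_eq_zero.1 h2).symm
    rw [e1]
    have h3 : Cfsg.MemLocalIdeal M (ev (fun u => g u - f u) (idem b * MonoidAlgebra.single c⁻¹ (1 : ℂ))) := by
      refine li_sum hM _ fun u _ => li_mul_left hM ?_ (hfg u)
      exact mul_mem hbi (single_mem hM _) u
    simp only [ev, mul_sub, Finset.sum_sub_distrib] at h3
    have h4 : ev g (idem b * MonoidAlgebra.single c⁻¹ (1 : ℂ)) = 0 := by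
      rw [← blockPart_eq hg]; exact hcon _ hc
    rw [ev] at h4 ⊢
    rw [h4, zero_sub] at h3
    simpa using li_neg h3

end Cfsg.Agent.Blocks
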