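import Cfsg.Agent.Blocks.Subsection
import Cfsg.Agent.Blocks.PairBasic

/-!
# Norms of subsection parts
-/

namespace Cfsg.Agent.Blocks

universe u

variable {p : ℕ} {M : Ideal Cfsg.AlgInt} {G : Type u} [Group G] [Fintype G]

theorem isInducedBlock_of_brauerElement (hM : Cfsg.IsPModular p M) {B : Set (Cfsg.IrrCharacter G)}
    {u : G} {k : ℕ} (hu : orderOf u = p ^ k)
    {e : Set (Cfsg.IrrCharacter (Subgroup.centralizer (Subgroup.zpowers u : Set G)))}
    (h : Cfsg.IsBrauerPairOf p M B (Subgroup.zpowers u) e) :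
    Cfsg.IsInducedBlock M (Subgroup.centralizer (Subgroup.zpowers u : Set G)) e B := by
  classical
  haveI := Fintype.ofFinite (Subgroup.centralizer (Subgroup.zpowers u : Set G))
  obtain ⟨h1, h2, h3⟩ := isBrauerPairOf_iff.1 h
  obtain ⟨ξ, hξ⟩ := block_nonempty hM h1.2
  refine isInducedBlock_of_hits hM h2 h1.1 rfl ?_ h1.2 hξ fun hli => ?_
  · intro y hy
    refine Subgroup.mem_centralizer_iff.2 fun z hz => ?_
    obtain ⟨a, rfl⟩ := Subgroup.mem_zpowers_iff.1 hy
    obtain ⟨c, rfl⟩ := Subgroup.mem_zpowers_iff.1 hz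
    exact ((Commute.refl u).zpow_zpow c a).eq
  · have h4 := h3.pval hξ
    rw [pval] at h4
    have h5 := li_sub hM hli h4
    rw [sub_sub_cancel] at h5
    exact not_li_one hM h5

theorem blockPart_kernel {H : Type u} [Group H] [Fintype H] (A : Set (Cfsg.IrrCharacter H))
    (θ : H → ℂ) (s : H) :
    Cfsg.blockPart A θ s = (Nat.card H : ℂ)⁻¹ *
      ∑ c : H, θ c * ∑ η ∈ A.toFinite.toFinset, η.1 s * starRingEnd ℂ (η.1 c) := by
  classical
  simp only [Cfsg.blockPart, finsum_mem_eq_finite_toFinset_sum _ A.toFinite, Cfsg.classInner,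
    Finset.mul_sum, Finset.sum_mul]
  rw [Finset.sum_comm]
  refine Finset.sum_congr ?_ fun c _ => Finset.sum_congr rfl fun η _ => by ring
  ext c
  simp

/-- The sum over a block of the squared norms of the parts at a regular element. -/
theorem sum_blockPart_mul (hM : Cfsg.IsPModular p M) {B : Set (Cfsg.IrrCharacter G)}
    (hB : Cfsg.IsPBlock M B) {x : G} {k : ℕ} (hx : orderOf x = p ^ k)
    [Fintype (Subgroup.centralizer ({x} : Set G))]
    {e : Set (Cfsg.IrrCharacter (Subgroup.centralizer ({x} : Set G)))}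
    (he : Cfsg.IsInducedBlock M (Subgroup.centralizer ({x} : Set G)) e B)
    {s : Subgroup.centralizer ({x} : Set G)} (hs : ¬ p ∣ orderOf s) :
    ∑ χ ∈ B.toFinite.toFinset,
        Cfsg.blockPart e (fun c : Subgroup.centralizer ({x} : Set G) => (χ : G → ℂ) (x * (c : G))) s *
        starRingEnd ℂ (Cfsg.blockPart e
          (fun c : Subgroup.centralizer ({x} : Set G) => (χ : G → ℂ) (x * (c : G))) s)
      = ∑ η ∈ e.toFinite.toFinset, η.1 s * starRingEnd ℂ (η.1 s) := by
  classical
  let C := {c : Subgroup.centralizer ({x} : Set G) // ¬ p ∣ orderOf c}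
  let K : Subgroup.centralizer ({x} : Set G) → ℂ := fun c =>
    ∑ η ∈ e.toFinite.toFinset, η.1 s * starRingEnd ℂ (η.1 c)
  set n : ℂ := (Nat.card (Subgroup.centralizer ({x} : Set G)) : ℂ) with hn
  have hn0 : n ≠ 0 := by rw [hn]; exact_mod_cast Nat.card_pos.ne'
  have hsing : ∀ c, p ∣ orderOf c → K c = 0 := by
    intro c hc
    have h1 := sum_eq_zero_of_singular hM (idem_block_mem hM he.1) hc hs
    have h2 := congrArg (starRingEnd ℂ) h1
    rw [map_sum, map_zero] at h2
    rw [← h2]
    exact Finset.sum_congr rfl fun η _ => by simp [mul_comm]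
  have hfull : ∀ f : Subgroup.centralizer ({x} : Set G) → ℂ,
      ∑ c, f c * K c = ∑ c : C, f c.1 * K c.1 := by
    intro f
    rw [← Finset.sum_subtype (Finset.univ.filter fun c => ¬ p ∣ orderOf c) (fun c => by simp)
      (fun c => f c * K c), Finset.sum_filter]
    refine Finset.sum_congr rfl fun c _ => ?_
    split_ifs with hc
    · rw [hsing c hc, mul_zero]
    · rfl
  have hblk : ∀ η : Cfsg.IrrCharacter (Subgroup.centralizer ({x} : Set G)),
      ∑ c, η.1 c * K c = if η ∈ e then n * η.1 s else 0 := by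
    intro η
    simp only [K, Finset.mul_sum]
    rw [Finset.sum_comm]
    have : ∀ ζ : Cfsg.IrrCharacter (Subgroup.centralizer ({x} : Set G)),
        ∑ c, η.1 c * (ζ.1 s * starRingEnd ℂ (ζ.1 c)) = ζ.1 s * (n * Cfsg.classInner η.1 ζ.1) := by
      intro ζ
      rw [Cfsg.classInner, ← mul_assoc n, mul_inv_cancel₀ hn0, one_mul, Finset.mul_sum]
      exact Finset.sum_congr (Finset.eq_univ_of_forall fun y => Finset.mem_univ y) fun c _ => by ring
    rw [Finset.sum_congr rfl fun ζ _ => this ζ]
    simp only [Char.classInner_irr, mul_ite, mul_one, mul_zero]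
    rw [Finset.sum_ite_eq]
    simp only [Set.Finite.mem_toFinset, mul_comm n]
  simp only [blockPart_kernel]
  have hL : ∀ χ : Cfsg.IrrCharacter G,
      ∑ c : Subgroup.centralizer ({x} : Set G), (χ : G → ℂ) (x * (c : G)) * K c
        = ∑ c : C, (χ : G → ℂ) (x * ((c.1 : Subgroup.centralizer ({x} : Set G)) : G)) * K c.1 :=
    fun χ => hfull _
  calc _ = ∑ χ ∈ B.toFinite.toFinset,
        (n⁻¹ * ∑ c : C, (χ : G → ℂ) (x * ((c.1 : Subgroup.centralizer ({x} : Set G)) : G)) * K c.1)
          * starRingEnd ℂ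
        (n⁻¹ * ∑ c : C, (χ : G → ℂ) (x * ((c.1 : Subgroup.centralizer ({x} : Set G)) : G)) * K c.1) :=
        Finset.sum_congr rfl fun χ _ => by rw [← hL χ]
    _ = n⁻¹ * n⁻¹ * ∑ c : C, ∑ d : C, K c.1 * starRingEnd ℂ (K d.1) *
          ∑ χ ∈ B.toFinite.toFinset, (χ : G → ℂ) (x * ((c.1 : Subgroup.centralizer ({x} : Set G)) : G))
            * starRingEnd ℂ ((χ : G → ℂ) (x * ((d.1 : Subgroup.centralizer ({x} : Set G)) : G))) := by
        simp only [map_mul, map_sum, map_inv₀, hn, map_natCast, Finset.mul_sum, Finset.sum_mul]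
        rw [Finset.sum_comm]
        conv_lhs => enter [2, d]; rw [Finset.sum_comm]
        rw [Finset.sum_comm]
        exact Finset.sum_congr rfl fun c _ => Finset.sum_congr rfl fun d _ =>
          Finset.sum_congr rfl fun χ _ => by ring
    _ = n⁻¹ * n⁻¹ * ∑ c : C, ∑ d : C, K c.1 * starRingEnd ℂ (K d.1) *
          ∑ η ∈ (indSet M (Subgroup.centralizer ({x} : Set G)) B).toFinite.toFinset,
            η.1 c.1 * starRingEnd ℂ (η.1 d.1) := by
        congr 1
        exact Finset.sum_congr rfl fun c _ => Finset.sum_congr rfl fun d _ => by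
          rw [sum_pair hM hB hx c.2 d.2]
    _ = n⁻¹ * n⁻¹ * ∑ η ∈ (indSet M (Subgroup.centralizer ({x} : Set G)) B).toFinite.toFinset,
          (∑ c : C, η.1 c.1 * K c.1) * starRingEnd ℂ (∑ c : C, η.1 c.1 * K c.1) := by
        congr 1
        simp only [map_sum, map_mul, Finset.mul_sum, Finset.sum_mul]
        rw [Finset.sum_comm]
        conv_lhs => enter [2, d]; rw [Finset.sum_comm]
        rw [Finset.sum_comm]
        exact Finset.sum_congr rfl fun η _ => Finset.sum_congr rfl fun c _ =>
          Finset.sum_congr rfl fun d _ => by ring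
    _ = n⁻¹ * n⁻¹ * ∑ η ∈ (indSet M (Subgroup.centralizer ({x} : Set G)) B).toFinite.toFinset,
          if η ∈ e then (n * η.1 s) * starRingEnd ℂ (n * η.1 s) else 0 := by
        congr 1
        refine Finset.sum_congr rfl fun η _ => ?_
        rw [← hfull, hblk]
        split_ifs <;> simp
    _ = _ := by
        rw [← Finset.sum_filter, Finset.mul_sum]
        refine Finset.sum_congr ?_ fun η _ => ?_
        · ext η
          simp only [Finset.mem_filter, Set.Finite.mem_toFinset, and_iff_right_iff_imp]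
          intro hη
          show Cfsg.IsInducedBlock M _ _ B
          rwa [← block_eq_blockOf hM he.1 hη]
        · rw [map_mul, hn, map_natCast, ← hn]
          field_simp

/-- The norm sum of a subsection. -/
theorem sum_norm_subsection (hM : Cfsg.IsPModular p M) {B : Set (Cfsg.IrrCharacter G)}
    (hB : Cfsg.IsPBlock M B) {x : G} {k : ℕ} (hx : orderOf x = p ^ k) {K : Subgroup G} [Fintype K]
    (hK : K = Subgroup.centralizer ({x} : Set G)) {e : Set (Cfsg.IrrCharacter K)}
    (he : Cfsg.IsInducedBlock M K e B) :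
    ∑ χ ∈ B.toFinite.toFinset, ∑ s : K,
      Cfsg.pRegularPart p (Cfsg.blockPart e (fun c : K => (χ : G → ℂ) (x * c))) s *
        Cfsg.blockPart e (fun c : K => (χ : G → ℂ) (x⁻¹ * c)) s⁻¹
      = (Nat.card K : ℂ) * (Cfsg.blockRank p e : ℂ) := by
  classical
  subst hK
  have hconj : ∀ (χ : Cfsg.IrrCharacter G) (s : Subgroup.centralizer ({x} : Set G)),
      Cfsg.blockPart e (fun c : Subgroup.centralizer ({x} : Set G) => (χ : G → ℂ) (x⁻¹ * c)) s⁻¹
        = starRingEnd ℂ (Cfsg.blockPart e
            (fun c : Subgroup.centralizer ({x} : Set G) => (χ : G → ℂ) (x * c)) s) := by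
    intro χ s
    simp only [blockPart_kernel, map_mul, map_sum, map_inv₀, map_natCast]
    congr 1
    refine Fintype.sum_equiv (Equiv.inv _) _ _ fun c => ?_
    have hc : x⁻¹ * (c : G) = ((c⁻¹ : Subgroup.centralizer ({x} : Set G)) : G)⁻¹ * x⁻¹ := by
      rw [Subgroup.coe_inv, inv_inv]
      exact (Commute.inv_right (Subgroup.mem_centralizer_singleton_iff.1 c.2)).eq.symm
    simp only [Equiv.inv_apply, starRingEnd_self_apply, Char.irr_apply_inv]
    rw [hc, ← mul_inv_rev, Char.irr_apply_inv]
  rw [Finset.sum_comm]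
  simp only [pRegularPart_apply, ite_mul, zero_mul, hconj]
  have : ∀ s : Subgroup.centralizer ({x} : Set G),
      (∑ χ ∈ B.toFinite.toFinset, if p ∣ orderOf s then 0 else
        Cfsg.blockPart e (fun c : Subgroup.centralizer ({x} : Set G) => (χ : G → ℂ) (x * c)) s *
          starRingEnd ℂ (Cfsg.blockPart e
            (fun c : Subgroup.centralizer ({x} : Set G) => (χ : G → ℂ) (x * c)) s))
      = if p ∣ orderOf s then 0 else ∑ η ∈ e.toFinite.toFinset, η.1 s * starRingEnd ℂ (η.1 s) := by
    intro s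
    split_ifs with hs
    · simp
    · exact sum_blockPart_mul hM hB hx he hs
  rw [Finset.sum_congr rfl fun s _ => this s, blockRank_eq hM he.1]
  simp only [Cfsg.classInner, pRegularPart_apply, ite_mul, zero_mul, ← Finset.mul_sum]
  have hn0 : (Nat.card (Subgroup.centralizer ({x} : Set G)) : ℂ) ≠ 0 := by
    exact_mod_cast Nat.card_pos.ne'
  rw [← mul_assoc, mul_inv_cancel₀ hn0, one_mul, Finset.sum_comm (s := e.toFinite.toFinset)]
  refine Finset.sum_congr (Finset.eq_univ_of_forall fun y => Finset.mem_univ y).symm fun s _ => ?_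
  split_ifs <;> simp

end Cfsg.Agent.Blocks
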